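/-
Splitting a permutation of `p`-power order by a `p`-cycle: the combinatorics behind the fusion of
alternating groups.
-/
import Mathlib.GroupTheory.Sylow
import Mathlib.GroupTheory.GroupAction.Period
import Mathlib.GroupTheory.Perm.Cycle.Type
set_option autoImplicit false

namespace Cfsg.Agent.Fusion.AltSplit

open Equiv Equiv.Perm

variable {α : Type*} [Fintype α] [DecidableEq α] {p : ℕ} [hp : Fact p.Prime] {x : Perm α} {a b : α}

/-- The length of the cycle of a point. -/
noncomputable abbrev per (x : Perm α) (a : α) : ℕ := MulAction.period x a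

omit hp in
theorem zpow_fix_iff {j : ℤ} : (x ^ j) a = a ↔ (per x a : ℤ) ∣ j :=
  MulAction.zpow_smul_eq_iff_period_dvd (g := x) (a := a)

omit hp in
theorem pow_fix_iff {j : ℕ} : (x ^ j) a = a ↔ per x a ∣ j :=
  MulAction.pow_smul_eq_iff_period_dvd (m := x) (a := a)

omit hp in
theorem per_zpow (i : ℤ) : per x ((x ^ i) a) = per x a := by
  have h : ∀ j : ℕ, (x ^ j) ((x ^ i) a) = (x ^ i) a ↔ (x ^ j) a = a := fun j => by
    rw [← Perm.mul_apply, ← zpow_natCast, ← zpow_add, add_comm, zpow_add, Perm.mul_apply,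
      EmbeddingLike.apply_eq_iff_eq]
  exact Nat.dvd_antisymm (pow_fix_iff.mp ((h _).mpr (pow_fix_iff.mpr dvd_rfl)))
    (pow_fix_iff.mp ((h _).mp (pow_fix_iff.mpr dvd_rfl)))

omit hp in
theorem per_fixed (h : x a = a) : per x a = 1 :=
  Nat.dvd_one.mp (pow_fix_iff.mp (by rwa [pow_one]))

variable (p) in
/-- The part of order `p` at the bottom of the cycle of `a`. -/
noncomputable def cyc (x : Perm α) (a : α) : Perm α := (x ^ (per x a / p)).cycleOf a

theorem per_eq_mul (hx : ∃ k, x ^ p ^ k = 1) (ha : x a ≠ a) :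
    per x a = per x a / p * p ∧ 0 < per x a / p := by
  obtain ⟨k, hk⟩ := hx
  have hd : per x a ∣ p ^ k := pow_fix_iff.mp (by rw [hk]; rfl)
  obtain ⟨i, -, hi⟩ := (Nat.dvd_prime_pow hp.out).mp hd
  rcases i with _ | i
  · exact absurd (by simpa using (pow_fix_iff (x := x) (a := a)).mpr (hi ▸ dvd_rfl : per x a ∣ 1)) ha
  · rw [hi, pow_succ, Nat.mul_div_cancel _ hp.out.pos]
    exact ⟨rfl, pow_pos hp.out.pos _⟩

omit hp in
theorem sameCycle_zpow_iff {q : ℕ} (hq : q ∣ per x a) {i : ℤ} :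
    SameCycle (x ^ q) a ((x ^ i) a) ↔ (q : ℤ) ∣ i := by
  constructor
  · rintro ⟨j, hj⟩
    have h : (x ^ (-i + q * j)) a = a := by
      rw [zpow_add, Perm.mul_apply, zpow_mul, zpow_natCast, hj, ← Perm.mul_apply, zpow_neg,
        inv_mul_cancel, Perm.one_apply]
    have := (Int.natCast_dvd_natCast.mpr hq).trans (zpow_fix_iff.mp h)
    simpa using (dvd_add_left (dvd_mul_right (q : ℤ) j)).mp this
  · rintro ⟨j, rfl⟩
    exact ⟨j, by rw [zpow_mul, zpow_natCast]⟩

omit hp in
theorem cyc_apply (hdvd : per x a / p ∣ per x a) (i : ℤ) :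
    cyc p x a ((x ^ i) a) = if ((per x a / p : ℕ) : ℤ) ∣ i then (x ^ (i + (per x a / p : ℕ))) a
      else (x ^ i) a := by
  rw [cyc, cycleOf_apply]
  by_cases h : ((per x a / p : ℕ) : ℤ) ∣ i
  · rw [if_pos ((sameCycle_zpow_iff hdvd).mpr h), if_pos h, ← Perm.mul_apply, ← zpow_natCast,
      ← zpow_add, add_comm]
  · rw [if_neg (mt (sameCycle_zpow_iff hdvd).mp h), if_neg h]

omit hp in
theorem cyc_apply_self : cyc p x a a = (x ^ (per x a / p)) a := cycleOf_apply_self _ _

omit hp in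
theorem sameCycle_of_moved (h : cyc p x a b ≠ b) :
    SameCycle (x ^ (per x a / p)) a b := by
  by_contra hn
  exact h (cycleOf_apply_of_not_sameCycle hn)

omit hp in
theorem exists_zpow_of_moved (h : cyc p x a b ≠ b) : ∃ i : ℤ, b = (x ^ i) a := by
  obtain ⟨j, hj⟩ := sameCycle_of_moved h
  exact ⟨(per x a / p : ℕ) * j, by rw [zpow_mul, zpow_natCast, hj]⟩

omit hp in
theorem cyc_eq_of_moved (h : cyc p x a b ≠ b) : cyc p x a = cyc p x b := by
  obtain ⟨i, hi⟩ := exists_zpow_of_moved h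
  rw [cyc, cyc, hi, per_zpow, ← hi]
  exact (sameCycle_of_moved h).cycleOf_eq

omit hp in
theorem cyc_commute (a b : α) : Commute (cyc p x a) (cyc p x b) := by
  by_cases h : ∃ c, cyc p x a c ≠ c ∧ cyc p x b c ≠ c
  · obtain ⟨c, h1, h2⟩ := h
    rw [cyc_eq_of_moved h1, cyc_eq_of_moved h2]
  · exact (show Perm.Disjoint (cyc p x a) (cyc p x b) from fun c =>
      (em (cyc p x a c = c)).imp_right fun h1 => not_not.mp fun h2 => h ⟨c, h1, h2⟩).commute

theorem cyc_pow (hx : ∃ k, x ^ p ^ k = 1) (a : α) : cyc p x a ^ p = 1 := by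
  ext b
  rw [Perm.one_apply]
  by_cases hb : cyc p x a b = b
  · exact pow_apply_eq_self_of_apply_eq_self hb p
  rw [cyc_eq_of_moved hb, cyc, cycleOf_pow_apply_self, ← pow_mul]
  by_cases h1 : x b = b
  · exact pow_apply_eq_self_of_apply_eq_self h1 _
  rw [← (per_eq_mul hx h1).1]
  exact pow_fix_iff.mpr dvd_rfl

omit hp in
theorem cyc_conj (a : α) : x * cyc p x a * x⁻¹ = cyc p x (x a) := by
  have hper : per x (x a) = per x a := by simpa using per_zpow (x := x) (a := a) 1
  ext b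
  rw [Perm.mul_apply, Perm.mul_apply, cyc, cyc, hper, cycleOf_apply, cycleOf_apply]
  have hcomm : ∀ c, (x ^ (per x a / p)) (x c) = x ((x ^ (per x a / p)) c) := fun c => by
    rw [← Perm.mul_apply, ← pow_succ, pow_succ', Perm.mul_apply]
  have key : SameCycle (x ^ (per x a / p)) a (x⁻¹ b) ↔ SameCycle (x ^ (per x a / p)) (x a) b := by
    constructor <;> intro h
    · have := h.conj (g := x)
      rwa [show x * x ^ (per x a / p) * x⁻¹ = x ^ (per x a / p) by
        rw [← pow_succ', pow_succ, mul_inv_cancel_right],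
        show x (x⁻¹ b) = b from x.apply_symm_apply b] at this
    · have := h.conj (g := x⁻¹)
      rwa [show x⁻¹ * x ^ (per x a / p) * x⁻¹⁻¹ = x ^ (per x a / p) by
        rw [inv_inv, mul_assoc, ← pow_succ, pow_succ', inv_mul_cancel_left],
        show x⁻¹ (x a) = a from x.symm_apply_apply a] at this
  by_cases hc : SameCycle (x ^ (per x a / p)) a (x⁻¹ b)
  · rw [if_pos hc, if_pos (key.mp hc), ← hcomm, show x (x⁻¹ b) = b from x.apply_symm_apply b]
  · rw [if_neg hc, if_neg (mt key.mpr hc), show x (x⁻¹ b) = b from x.apply_symm_apply b]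

variable (p) in
/-- The elementary abelian group generated by the bottom parts. -/
def dgrp (x : Perm α) : Subgroup (Perm α) := Subgroup.closure (Set.range (cyc p x))

variable (p) in
/-- A `p`-group containing `x` and its bottom parts. -/
def rgrp (x : Perm α) : Subgroup (Perm α) := dgrp p x ⊔ Subgroup.zpowers x

omit hp in
theorem dgrp_commute {y z : Perm α} (hy : y ∈ dgrp p x) (hz : z ∈ dgrp p x) : Commute y z := by
  induction hy using Subgroup.closure_induction with
  | mem y hy =>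
    obtain ⟨c, rfl⟩ := hy
    induction hz using Subgroup.closure_induction with
    | mem z hz => obtain ⟨d, rfl⟩ := hz; exact cyc_commute c d
    | one => exact Commute.one_right _
    | mul _ _ _ _ h1 h2 => exact h1.mul_right h2
    | inv _ _ h => exact h.inv_right
  | one => exact Commute.one_left _
  | mul _ _ _ _ h1 h2 => exact h1.mul_left h2
  | inv _ _ h => exact h.inv_left

theorem isPGroup_rgrp (hx : ∃ k, x ^ p ^ k = 1) : IsPGroup p (rgrp p x) := by
  have hD : IsPGroup p (dgrp p x) := by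
    intro y
    refine ⟨1, Subtype.ext ?_⟩
    obtain ⟨y, hy⟩ := y
    show y ^ p ^ 1 = 1
    rw [pow_one]
    induction hy using Subgroup.closure_induction with
    | mem y hy => obtain ⟨c, rfl⟩ := hy; exact cyc_pow hx c
    | one => exact one_pow p
    | mul y z hy hz h1 h2 => rw [(dgrp_commute hy hz).mul_pow, h1, h2, one_mul]
    | inv y _ h => rw [inv_pow, h, inv_one]
  have hX : IsPGroup p (Subgroup.zpowers x) := by
    obtain ⟨k, hk⟩ := hx
    rintro ⟨y, hy⟩
    obtain ⟨i, rfl⟩ := Subgroup.mem_zpowers_iff.mp hy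
    exact ⟨k, Subtype.ext (by
      show (x ^ i) ^ p ^ k = 1
      rw [← zpow_natCast, ← zpow_mul, mul_comm, zpow_mul, zpow_natCast, hk, one_zpow])⟩
  refine hD.to_sup_of_normal_left' hX ?_
  rw [Subgroup.zpowers_le]
  refine Subgroup.mem_normalizer_fintype fun y hy => ?_
  induction hy using Subgroup.closure_induction with
  | mem y hy =>
    obtain ⟨c, rfl⟩ := hy
    rw [SetLike.mem_coe, cyc_conj]
    exact Subgroup.subset_closure ⟨_, rfl⟩
  | one => simp
  | mul y z _ _ h1 h2 => rw [SetLike.mem_coe, ← conj_mul]; exact mul_mem h1 h2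
  | inv y _ h => rw [SetLike.mem_coe, ← conj_inv]; exact inv_mem h

theorem cyc_mem_rgrp (a : α) : cyc p x a ∈ rgrp p x :=
  Subgroup.mem_sup_left (Subgroup.subset_closure ⟨a, rfl⟩)

theorem self_mem_rgrp : x ∈ rgrp p x := Subgroup.mem_sup_right (Subgroup.mem_zpowers x)

theorem split_mem (a : α) : x * (cyc p x a)⁻¹ ∈ rgrp p x :=
  mul_mem self_mem_rgrp (inv_mem (cyc_mem_rgrp a))

omit hp in
theorem split_apply_off (h : ∀ i : ℤ, b ≠ (x ^ i) a) : (x * (cyc p x a)⁻¹) b = x b := by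
  rw [Perm.mul_apply]
  refine congrArg x (inv_eq_iff_eq.mpr ?_)
  by_contra hne
  obtain ⟨i, hi⟩ := exists_zpow_of_moved (Ne.symm hne)
  exact h i hi

omit hp in
theorem split_pow_off (h : ∀ i : ℤ, b ≠ (x ^ i) a) (n : ℕ) :
    ((x * (cyc p x a)⁻¹) ^ n) b = (x ^ n) b := by
  induction n with
  | zero => rfl
  | succ n ih =>
    rw [pow_succ', Perm.mul_apply, ih, pow_succ' x, Perm.mul_apply]
    refine split_apply_off fun i hi => h (-(n : ℤ) + i) ?_
    rw [zpow_add, Perm.mul_apply, ← hi, ← zpow_natCast, ← Perm.mul_apply, ← zpow_add, neg_add_cancel,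
      zpow_zero, Perm.one_apply]

omit hp in
theorem per_split_off (h : ∀ i : ℤ, b ≠ (x ^ i) a) : per (x * (cyc p x a)⁻¹) b = per x b :=
  Nat.dvd_antisymm (pow_fix_iff.mp (by rw [split_pow_off h]; exact pow_fix_iff.mpr dvd_rfl))
    (pow_fix_iff.mp (by rw [← split_pow_off h]; exact pow_fix_iff.mpr dvd_rfl))

theorem per_split_on (hx : ∃ k, x ^ p ^ k = 1) (ha : x a ≠ a) (i : ℤ) :
    per (x * (cyc p x a)⁻¹) ((x ^ i) a) ∣ per x a / p := by
  obtain ⟨hper, hq⟩ := per_eq_mul hx ha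
  have hdvd : per x a / p ∣ per x a := ⟨p, hper⟩
  set q := per x a / p with hqdef
  set y := x * (cyc p x a)⁻¹
  have hinv : ∀ i : ℤ, (cyc p x a)⁻¹ ((x ^ i) a) =
      if (q : ℤ) ∣ i then (x ^ (i - q)) a else (x ^ i) a := by
    intro i
    rw [inv_eq_iff_eq]
    by_cases h : (q : ℤ) ∣ i
    · rw [if_pos h, cyc_apply hdvd, if_pos (dvd_sub h dvd_rfl), ← hqdef, sub_add_cancel]
    · rw [if_neg h, cyc_apply hdvd, if_neg h]
  have hy : ∀ i : ℤ, y ((x ^ i) a) =
      if (q : ℤ) ∣ i then (x ^ (i - q + 1)) a else (x ^ (i + 1)) a := by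
    intro i
    rw [Perm.mul_apply, hinv]
    split_ifs <;> rw [← Perm.mul_apply, ← zpow_one_add, add_comm]
  have hwalk : ∀ (i : ℤ), (q : ℤ) ∣ i → ∀ j : ℕ, 1 ≤ j → j ≤ q →
      (y ^ j) ((x ^ i) a) = (x ^ (i - q + j)) a := by
    intro i hi j
    induction j with
    | zero => intro h; omega
    | succ j ih =>
      intro _ hjq
      rw [pow_succ', Perm.mul_apply]
      rcases Nat.eq_zero_or_pos j with rfl | hj
      · rw [pow_zero, Perm.one_apply, hy, if_pos hi]; simp
      · rw [ih hj (by omega), hy, if_neg ?_]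
        · push_cast; rw [add_assoc]
        · intro hd
          have := (dvd_add_right (dvd_sub hi dvd_rfl)).mp hd
          rw [Int.natCast_dvd_natCast] at this
          exact absurd (Nat.le_of_dvd hj this) (by omega)
  have hfix0 : ∀ i : ℤ, (q : ℤ) ∣ i → (y ^ q) ((x ^ i) a) = (x ^ i) a := fun i hi => by
    rw [hwalk i hi q hq le_rfl]; simp
  apply pow_fix_iff.mp
  have hr0 := Int.emod_nonneg i (show (q : ℤ) ≠ 0 by omega)
  have hr1 := Int.emod_lt_of_pos i (show (0 : ℤ) < q by omega)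
  have hdi : (q : ℤ) ∣ i - i % q := Int.dvd_self_sub_emod
  rcases eq_or_ne (i % q) 0 with h0 | h0
  · exact hfix0 i (Int.dvd_of_emod_eq_zero h0)
  · have hi' : (q : ℤ) ∣ i - i % q + q := dvd_add hdi dvd_rfl
    have hw := hwalk (i - i % q + q) hi' (i % q).toNat (by omega) (by omega)
    rw [show i - i % (q : ℤ) + q - q + ((i % q).toNat : ℤ) = i by omega] at hw
    rw [← hw, ← Perm.mul_apply, ← pow_add, add_comm, pow_add, Perm.mul_apply, hfix0 _ hi']

theorem per_split_le (hx : ∃ k, x ^ p ^ k = 1) (ha : x a ≠ a) (b : α) :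
    per (x * (cyc p x a)⁻¹) b ≤ per x b := by
  by_cases h : ∃ i : ℤ, b = (x ^ i) a
  · obtain ⟨i, rfl⟩ := h
    rw [per_zpow]
    obtain ⟨h1, h2⟩ := per_eq_mul hx ha
    exact (Nat.le_of_dvd h2 (per_split_on hx ha i)).trans (Nat.div_le_self _ _)
  · exact (per_split_off (fun i hi => h ⟨i, hi⟩)).le

theorem sum_per_split_lt (hx : ∃ k, x ^ p ^ k = 1) (ha : x a ≠ a) :
    ∑ b, per (x * (cyc p x a)⁻¹) b < ∑ b, per x b := by
  refine Finset.sum_lt_sum (fun b _ => per_split_le hx ha b) ⟨a, Finset.mem_univ a, ?_⟩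
  obtain ⟨h1, h2⟩ := per_eq_mul hx ha
  have h := per_split_on hx ha 0
  rw [zpow_zero, Perm.one_apply] at h
  exact (Nat.le_of_dvd h2 h).trans_lt (Nat.div_lt_self (h2.trans_le (Nat.div_le_self _ _)) hp.out.one_lt)

theorem cyc_isCycle (hx : ∃ k, x ^ p ^ k = 1) (ha : x a ≠ a) :
    (cyc p x a).IsCycle ∧ (cyc p x a).support.card = p := by
  obtain ⟨h1, h2⟩ := per_eq_mul hx ha
  have hne : (x ^ (per x a / p)) a ≠ a := fun h => by
    have := Nat.le_of_dvd h2 (pow_fix_iff.mp h)
    have := Nat.div_lt_self (h2.trans_le (Nat.div_le_self _ _)) hp.out.one_lt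
    omega
  have hc : (cyc p x a).IsCycle := isCycle_cycleOf _ hne
  refine ⟨hc, ?_⟩
  rw [← hc.orderOf]
  exact orderOf_eq_prime (cyc_pow hx a) hc.ne_one

end Cfsg.Agent.Fusion.AltSplit
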