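/-
Alternating groups have no proper strongly closed subgroups in their Sylow subgroups (`p ^ 2 ≤ n`).
-/
import Cfsg.Agent.Fusion.AltSplit
import Cfsg.Agent.Fusion.SimpleCriterion
import Mathlib.GroupTheory.SpecificGroups.Alternating.Centralizer
set_option autoImplicit false

namespace Cfsg.Agent.Fusion.AltClosed

open Equiv Equiv.Perm Cfsg Cfsg.FusionSystem Cfsg.Agent.Fusion.AltSplit

variable {α : Type*} [Fintype α] [DecidableEq α] {p : ℕ} [hp : Fact p.Prime]

/-- Two elements of order `p` of the same support size are conjugate by an even permutation when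
there is room. -/
theorem conj_even {u v : Perm α} (hu : u ^ p = 1) (hu1 : u ≠ 1) (hv : v ^ p = 1) (hv1 : v ≠ 1)
    (hc : u.support.card = v.support.card)
    (hroom : u.support.card + 2 ≤ Fintype.card α ∨ 2 * p ≤ u.support.card) :
    ∃ g ∈ alternatingGroup α, g * u * g⁻¹ = v := by
  have hou := orderOf_eq_prime hu hu1
  have hov := orderOf_eq_prime hv hv1
  obtain ⟨i, hi⟩ := cycleType_prime_order (σ := u) (hou.symm ▸ hp.out)
  obtain ⟨j, hj⟩ := cycleType_prime_order (σ := v) (hov.symm ▸ hp.out)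
  rw [hou] at hi
  rw [hov] at hj
  have si := sum_cycleType u
  have sj := sum_cycleType v
  rw [hi, Multiset.sum_replicate, smul_eq_mul] at si
  rw [hj, Multiset.sum_replicate, smul_eq_mul, ← hc, ← si] at sj
  have hij := Nat.eq_of_mul_eq_mul_right hp.out.pos sj
  obtain ⟨g, hg⟩ := _root_.isConj_iff.mp (isConj_iff_cycleType_eq.mpr (by rw [hi, hj, hij] : u.cycleType = v.cycleType))
  by_cases hge : g ∈ alternatingGroup α
  · exact ⟨g, hge, hg⟩
  obtain ⟨h, hh, hha⟩ : ∃ h ∈ Subgroup.centralizer {u}, h ∉ alternatingGroup α := by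
    refine SetLike.not_le_iff_exists.mp fun hle => ?_
    obtain ⟨-, h2, h3⟩ := centralizer_le_alternating_iff.mp hle
    have h3' := h3 p
    rw [hi, Multiset.count_replicate_self] at h3'
    rw [sum_cycleType] at h2
    rcases hroom with h | h
    · omega
    · rw [← si] at h
      have := Nat.le_of_mul_le_mul_right (show 2 * p ≤ (i + 1) * p from h) hp.out.pos
      omega
  refine ⟨g * h, ?_, ?_⟩
  · rw [mem_alternatingGroup] at hge hha ⊢
    rw [map_mul, (Int.units_eq_one_or _).resolve_left hge, (Int.units_eq_one_or _).resolve_left hha,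
      Int.units_mul_self]
  · rw [Subgroup.mem_centralizer_singleton_iff] at hh
    rw [← hg, mul_assoc g h u, hh]
    group

variable {T₀ : Sylow p (alternatingGroup α)} {T : Subgroup (alternatingGroup α)}
  (hT : (groupFusionSystem (T₀ : Subgroup (alternatingGroup α))).StronglyClosed T)

/-- Every conjugate of `x` in the Sylow subgroup lies in `T`. -/
def Good (T₀ : Sylow p (alternatingGroup α)) (T : Subgroup (alternatingGroup α))
    (x : alternatingGroup α) : Prop :=
  ∀ g : alternatingGroup α, g * x * g⁻¹ ∈ (T₀ : Subgroup (alternatingGroup α)) → g * x * g⁻¹ ∈ T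

/-- `Good`, for permutations. -/
def GoodP (T₀ : Sylow p (alternatingGroup α)) (T : Subgroup (alternatingGroup α)) (y : Perm α) : Prop :=
  ∀ h : y ∈ alternatingGroup α, Good T₀ T ⟨y, h⟩

theorem GoodP.conj {u v : Perm α} (hu : GoodP T₀ T u) {g : Perm α} (hg : g ∈ alternatingGroup α)
    (e : g * u * g⁻¹ = v) : GoodP T₀ T v := by
  intro hv k hk
  have hu' : u ∈ alternatingGroup α := by
    have : u = g⁻¹ * v * g := by rw [← e]; group
    rw [this]
    exact mul_mem (mul_mem (inv_mem hg) hv) hg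
  have he : k * ⟨v, hv⟩ * k⁻¹ = (k * ⟨g, hg⟩) * ⟨u, hu'⟩ * (k * ⟨g, hg⟩)⁻¹ := by
    refine Subtype.ext ?_
    simp [← e, mul_assoc]
  rw [he] at hk ⊢
  exact hu hu' _ hk

include hT in
theorem GoodP.of_mem {y : alternatingGroup α} (hy : y ∈ T) : GoodP T₀ T (y : Perm α) :=
  fun _ g hg => stronglyClosed_conj_mem hT hy hg (_root_.isConj_iff.mpr ⟨g, rfl⟩)

include hT in
theorem GoodP.closure {R : Subgroup (Perm α)} (hR : IsPGroup p R) {X : Set (Perm α)}
    (hXR : X ⊆ R) (hXA : ∀ y ∈ X, y ∈ alternatingGroup α) (hX : ∀ y ∈ X, GoodP T₀ T y)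
    {y : Perm α} (hy : y ∈ Subgroup.closure X) : GoodP T₀ T y := by
  obtain ⟨Q, hQ⟩ := (hR.comap_subtype (K := alternatingGroup α)).exists_le_sylow
  obtain ⟨c, hc⟩ := MulAction.exists_smul_eq (alternatingGroup α) Q T₀
  have hmem : ∀ w : alternatingGroup α, (w : Perm α) ∈ R →
      c * w * c⁻¹ ∈ (T₀ : Subgroup (alternatingGroup α)) := fun w hw => by
    rw [← hc, Sylow.coe_subgroup_smul]
    exact ⟨w, hQ hw, rfl⟩
  intro hyA g hg
  have key : c * ⟨y, hyA⟩ * c⁻¹ ∈ T := by
    have h : y ∈ (T.map (MulAut.conj c⁻¹).toMonoidHom).map (alternatingGroup α).subtype := by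
      refine (Subgroup.closure_le _).mpr (fun w hw => ?_) hy
      refine ⟨⟨w, hXA w hw⟩, ⟨c * ⟨w, hXA w hw⟩ * c⁻¹, hX w hw _ c (hmem _ (hXR hw)), ?_⟩, rfl⟩
      simp [mul_assoc]
    obtain ⟨w, ⟨t, ht, rfl⟩, hw⟩ := h
    have : (MulAut.conj c⁻¹).toMonoidHom t = ⟨y, hyA⟩ := Subtype.ext hw
    rw [← this]
    simpa [mul_assoc] using ht
  refine stronglyClosed_conj_mem hT key hg (_root_.isConj_iff.mpr ⟨g * c⁻¹, ?_⟩)
  group

omit hp in
theorem pgroup_zpowers {u : Perm α} {k : ℕ} (hu : u ^ p ^ k = 1) : IsPGroup p (Subgroup.zpowers u) := by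
  rintro ⟨w, hw⟩
  obtain ⟨i, rfl⟩ := Subgroup.mem_zpowers_iff.mp hw
  exact ⟨k, Subtype.ext (by
    show (u ^ i) ^ p ^ k = 1
    rw [← zpow_natCast, ← zpow_mul, mul_comm, zpow_mul, zpow_natCast, hu, one_zpow])⟩

include hT in
theorem GoodP.mul_of_commute {u v : Perm α} (hu : GoodP T₀ T u) (hv : GoodP T₀ T v)
    (huA : u ∈ alternatingGroup α) (hvA : v ∈ alternatingGroup α) {k l : ℕ}
    (hup : u ^ p ^ k = 1) (hvp : v ^ p ^ l = 1) (hc : Commute u v) :
    GoodP T₀ T (u * v⁻¹) ∧ GoodP T₀ T (u * v) := by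
  have hR : IsPGroup p (Subgroup.zpowers u ⊔ Subgroup.zpowers v : Subgroup (Perm α)) := by
    refine (pgroup_zpowers hup).to_sup_of_normal_left' (pgroup_zpowers hvp) ?_
    rw [Subgroup.zpowers_le]
    refine Subgroup.mem_normalizer_fintype fun y hy => ?_
    obtain ⟨i, rfl⟩ := Subgroup.mem_zpowers_iff.mp hy
    rw [SetLike.mem_coe, (hc.zpow_left i).symm.eq, mul_inv_cancel_right]
    exact hy
  have hX : ∀ {y}, y ∈ Subgroup.closure ({u, v} : Set (Perm α)) → GoodP T₀ T y := fun hy =>
    GoodP.closure hT hR (by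
      rintro y (rfl | rfl)
      · exact Subgroup.mem_sup_left (Subgroup.mem_zpowers _)
      · exact Subgroup.mem_sup_right (Subgroup.mem_zpowers _))
      (by rintro y (rfl | rfl) <;> assumption) (by rintro y (rfl | rfl) <;> assumption) hy
  have h1 : u ∈ Subgroup.closure ({u, v} : Set (Perm α)) := Subgroup.subset_closure (Or.inl rfl)
  have h2 : v ∈ Subgroup.closure ({u, v} : Set (Perm α)) := Subgroup.subset_closure (Or.inr rfl)
  exact ⟨hX (mul_mem h1 (inv_mem h2)), hX (mul_mem h1 h2)⟩

/-- The smallest nontrivial `p`-elements of the alternating group. -/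
def Basic (p : ℕ) (u : Perm α) : Prop :=
  u ^ p = 1 ∧ u ∈ alternatingGroup α ∧ u.support.card = if p = 2 then 4 else p

omit hp in
theorem odd_order_mem {u : Perm α} {k : ℕ} (hodd : Odd p) (hu : u ^ p ^ k = 1) :
    u ∈ alternatingGroup α := by
  have h : Odd (p ^ k) := hodd.pow
  rw [mem_alternatingGroup]
  have h1 : sign u ^ p ^ k = 1 := by rw [← map_pow, hu, map_one]
  obtain ⟨r, hr⟩ := h
  rwa [hr, pow_succ, pow_mul, Int.units_sq, one_pow, one_mul] at h1

omit hp in
theorem ne_one_of_support {u : Perm α} {m : ℕ} (h : u.support.card = m) (hm : m ≠ 0) : u ≠ 1 := by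
  rintro rfl
  simp at h
  exact hm h.symm

/-- The two bottom parts of a pair of cycles form a double transposition. -/
theorem pair_basic {x : Perm α} (hx : ∃ k, x ^ p ^ k = 1) {a b : α} (ha : x a ≠ a) (hb : x b ≠ b)
    (hab : ∀ i : ℤ, b ≠ (x ^ i) a) :
    Perm.Disjoint (cyc p x a) (cyc p x b) ∧ (cyc p x a * cyc p x b).support.card = 2 * p ∧
      (cyc p x a * cyc p x b) ^ p = 1 := by
  have hd : Perm.Disjoint (cyc p x a) (cyc p x b) := fun c =>
    (em (cyc p x a c = c)).imp_right fun h1 => not_not.mp fun h2 => by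
      obtain ⟨i, hi⟩ := exists_zpow_of_moved h1
      obtain ⟨j, hj⟩ := exists_zpow_of_moved h2
      exact hab (-j + i) (by rw [zpow_add, Perm.mul_apply, ← hi, hj, ← Perm.mul_apply, ← zpow_add,
        neg_add_cancel, zpow_zero, Perm.one_apply])
  refine ⟨hd, ?_, ?_⟩
  · rw [hd.card_support_mul, (cyc_isCycle hx ha).2, (cyc_isCycle hx hb).2]; omega
  · rw [(cyc_commute a b).mul_pow, cyc_pow hx, cyc_pow hx, one_mul]

theorem exists_other_orbit {x : Perm α} (hx : ∃ k, x ^ 2 ^ k = 1) (hA : x ∈ alternatingGroup α)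
    {a : α} (ha : x a ≠ a) : ∃ b, x b ≠ b ∧ ∀ i : ℤ, b ≠ (x ^ i) a := by
  by_contra h
  push_neg at h
  have hc : x.IsCycle := ⟨a, ha, fun b hb => by
    obtain ⟨i, hi⟩ := h b hb
    exact ⟨i, hi.symm⟩⟩
  have hs := hc.sign
  rw [mem_alternatingGroup.mp hA, ← hc.orderOf] at hs
  obtain ⟨k, hk⟩ := hx
  obtain ⟨i, -, hi⟩ := (Nat.dvd_prime_pow Nat.prime_two).mp (orderOf_dvd_of_pow_eq_one hk)
  rcases i with _ | i
  · exact hc.ne_one (orderOf_eq_one_iff.mp hi)
  · rw [hi, Even.neg_one_pow ⟨2 ^ i, by ring⟩] at hs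
    exact absurd hs (by decide)

include hT in
/-- All `p`-elements are good once the basic ones are. -/
theorem good_all (hbasic : ∀ u : Perm α, Basic p u → GoodP T₀ T u) :
    ∀ (N : ℕ) (x : Perm α), ∑ b, per x b = N → (∃ k, x ^ p ^ k = 1) → GoodP T₀ T x := by
  intro N
  induction N using Nat.strong_induction_on with
  | _ N IH =>
  intro x hN hx hxA
  by_cases hx1 : x = 1
  · subst hx1
    exact GoodP.of_mem hT (y := 1) T.one_mem hxA
  obtain ⟨a, ha⟩ : ∃ a, x a ≠ a := by
    by_contra h
    push_neg at h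
    exact hx1 (Equiv.ext h)
  revert hxA
  obtain rfl | hodd := hp.out.eq_two_or_odd'
  · intro hxA
    obtain ⟨b, hb, hab⟩ := exists_other_orbit hx hxA ha
    set x' := x * (cyc 2 x a)⁻¹ with hx'def
    set u := cyc 2 x a * cyc 2 x b with hudef
    obtain ⟨hd, hsc, hup⟩ := pair_basic hx ha hb hab
    have huA : u ∈ alternatingGroup α := by
      rw [mem_alternatingGroup, hudef, map_mul, (cyc_isCycle hx ha).1.sign, (cyc_isCycle hx hb).1.sign,
        (cyc_isCycle hx ha).2, (cyc_isCycle hx hb).2]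
      decide
    have hR := isPGroup_rgrp hx
    have hx'R : x' ∈ rgrp 2 x := split_mem a
    have hx'p : ∃ k, x' ^ 2 ^ k = 1 := by
      obtain ⟨k, hk⟩ := hR ⟨x', hx'R⟩
      exact ⟨k, congrArg Subtype.val hk⟩
    have hb' : x' b ≠ b := by rw [hx'def, split_apply_off hab]; exact hb
    have hcb : cyc 2 x' b = cyc 2 x b := by
      have hoff : ∀ j : ℤ, ∀ i : ℤ, (x ^ j) b ≠ (x ^ i) a := fun j i h => hab (-j + i) (by
        rw [zpow_add, Perm.mul_apply, ← h, ← Perm.mul_apply, ← zpow_add, neg_add_cancel, zpow_zero,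
          Perm.one_apply])
      have hper : per x' b = per x b := per_split_off hab
      ext c
      rw [cyc, cyc, hper, cycleOf_apply, cycleOf_apply]
      have hpow : ∀ n : ℕ, (x' ^ n) b = (x ^ n) b := fun n => split_pow_off hab n
      have hiff : SameCycle (x' ^ (per x b / 2)) b c ↔ SameCycle (x ^ (per x b / 2)) b c := by
        constructor <;> intro h
        · obtain ⟨n, hn⟩ := h.exists_nat_pow_eq
          rw [← pow_mul, hpow, pow_mul] at hn
          exact ⟨n, by rw [zpow_natCast, hn]⟩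
        · obtain ⟨n, hn⟩ := h.exists_nat_pow_eq
          rw [← pow_mul, ← hpow, pow_mul] at hn
          exact ⟨n, by rw [zpow_natCast, hn]⟩
      by_cases hc : SameCycle (x ^ (per x b / 2)) b c
      · rw [if_pos hc, if_pos (hiff.mpr hc)]
        obtain ⟨n, rfl⟩ := hc
        rw [← zpow_natCast x (per x b / 2), ← zpow_mul]
        exact split_pow_off (hoff _) _
      · rw [if_neg hc, if_neg (mt hiff.mp hc)]
    set x'' := x' * (cyc 2 x' b)⁻¹ with hx''def
    have hlt : ∑ c, per x'' c < N := hN ▸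
      (sum_per_split_lt hx'p hb').trans (sum_per_split_lt hx ha)
    have hx''R : x'' ∈ rgrp 2 x := mul_mem hx'R (inv_mem (hcb.symm ▸ cyc_mem_rgrp b))
    have he : x = x'' * u := by
      rw [hx''def, hcb, hx'def, hudef, (cyc_commute a b).eq]
      group
    have hx''p : ∃ k, x'' ^ 2 ^ k = 1 := by
      obtain ⟨k, hk⟩ := hR ⟨x'', hx''R⟩
      exact ⟨k, congrArg Subtype.val hk⟩
    have hx''A : x'' ∈ alternatingGroup α := by
      rw [show x'' = x * u⁻¹ by rw [he]; group]
      exact mul_mem hxA (inv_mem huA)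
    refine (GoodP.closure hT hR (X := {x'', u}) ?_ ?_ ?_ ?_) hxA
    · rintro y (rfl | rfl)
      · exact hx''R
      · exact mul_mem (cyc_mem_rgrp a) (cyc_mem_rgrp b)
    · rintro y (rfl | rfl) <;> assumption
    · rintro y (rfl | rfl)
      · exact IH _ hlt x'' rfl hx''p
      · exact hbasic u ⟨hup, huA, by rw [hsc, if_pos rfl]⟩
    · have h1 : x'' ∈ Subgroup.closure ({x'', u} : Set (Perm α)) := Subgroup.subset_closure (Or.inl rfl)
      have h2 : u ∈ Subgroup.closure ({x'', u} : Set (Perm α)) := Subgroup.subset_closure (Or.inr rfl)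
      exact he ▸ mul_mem h1 h2
  · intro hxA
    set u := cyc p x a
    set x' := x * u⁻¹ with hx'def
    have hR := isPGroup_rgrp hx
    have hx'p : ∃ k, x' ^ p ^ k = 1 := by
      obtain ⟨k, hk⟩ := hR ⟨x', split_mem a⟩
      exact ⟨k, congrArg Subtype.val hk⟩
    have hup : u ^ p = 1 := cyc_pow hx a
    have hp2 : p ≠ 2 := fun h => by rw [h] at hodd; exact absurd hodd (by decide)
    have huA : u ∈ alternatingGroup α := odd_order_mem (k := 1) hodd (by rwa [pow_one])
    have hx'A : x' ∈ alternatingGroup α := mul_mem hxA (inv_mem huA)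
    refine (GoodP.closure hT hR (X := {x', u}) ?_ ?_ ?_ ?_) hxA
    · rintro y (rfl | rfl)
      · exact split_mem a
      · exact cyc_mem_rgrp a
    · rintro y (rfl | rfl) <;> assumption
    · rintro y (rfl | rfl)
      · exact IH _ (hN ▸ sum_per_split_lt hx ha) x' rfl hx'p
      · exact hbasic u ⟨hup, huA, by rw [if_neg hp2]; exact (cyc_isCycle hx ha).2⟩
    · have h1 : x' ∈ Subgroup.closure ({x', u} : Set (Perm α)) := Subgroup.subset_closure (Or.inl rfl)
      have h2 : u ∈ Subgroup.closure ({x', u} : Set (Perm α)) := Subgroup.subset_closure (Or.inr rfl)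
      have he : x = x' * u := (inv_mul_cancel_right x u).symm
      exact he ▸ mul_mem h1 h2

include hT in
/-- A nontrivial strongly closed subgroup contains a basic element up to conjugation. -/
theorem good_basic (hcard : 3 * p ≤ Fintype.card α) (hne : T ≠ ⊥) :
    ∀ u : Perm α, Basic p u → GoodP T₀ T u := by
  suffices h : ∃ u : Perm α, Basic p u ∧ GoodP T₀ T u by
    obtain ⟨u, ⟨hu, -, hus⟩, hgood⟩ := h
    rintro v ⟨hv, -, hvs⟩
    have hp2 := hp.out.two_le
    have hm : (if p = 2 then 4 else p) ≠ 0 := by split_ifs <;> omega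
    obtain ⟨g, hg, he⟩ := conj_even hu (ne_one_of_support hus hm) hv (ne_one_of_support hvs hm)
      (hus.trans hvs.symm) (by
        rw [hus]
        split_ifs with h
        · exact Or.inr (by omega)
        · exact Or.inl (by omega))
    exact hgood.conj hg he
  obtain ⟨z, hz, hzp, -⟩ := stronglyClosed_exists_central T₀.isPGroup' hT hne
  set x : Perm α := (z : Perm α) with hxdef
  have hgood : GoodP T₀ T x := GoodP.of_mem hT hz
  have hxA : x ∈ alternatingGroup α := z.2
  have hxo : orderOf x = p := by rw [hxdef, Subgroup.orderOf_coe, hzp]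
  have hx : ∃ k, x ^ p ^ k = 1 := ⟨1, by rw [pow_one, ← hxo, pow_orderOf_eq_one]⟩
  have hxp : x ^ p = 1 := by rw [← hxo, pow_orderOf_eq_one]
  have hx1 : x ≠ 1 := fun h => by rw [h, orderOf_one] at hxo; exact hp.out.ne_one hxo.symm
  obtain ⟨a, ha⟩ : ∃ a, x a ≠ a := by
    by_contra h
    push_neg at h
    exact hx1 (Equiv.ext h)
  have hper : ∀ b, x b ≠ b → per x b = p := fun b hb => by
    rcases (Nat.dvd_prime hp.out).mp (pow_fix_iff.mp (by rw [hxp]; rfl : (x ^ p) b = b)) with h | h
    · exact absurd (by simpa using pow_fix_iff.mpr h.dvd) hb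
    · exact h
  have hcyc : ∀ b, x b ≠ b → cyc p x b b = x b := fun b hb => by
    rw [cyc_apply_self, hper b hb, Nat.div_self hp.out.pos, pow_one]
  have hsame : ∀ b c, x b ≠ b → cyc p x b c ≠ c → cyc p x b c = x c := fun b c hb hc => by
    rw [cyc_eq_of_moved hc]
    refine hcyc c fun h => ?_
    obtain ⟨i, rfl⟩ := exists_zpow_of_moved hc
    rw [← Perm.mul_apply, ← zpow_one_add, add_comm, zpow_add, Perm.mul_apply, zpow_one,
      EmbeddingLike.apply_eq_iff_eq] at h
    exact hb h
  have horbit : ∀ b c, x b ≠ b → (∃ i : ℤ, c = (x ^ i) b) → cyc p x b c ≠ c := by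
    rintro b c hb ⟨i, rfl⟩
    rw [cyc_apply (by rw [hper b hb, Nat.div_self hp.out.pos]; exact one_dvd _), hper b hb,
      Nat.div_self hp.out.pos, Nat.cast_one, if_pos (one_dvd i), zpow_add, zpow_one, Perm.mul_apply]
    exact fun h => hb ((x ^ i).injective h)
  rcases hp.out.eq_two_or_odd' with h2 | hodd
  · subst h2
    obtain ⟨b, hb, hab⟩ := exists_other_orbit hx hxA ha
    obtain ⟨hd, hsc, hup⟩ := pair_basic hx ha hb hab
    by_cases heq : x = cyc 2 x a * cyc 2 x b
    · exact ⟨x, ⟨hxp, hxA, by rw [heq, hsc, if_pos rfl]⟩, hgood⟩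
    obtain ⟨c, hc⟩ : ∃ c, x c ≠ (cyc 2 x a * cyc 2 x b) c := by
      by_contra h; push_neg at h; exact heq (Equiv.ext h)
    have hca : cyc 2 x a c = c := by
      by_contra h
      apply hc
      rw [Perm.mul_apply, ((hd c).resolve_left h), hsame a c ha h]
    have hcb : cyc 2 x b c = c := by
      by_contra h
      apply hc
      have h' : cyc 2 x a (cyc 2 x b c) = cyc 2 x b c := by
        rcases hd (cyc 2 x b c) with e | e
        · exact e
        · exact absurd ((cyc 2 x b).injective e) h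
      rw [Perm.mul_apply, h', hsame b c hb h]
    have hcx : x c ≠ c := fun h => hc (by rw [Perm.mul_apply, hcb, hca, h])
    have hxx : ∀ d, x (x d) = d := fun d => by
      rw [← Perm.mul_apply, ← pow_two, hxp, Perm.one_apply]
    -- the six points
    have na : ∀ d, cyc 2 x a d = d → d ≠ a ∧ d ≠ x a := fun d hd' =>
      ⟨fun e => horbit a a ha ⟨0, by simp⟩ (e ▸ hd'),
        fun e => horbit a (x a) ha ⟨1, by simp⟩ (e ▸ hd')⟩
    have nb : ∀ d, cyc 2 x b d = d → d ≠ b ∧ d ≠ x b := fun d hd' =>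
      ⟨fun e => horbit b b hb ⟨0, by simp⟩ (e ▸ hd'),
        fun e => horbit b (x b) hb ⟨1, by simp⟩ (e ▸ hd')⟩
    have hba : b ≠ a ∧ b ≠ x a := ⟨fun e => hab 0 (by simpa using e), fun e => hab 1 (by simpa using e)⟩
    obtain ⟨hc1, hc2⟩ := na c hca
    obtain ⟨hc3, hc4⟩ := nb c hcb
    have hxc1 : x c ≠ a := fun e => hc2 (by rw [← e, hxx])
    have hxc2 : x c ≠ x a := fun e => hc1 (x.injective e)
    have hxc3 : x c ≠ b := fun e => hc4 (by rw [← e, hxx])
    have hxc4 : x c ≠ x b := fun e => hc3 (x.injective e)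
    have hxb1 : x b ≠ a := fun e => hba.2 (by rw [← e, hxx])
    have hxb2 : x b ≠ x a := fun e => hba.1 (x.injective e)
    set w := swap (x a) b * swap c (x c) with hw
    have hwA : w ∈ alternatingGroup α := by
      rw [mem_alternatingGroup, hw, map_mul, sign_swap hba.2.symm, sign_swap hcx.symm]
      decide
    set x' := w * x * w⁻¹ with hx'
    have hg' : GoodP T₀ T x' := hgood.conj hwA rfl
    have hwi : w⁻¹ = swap c (x c) * swap (x a) b := by rw [hw, _root_.mul_inv_rev, swap_inv, swap_inv]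
    have hx'v : ∀ d, x' d = swap (x a) b (swap c (x c) (x (swap c (x c) (swap (x a) b d)))) := fun d => by
      rw [hx', hwi, hw]; rfl
    have e1 : x' a = b := by
      rw [hx'v, swap_apply_of_ne_of_ne ha.symm hba.1.symm, swap_apply_of_ne_of_ne hc1.symm hxc1.symm,
        swap_apply_of_ne_of_ne hc2.symm hxc2.symm, swap_apply_left]
    have e2 : x' (x a) = x b := by
      rw [hx'v, swap_apply_left, swap_apply_of_ne_of_ne hc3.symm hxc3.symm,
        swap_apply_of_ne_of_ne hc4.symm hxc4.symm, swap_apply_of_ne_of_ne hxb2 hb]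
    have e5 : ∀ d, d ≠ a → d ≠ x a → d ≠ b → d ≠ x b → x' d = x d := by
      intro d h1 h2 h3 h4
      rw [hx'v, swap_apply_of_ne_of_ne h2 h3]
      have hcc : x (swap c (x c) d) = swap c (x c) (x d) := by
        by_cases hd1 : d = c
        · subst hd1; rw [swap_apply_left, swap_apply_right, hxx]
        by_cases hd2 : d = x c
        · subst hd2; rw [swap_apply_right, hxx, swap_apply_left]
        rw [swap_apply_of_ne_of_ne hd1 hd2, swap_apply_of_ne_of_ne (fun e => hd2 (by rw [← e, hxx]))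
          (fun e => hd1 (x.injective e))]
      rw [hcc, swap_apply_self, swap_apply_of_ne_of_ne (fun e => h1 (x.injective e))
        (fun e => h4 (by rw [← e, hxx]))]
    have hx'p : x' ^ 2 = 1 := by rw [hx', conj_pow, hxp]; simp
    have hx'x : ∀ d, x' (x' d) = d := fun d => by
      rw [← Perm.mul_apply, ← pow_two, hx'p, Perm.one_apply]
    have e3 : x' b = a := by rw [← e1, hx'x]
    have e4 : x' (x b) = x a := by rw [← e2, hx'x]
    have hprod : x * x' = swap a (x b) * swap (x a) b := by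
      ext d
      show x (x' d) = swap a (x b) (swap (x a) b d)
      by_cases h1 : d = a
      · subst h1; rw [e1, swap_apply_of_ne_of_ne ha.symm hba.1.symm, swap_apply_left]
      by_cases h2 : d = x a
      · subst h2; rw [e2, hxx, swap_apply_left, swap_apply_of_ne_of_ne hba.1 hb.symm]
      by_cases h3 : d = b
      · subst h3; rw [e3, swap_apply_right, swap_apply_of_ne_of_ne ha hxb2.symm]
      by_cases h4 : d = x b
      · subst h4; rw [e4, hxx, swap_apply_of_ne_of_ne hxb2 hb, swap_apply_right]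
      rw [e5 d h1 h2 h3 h4, hxx, swap_apply_of_ne_of_ne h2 h3, swap_apply_of_ne_of_ne h1 h4]
    have hdis : Perm.Disjoint (swap a (x b)) (swap (x a) b) := fun d => by
      by_cases h1 : d = a
      · subst h1; exact Or.inr (swap_apply_of_ne_of_ne ha.symm hba.1.symm)
      by_cases h4 : d = x b
      · subst h4; exact Or.inr (swap_apply_of_ne_of_ne hxb2 hb)
      exact Or.inl (swap_apply_of_ne_of_ne h1 h4)
    have hsupp : (x * x').support.card = 4 := by
      rw [hprod, hdis.card_support_mul, card_support_swap hxb1.symm, card_support_swap hba.2.symm]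
    have hpp : (x * x') ^ 2 = 1 := by
      rw [hprod, hdis.commute.mul_pow, pow_two, pow_two, swap_mul_self, swap_mul_self, one_mul]
    have hcomm : Commute x x' := by
      have h2 : x⁻¹ = x := by rw [inv_eq_iff_mul_eq_one, ← pow_two, hxp]
      have h2' : x'⁻¹ = x' := by rw [inv_eq_iff_mul_eq_one, ← pow_two, hx'p]
      calc x * x' = (x * x')⁻¹ := by rw [eq_inv_iff_mul_eq_one, ← pow_two, hpp]
        _ = x' * x := by rw [_root_.mul_inv_rev, h2, h2']
    have hx'A : x' ∈ alternatingGroup α := mul_mem (mul_mem hwA hxA) (inv_mem hwA)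
    exact ⟨x * x', ⟨hpp, mul_mem hxA hx'A, by rw [hsupp, if_pos rfl]⟩,
      (GoodP.mul_of_commute hT hgood hg' hxA hx'A (k := 1) (l := 1) (by simpa using hxp)
        (by simpa using hx'p) hcomm).2⟩
  · have hp2 : p ≠ 2 := fun h => by rw [h] at hodd; exact absurd hodd (by decide)
    have hp3 : 3 ≤ p := by have := hp.out.two_le; omega
    set c1 := cyc p x a with hc1def
    by_cases heq : x = c1
    · exact ⟨x, ⟨hxp, hxA, by rw [if_neg hp2, heq]; exact (cyc_isCycle hx ha).2⟩, hgood⟩
    obtain ⟨b, hb, hbc⟩ : ∃ b, x b ≠ b ∧ c1 b = b := by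
      by_contra h; push_neg at h
      apply heq; ext d
      by_cases hd : c1 d = d
      · rw [hd]; exact not_not.mp fun hh => h d hh hd
      · rw [hsame a d ha hd]
    have hab : ∀ i : ℤ, b ≠ (x ^ i) a := fun i e => horbit a b ha ⟨i, e⟩ hbc
    obtain ⟨hd, hsc, hup⟩ := pair_basic hx ha hb hab
    set c2 := cyc p x b with hc2def
    have hmemA : ∀ {y : Perm α}, y ^ p = 1 → y ∈ alternatingGroup α := fun hy =>
      odd_order_mem (k := 1) hodd (by rwa [pow_one])
    have hn1 : ∀ {d}, c1 d ≠ d → x d ≠ d := fun {d} h e => by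
      obtain ⟨i, rfl⟩ := exists_zpow_of_moved h
      rw [← Perm.mul_apply, ← zpow_one_add, add_comm, zpow_add, Perm.mul_apply, zpow_one,
        EmbeddingLike.apply_eq_iff_eq] at e
      exact ha e
    have hn2 : ∀ {d}, c2 d ≠ d → x d ≠ d := fun {d} h e => by
      obtain ⟨i, rfl⟩ := exists_zpow_of_moved h
      rw [← Perm.mul_apply, ← zpow_one_add, add_comm, zpow_add, Perm.mul_apply, zpow_one,
        EmbeddingLike.apply_eq_iff_eq] at e
      exact hb e
    have hcm : ∀ e, x e ≠ e → Commute x (cyc p x e) := fun e he => by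
      have h := cyc_conj (p := p) (x := x) e
      rw [← cyc_eq_of_moved (horbit e (x e) he ⟨1, by simp⟩)] at h
      exact mul_inv_eq_iff_eq_mul.mp h
    have hcomm : Commute x (c1 * c2) := (hcm a ha).mul_right (hcm b hb)
    set y := x * (c1 * c2) with hydef
    have hyp : y ^ p = 1 := by rw [hydef, hcomm.mul_pow, hxp, hup, one_mul]
    have hxx : ∀ d, x d ≠ d → x (x d) ≠ d := fun d hd' e => by
      have h := Nat.le_of_dvd two_pos (pow_fix_iff.mp (show (x ^ 2) d = d by rwa [pow_two]))
      rw [hper d hd'] at h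
      omega
    have hys : y.support = x.support := by
      ext d
      rw [Perm.mem_support, Perm.mem_support]
      by_cases h1 : c1 d = d
      · by_cases h2 : c2 d = d
        · rw [hydef, Perm.mul_apply, Perm.mul_apply, h2, h1]
        · have h1' : c1 (c2 d) = c2 d := (hd (c2 d)).resolve_right fun e => h2 (c2.injective e)
          rw [hydef, Perm.mul_apply, Perm.mul_apply, h1', hsame b d hb h2]
          exact iff_of_true (hxx d (hn2 h2)) (hn2 h2)
      · rw [hydef, Perm.mul_apply, Perm.mul_apply, (hd d).resolve_left h1, hsame a d ha h1]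
        exact iff_of_true (hxx d (hn1 h1)) (hn1 h1)
    have hx2p : 2 * p ≤ x.support.card := by
      rw [← hsc]
      refine Finset.card_le_card fun d hd' => ?_
      rw [Perm.mem_support] at hd' ⊢
      by_cases h2 : c2 d = d
      · rw [Perm.mul_apply, h2] at hd'; exact hn1 hd'
      · exact hn2 h2
    have hy1 : y ≠ 1 := ne_one_of_support (by rw [hys]) (by omega)
    obtain ⟨w, hw, hwe⟩ := conj_even hxp hx1 hyp hy1 (by rw [hys]) (Or.inr hx2p)
    have hu12 : GoodP T₀ T (c1 * c2) := by
      have hcxy : Commute x⁻¹ y := ((Commute.refl x).mul_right hcomm).inv_left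
      have h := (GoodP.mul_of_commute hT (hgood.conj hw hwe) hgood (hmemA hyp) hxA (k := 1) (l := 1)
        (by rwa [pow_one]) (by rwa [pow_one]) ((Commute.refl x).mul_right hcomm).symm).1
      rwa [hydef, hcomm.eq, mul_inv_cancel_right] at h
    obtain ⟨s, hs, hscard⟩ := Finset.exists_subset_card_eq
      (show p ≤ (c1 * c2).supportᶜ.card by rw [Finset.card_compl, hsc]; omega)
    set c3 := s.toList.formPerm with hc3
    have hnd := s.nodup_toList
    have h3c : c3.IsCycle := List.isCycle_formPerm hnd (by rw [Finset.length_toList]; omega)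
    have h3s : c3.support = s := by
      rw [hc3, List.support_formPerm_of_nodup _ hnd (fun z e => by
        have := congrArg List.length e
        simp [hscard] at this
        omega), Finset.toList_toFinset]
    have h3p : c3 ^ p = 1 := by rw [← hscard, ← h3s, ← h3c.orderOf, pow_orderOf_eq_one]
    have hd3 : Perm.Disjoint c1 c3 ∧ Perm.Disjoint c2 c3 := by
      have hs' : ∀ d ∈ s, c1 d = d ∧ c2 d = d := fun d hd' => by
        have h := Finset.mem_compl.mp (hs hd')
        rw [Perm.notMem_support] at h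
        rcases hd d with e | e
        · refine ⟨e, ?_⟩
          rw [(cyc_commute a b).eq, Perm.mul_apply, e] at h; exact h
        · rw [Perm.mul_apply, e] at h; exact ⟨h, e⟩
      constructor <;> intro d <;> by_cases hd' : d ∈ s
      · exact Or.inl (hs' d hd').1
      · exact Or.inr (Perm.notMem_support.mp (h3s ▸ hd'))
      · exact Or.inl (hs' d hd').2
      · exact Or.inr (Perm.notMem_support.mp (h3s ▸ hd'))
    have hc1p := cyc_pow hx a
    have hc2p := cyc_pow hx b
    have h13p : (c1 * c3) ^ p = 1 := by rw [hd3.1.commute.mul_pow, hc1p, h3p, one_mul]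
    have h23p : (c2 * c3) ^ p = 1 := by rw [hd3.2.commute.mul_pow, hc2p, h3p, one_mul]
    have h13s : (c1 * c3).support.card = 2 * p := by
      rw [hd3.1.card_support_mul, (cyc_isCycle hx ha).2, h3s, hscard]; omega
    have h23s : (c2 * c3).support.card = 2 * p := by
      rw [hd3.2.card_support_mul, (cyc_isCycle hx hb).2, h3s, hscard]; omega
    have hu : ∀ {v : Perm α}, v ^ p = 1 → v.support.card = 2 * p → GoodP T₀ T v := by
      intro v hvp hvs
      obtain ⟨g, hg, he⟩ := conj_even hup (ne_one_of_support hsc (by omega)) hvp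
        (ne_one_of_support hvs (by omega)) (hsc.trans hvs.symm) (Or.inr hsc.ge)
      exact hu12.conj hg he
    have hcc : Commute (c1 * c2) (c1 * c3) :=
      ((Commute.refl c1).mul_right hd3.1.commute).mul_left
        ((cyc_commute b a).mul_right hd3.2.commute)
    have hprod_p : (c1 * c2 * (c1 * c3)) ^ p = 1 := by rw [hcc.mul_pow, hup, h13p, one_mul]
    have hg1 := (GoodP.mul_of_commute hT hu12 (hu h13p h13s) (hmemA hup) (hmemA h13p) (k := 1) (l := 1)
      (by rwa [pow_one]) (by rwa [pow_one]) hcc).2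
    have hcc2 : Commute (c1 * c2 * (c1 * c3)) (c2 * c3) :=
      (((cyc_commute a b).mul_right hd3.1.commute).mul_left
        ((Commute.refl c2).mul_right hd3.2.commute)).mul_left
        (((cyc_commute a b).mul_right hd3.1.commute).mul_left
          (hd3.2.commute.symm.mul_right (Commute.refl c3)))
    have hg2 := (GoodP.mul_of_commute hT hg1 (hu h23p h23s) (hmemA hprod_p) (hmemA h23p) (k := 1) (l := 1)
      (by rwa [pow_one]) (by rwa [pow_one]) hcc2).1
    have e : c1 * c2 * (c1 * c3) * (c2 * c3)⁻¹ = c1 ^ 2 := by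
      rw [_root_.mul_inv_rev, show c1 * c2 = c2 * c1 from (cyc_commute a b).eq, pow_two]
      calc c2 * c1 * (c1 * c3) * (c3⁻¹ * c2⁻¹) = c2 * (c1 * c1) * c2⁻¹ := by group
        _ = c1 * c1 * c2 * c2⁻¹ := by
          rw [((cyc_commute b a).mul_right (cyc_commute b a)).eq]
        _ = c1 * c1 := mul_inv_cancel_right _ _
    rw [e] at hg2
    obtain ⟨j, hj⟩ := hodd
    refine ⟨c1, ⟨hc1p, hmemA hc1p, by rw [if_neg hp2]; exact (cyc_isCycle hx ha).2⟩, ?_⟩
    refine GoodP.closure hT (R := rgrp p x) (X := {c1 ^ 2}) (isPGroup_rgrp hx)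
      (Set.singleton_subset_iff.mpr (pow_mem (cyc_mem_rgrp a) 2)) (by
        rintro y rfl; exact pow_mem (hmemA hc1p) 2) (by rintro y rfl; exact hg2) ?_
    have h : (c1 ^ 2) ^ (j + 1) = c1 := by
      rw [← pow_mul, show 2 * (j + 1) = p + 1 by omega, pow_succ, hc1p, one_mul]
    have hm : (c1 ^ 2) ^ (j + 1) ∈ Subgroup.closure ({c1 ^ 2} : Set (Perm α)) :=
      pow_mem (Subgroup.subset_closure (Set.mem_singleton _)) (j + 1)
    rwa [h] at hm

include hT in
/-- There are no proper nontrivial strongly closed subgroups. -/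
theorem eq_top (hcard : 3 * p ≤ Fintype.card α) (hne : T ≠ ⊥) :
    T = (T₀ : Subgroup (alternatingGroup α)) := by
  refine le_antisymm hT.1 fun z hz => ?_
  obtain ⟨k, hk⟩ := T₀.isPGroup' ⟨z, hz⟩
  have hx : ∃ k, (z : Perm α) ^ p ^ k = 1 :=
    ⟨k, congrArg (fun w : (T₀ : Subgroup (alternatingGroup α)) => ((w : alternatingGroup α) : Perm α)) hk⟩
  have h := good_all hT (good_basic hT hcard hne) _ (z : Perm α) rfl hx z.2 1 (by simpa using hz)
  simpa using h

end Cfsg.Agent.Fusion.AltClosed
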