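/-
General facts for the fusion of alternating groups: climbing along a normalized `p`-group, and
`p`-cycles inside a `p`-group.
-/
import Cfsg.Agent.Fusion.GroupSimpleWeak
import Mathlib.GroupTheory.PGroup
import Mathlib.GroupTheory.Perm.Cycle.Type
set_option autoImplicit false

namespace Cfsg.Agent.Fusion

open Cfsg Cfsg.FusionSystem

variable {G : Type*} [Group G] [Finite G] {p : ℕ} [Fact p.Prime]

theorem normalizerIn_mem_of_normalizes {W N : Subgroup G} {g : G} (hgW : g ∈ Subgroup.normalizer (W : Set G))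
    (hgN : g ∈ Subgroup.normalizer (N : Set G)) :
    g ∈ Subgroup.normalizer (normalizerIn W N : Set G) := by
  refine Subgroup.mem_normalizer_fintype fun x hx => ⟨(cj_mem_iff hgW x).mpr hx.1, ?_⟩
  exact Subgroup.mul_mem _ (Subgroup.mul_mem _ hgN hx.2) (Subgroup.inv_mem _ hgN)

/-- Conjugation in a weakly normal system climbs up inside a normalized subgroup of `S`. -/
theorem weaklyNormal_extend_to {S : Subgroup G} {E F : FusionSystem S} (hS : IsPGroup p S)
    (hF : F.IsSaturated p) (hI : IsInducedBy F ⊤) (hE : E.IsWeaklyNormalIn F p) {g : G}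
    {W : Subgroup G} (hWS : W ≤ S) (hgW : g ∈ Subgroup.normalizer (W : Set G)) {N : Subgroup G}
    (hN : F.IsCentric N) (hNW : N ≤ W) (hgN : g ∈ Subgroup.normalizer (N : Set G))
    (h : Mor E N (cj g)) : Mor E W (cj g) := by
  induction hc : Nat.card W - Nat.card N using Nat.strong_induction_on generalizing N with
  | _ c IH =>
  rcases eq_or_lt_of_le hNW with rfl | hlt
  · exact h
  obtain ⟨hEs, -, hsub, hSc, -, -⟩ := hE
  have hfc := subsystem_fullyCentralized hS hF hSc hsub hN.1 (centric_fullyCentralized hN)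
  have hi : Iso E (cj g) N N :=
    h.iso_of_card (fun x hx => (cj_mem_iff hgN x).mpr hx) le_rfl
  obtain ⟨e, he, ee⟩ :=
    (receptive_iff.mp (IsSaturated_fullyCentralized_receptive hS hEs hfc)).2 N _ hi
  have hn : normalizerIn W N ≤ nphi S N (cj g) := fun x hx =>
    ⟨hWS hx.1, hx.2, cj g x, hWS ((cj_mem_iff hgW x).mpr hx.1),
      fun y _ => by simp [cj, mul_assoc]⟩
  have he' := he.restrict hn
  have hle : normalizerIn W N ≤ S := (inf_le_left).trans hWS
  have hm : Mor F (normalizerIn W N) (cj g) := (hI _ _).mpr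
    ⟨hle, fun x hx => hWS ((cj_mem_iff hgW x).mpr hx.1), g, trivial, fun _ _ => rfl⟩
  have hNle : N ≤ normalizerIn W N := fun x hx => ⟨hNW hx, Subgroup.le_normalizer hx⟩
  obtain ⟨z, hz, -, ez⟩ := centric_agree hS hF hN hNle (subsystem_mor hsub he') hm ee
  have hnew : Mor E (normalizerIn W N) (cj g) :=
    ((Mor.conj hle (hN.1 hz)).comp he' fun x hx =>
      cj_mem (hNle hz) hx).congr fun x hx => (ez x hx).symm
  refine IH _ ?_ (isCentric_mono hN hNle hle) inf_le_left
    (normalizerIn_mem_of_normalizes hgW hgN) hnew rfl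
  haveI := finite_of_le (inf_le_left : normalizerIn W N ≤ W)
  have h1 := card_lt_of_lt (lt_normalizerIn (hS.to_le hWS) hlt)
  have h2 : Nat.card (normalizerIn W N) ≤ Nat.card W := card_le_of_le (inf_le_left : normalizerIn W N ≤ W)
  omega

/-- A subgroup that contains its centralizer is centric in the fusion system of the group. -/
theorem group_isCentric {S N : Subgroup G} (hNS : N ≤ S)
    (hC : Subgroup.centralizer (N : Set G) ≤ N) : (groupFusionSystem S).IsCentric N := by
  refine ⟨hNS, fun Q hQ c hc => ?_⟩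
  obtain ⟨g, -, hg⟩ := (groupFusion_inducedBy S).isConj hQ
  have hmem : g⁻¹ * c * g ∈ N := by
    refine hC (Subgroup.mem_centralizer_iff.mpr fun x hx => ?_)
    have h := Subgroup.mem_centralizer_iff.mp hc.2 (cj g x) (hg.mapsTo hx)
    rw [cj_apply] at h
    calc x * (g⁻¹ * c * g) = g⁻¹ * (g * x * g⁻¹ * c) * g := by group
      _ = g⁻¹ * (c * (g * x * g⁻¹)) * g := by rw [h]
      _ = g⁻¹ * c * g * x := by group
  have h := hg.mapsTo hmem
  rwa [cj_apply, show g * (g⁻¹ * c * g) * g⁻¹ = c by group] at h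

open Equiv Equiv.Perm in
/-- Two `p`-cycles in one `p`-group are disjoint or generate the same subgroup. -/
theorem pcycle_disjoint_or_mem {α : Type*} [Fintype α] [DecidableEq α] {u v : Perm α}
    (hu : u.IsCycle) (hus : u.support.card = p) (hv : v.IsCycle) (hvs : v.support.card = p)
    {P : Subgroup (Perm α)} (hP : IsPGroup p P) (huP : u ∈ P) (hvP : v ∈ P) :
    Perm.Disjoint u v ∨ v ∈ Subgroup.zpowers u := by
  by_cases hd : Perm.Disjoint u v
  · exact Or.inl hd
  refine Or.inr ?_
  have hp := (Fact.out : p.Prime)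
  obtain ⟨a, ha⟩ : ∃ a, u a ≠ a ∧ v a ≠ a := by
    by_contra h; push_neg at h
    exact hd fun a => (em (u a = a)).imp_right (h a)
  set H : Subgroup (Perm α) := Subgroup.zpowers u ⊔ Subgroup.zpowers v
  have hHP : H ≤ P := sup_le (Subgroup.zpowers_le.mpr huP) (Subgroup.zpowers_le.mpr hvP)
  have hH : IsPGroup p H := hP.to_le hHP
  set U := u.support ∪ v.support
  have hfix : H ≤ fixingSubgroup (Perm α) ((U : Set α)ᶜ) := by
    refine sup_le ?_ ?_ <;> rw [Subgroup.zpowers_le, mem_fixingSubgroup_iff] <;>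
      intro x hx <;> refine Perm.notMem_support.mp fun h => hx ?_
    · exact Finset.mem_coe.mpr (Finset.mem_union_left _ h)
    · exact Finset.mem_coe.mpr (Finset.mem_union_right _ h)
  have huH : u ∈ H := Subgroup.mem_sup_left (Subgroup.mem_zpowers u)
  have hvH : v ∈ H := Subgroup.mem_sup_right (Subgroup.mem_zpowers v)
  have horb : MulAction.orbit H a = (U : Set α) := by
    refine Set.Subset.antisymm ?_ ?_
    · rintro _ ⟨⟨g, hg⟩, rfl⟩
      show g a ∈ (U : Set α)
      by_contra hga
      have h := (mem_fixingSubgroup_iff _).mp (hfix hg) (g a) hga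
      rw [Perm.smul_def, EmbeddingLike.apply_eq_iff_eq] at h
      rw [h] at hga
      exact hga (Finset.mem_coe.mpr (Finset.mem_union_left _ (Perm.mem_support.mpr ha.1)))
    · intro x hx
      rcases Finset.mem_union.mp (Finset.mem_coe.mp hx) with h | h
      · obtain ⟨i, hi⟩ := hu.exists_zpow_eq ha.1 (Perm.mem_support.mp h)
        exact ⟨⟨u ^ i, zpow_mem huH i⟩, hi⟩
      · obtain ⟨i, hi⟩ := hv.exists_zpow_eq ha.2 (Perm.mem_support.mp h)
        exact ⟨⟨v ^ i, zpow_mem hvH i⟩, hi⟩
  obtain ⟨n, hn⟩ := hH.card_orbit a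
  rw [horb, SetLike.coe_sort_coe, Nat.card_eq_finsetCard] at hn
  have hcard : U.card + (u.support ∩ v.support).card = 2 * p := by
    rw [Finset.card_union_add_card_inter, hus, hvs, two_mul]
  have hs1 : 0 < (u.support ∩ v.support).card := Finset.card_pos.mpr
    ⟨a, Finset.mem_inter.mpr ⟨Perm.mem_support.mpr ha.1, Perm.mem_support.mpr ha.2⟩⟩
  have hs2 : (u.support ∩ v.support).card ≤ p := hus ▸ Finset.card_le_card Finset.inter_subset_left
  have hUp : U.card = p := by
    rcases n with _ | _ | n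
    · rw [pow_zero] at hn; have := hp.two_le; omega
    · rwa [zero_add, pow_one] at hn
    · have : p ^ 2 ≤ p ^ (n + 1 + 1) := Nat.pow_le_pow_right hp.pos (by omega)
      have : 2 * p ≤ p ^ 2 := by rw [pow_two]; exact Nat.mul_le_mul_right p hp.two_le
      omega
  obtain ⟨m, hm⟩ := IsPGroup.iff_card.mp hH
  have hle : H ≤ (Perm.ofSubtype : Perm {x // x ∈ U} →* Perm α).range := by
    intro g hg
    have hfx : ∀ x, g x ≠ x → x ∈ U := fun x hx => by
      by_contra h
      exact hx ((mem_fixingSubgroup_iff _).mp (hfix hg) x (by simpa using h))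
    refine ⟨g.subtypePerm (fun x => ⟨fun h => ?_, fun h => ?_⟩), Perm.ofSubtype_subtypePerm _ fun x hx => hfx x hx⟩
    · by_contra hx
      exact hx ((congrArg (· ∈ U) ((mem_fixingSubgroup_iff _).mp (hfix hg) x (by simpa using hx))).mp h)
    · by_contra hx
      have := (mem_fixingSubgroup_iff _).mp (hfix hg) (g x) (by simpa using hx)
      rw [Perm.smul_def, EmbeddingLike.apply_eq_iff_eq] at this
      exact hx (this.symm ▸ h)
  have hdvd : Nat.card H ∣ p.factorial := by
    refine (Subgroup.card_dvd_of_le hle).trans (dvd_of_eq ?_)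
    rw [← Nat.card_congr (MonoidHom.ofInjective Perm.ofSubtype_injective).toEquiv, Nat.card_perm,
      Nat.card_eq_finsetCard, hUp]
  have hm1 : m ≤ 1 := by
    by_contra hm1
    have h2 : p ^ 2 ∣ p.factorial := (pow_dvd_pow p (by omega)).trans (hm ▸ hdvd)
    rw [← Nat.mul_factorial_pred hp.ne_zero, pow_two, Nat.mul_dvd_mul_iff_left hp.pos,
      hp.dvd_factorial] at h2
    have := hp.two_le
    omega
  have hEq : Subgroup.zpowers u = H := by
    refine Subgroup.eq_of_le_of_card_ge (Subgroup.zpowers_le.mpr huH) ?_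
    rw [hm, Nat.card_zpowers, hu.orderOf, hus]
    exact (Nat.pow_le_pow_right hp.pos hm1).trans (pow_one p).le
  rw [hEq]; exact hvH

end Cfsg.Agent.Fusion
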