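/-
Permutations of a disjoint union of `p`-point blocks acting affinely on each block.
-/
import Cfsg.Agent.Fusion.AltSplit
import Mathlib.Algebra.Field.ZMod
import Mathlib.GroupTheory.SpecificGroups.Alternating
import Mathlib.GroupTheory.SpecificGroups.Alternating.Simple
set_option autoImplicit false

namespace Cfsg.Agent.Fusion.AltAut

open Equiv Equiv.Perm

variable {p : ℕ} [hp : Fact p.Prime] {r e : ℕ}

/-- The blocks: `p` blocks forming a square and `r` further ones. -/
abbrev Blk (p r : ℕ) : Type := ZMod p ⊕ Fin r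
/-- The points. -/
abbrev Pt (p r e : ℕ) : Type := (Blk p r × ZMod p) ⊕ Fin e

variable (e) in
/-- An affine map on every block followed by a permutation of the blocks. -/
def aff (π : Perm (Blk p r)) (u : Blk p r → (ZMod p)ˣ) (f : Blk p r → ZMod p) : Perm (Pt p r e) :=
  Equiv.sumCongr
    { toFun := fun x => (π x.1, (u x.1 : ZMod p) * x.2 + f x.1)
      invFun := fun y => (π.symm y.1, ((u (π.symm y.1))⁻¹ : (ZMod p)ˣ) * (y.2 - f (π.symm y.1)))
      left_inv := fun x => Prod.ext (π.symm_apply_apply _) (by
        show ((u (π.symm (π x.1)))⁻¹ : (ZMod p)ˣ) * ((u x.1 : ZMod p) * x.2 + f x.1 - f (π.symm (π x.1))) = x.2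
        rw [π.symm_apply_apply, add_sub_cancel_right, ← mul_assoc, ← Units.val_mul, inv_mul_cancel, Units.val_one, one_mul])
      right_inv := fun y => Prod.ext (π.apply_symm_apply _) (by
        show (u (π.symm y.1) : ZMod p) * (((u (π.symm y.1))⁻¹ : (ZMod p)ˣ) * (y.2 - f (π.symm y.1))) + f (π.symm y.1) = y.2
        rw [← mul_assoc, ← Units.val_mul, mul_inv_cancel, Units.val_one, one_mul, sub_add_cancel]) }
    (Equiv.refl (Fin e))

theorem aff_inl (π : Perm (Blk p r)) (u : Blk p r → (ZMod p)ˣ) (f : Blk p r → ZMod p) (b : Blk p r)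
    (j : ZMod p) : aff e π u f (Sum.inl (b, j)) = Sum.inl (π b, (u b : ZMod p) * j + f b) := rfl

theorem aff_inr (π : Perm (Blk p r)) (u : Blk p r → (ZMod p)ˣ) (f : Blk p r → ZMod p) (c : Fin e) :
    aff e π u f (Sum.inr c) = Sum.inr c := rfl

theorem aff_mul (π π' : Perm (Blk p r)) (u u' : Blk p r → (ZMod p)ˣ) (f f' : Blk p r → ZMod p) :
    aff e π u f * aff e π' u' f' =
      aff e (π * π') (fun b => u (π' b) * u' b) (fun b => (u (π' b) : ZMod p) * f' b + f (π' b)) := by
  ext x
  rcases x with ⟨b, j⟩ | c
  · show aff e π u f (aff e π' u' f' (Sum.inl (b, j))) = _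
    rw [aff_inl, aff_inl, aff_inl]
    simp only [Perm.mul_apply, Units.val_mul]
    ring_nf
  · rfl

theorem aff_one : aff e (1 : Perm (Blk p r)) 1 0 = 1 := by
  ext x
  rcases x with ⟨b, j⟩ | c
  · rw [aff_inl]; simp
  · rfl

/-- Translations. -/
abbrev T (e : ℕ) (f : Blk p r → ZMod p) : Perm (Pt p r e) := aff e 1 1 f
/-- Block permutations. -/
abbrev P (e : ℕ) (π : Perm (Blk p r)) : Perm (Pt p r e) := aff e π 1 0
/-- Multipliers. -/
abbrev D (e : ℕ) (u : Blk p r → (ZMod p)ˣ) : Perm (Pt p r e) := aff e 1 u 0

theorem T_add (f f' : Blk p r → ZMod p) : T e (f + f') = T e f * T e f' := by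
  rw [aff_mul]
  refine congrArg₂ (fun a b => aff e 1 a b) ?_ ?_ <;> funext b <;> simp [add_comm]

theorem T_nsmul (f : Blk p r → ZMod p) (n : ℕ) : T e f ^ n = T e (n • f) := by
  induction n with
  | zero => rw [pow_zero, zero_smul]; exact aff_one.symm
  | succ n ih => rw [pow_succ, ih, ← T_add, succ_nsmul]

theorem T_pow_p (f : Blk p r → ZMod p) : T e f ^ p = 1 := by
  rw [T_nsmul, show p • f = 0 from funext fun b => by simp]
  exact aff_one

theorem P_mul (π π' : Perm (Blk p r)) : P e (π * π') = P e π * P e π' := by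
  rw [aff_mul]
  refine congrArg₂ (fun a b => aff e (π * π') a b) ?_ ?_ <;> funext b <;> simp

theorem D_mul (u u' : Blk p r → (ZMod p)ˣ) : D e (u * u') = D e u * D e u' := by
  rw [aff_mul]
  refine congrArg₂ (fun a b => aff e 1 a b) ?_ ?_ <;> funext b <;> simp

theorem aff_decomp (π : Perm (Blk p r)) (u : Blk p r → (ZMod p)ˣ) (f : Blk p r → ZMod p) :
    aff e π u f = P e π * D e u * T e (fun b => ((u b)⁻¹ : (ZMod p)ˣ) * f b) := by
  rw [aff_mul, aff_mul, mul_one, mul_one]
  refine congrArg₂ (fun a b => aff e π a b) ?_ ?_ <;> funext b <;>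
    simp only [Pi.one_apply, Pi.zero_apply, one_mul, mul_one, mul_zero, add_zero, Units.val_one,
      Perm.one_apply, Units.mul_inv_cancel_left]

theorem aff_pow (π : Perm (Blk p r)) (v : Blk p r → (ZMod p)ˣ) (n : ℕ) :
    aff e π v 0 ^ n = aff e (π ^ n) (fun x => ∏ i ∈ Finset.range n, v ((π ^ i) x)) 0 := by
  induction n with
  | zero => simp only [pow_zero, Finset.range_zero, Finset.prod_empty]; exact aff_one.symm
  | succ n ih =>
    rw [pow_succ, ih, aff_mul, ← pow_succ]
    refine congrArg₂ (fun a b => aff e _ a b) ?_ ?_ <;> funext b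
    · rw [Finset.prod_range_succ' _ n, pow_zero, Perm.one_apply]
      refine congrArg (· * v b) (Finset.prod_congr rfl fun i _ => ?_)
      rw [pow_succ, Perm.mul_apply]
    · simp

theorem sign_P (hodd : Odd p) (π : Perm (Blk p r)) : sign (P e π) = sign π := by
  have h : P e π = Equiv.sumCongr (prodCongrLeft fun _ : ZMod p => π) (1 : Perm (Fin e)) := by
    ext x
    rcases x with ⟨b, j⟩ | c
    · rw [aff_inl]; simp [prodCongrLeft]
    · rfl
  rw [h, Perm.sign_sumCongr, map_one, mul_one, sign_prodCongrLeft, Finset.prod_const,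
    Finset.card_univ, ZMod.card]
  have hgen : ∀ (s : ℤˣ) (m : ℕ), Odd m → s ^ m = s := fun s m ⟨k, hk⟩ => by
    rw [hk, pow_succ, pow_mul, Int.units_sq, one_pow, one_mul]
  exact hgen _ _ hodd

theorem prod_orbit {β : Type*} [Fintype β] [DecidableEq β] {M : Type*} [CommMonoid M] {π : Perm β}
    (hc : π.IsCycle) (hcard : π.support.card = p) (v : β → M) (hv : ∀ x ∉ π.support, v x = 1)
    (hprod : ∏ x ∈ π.support, v x = 1) (x : β) : ∏ i ∈ Finset.range p, v ((π ^ i) x) = 1 := by
  by_cases hx : x ∈ π.support
  · have hper : AltSplit.per π x = p := by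
      have h1 : AltSplit.per π x ∣ p :=
        AltSplit.pow_fix_iff.mp (by rw [← hcard, ← hc.orderOf, pow_orderOf_eq_one]; rfl)
      rcases (Nat.dvd_prime hp.out).mp h1 with h | h
      · exact absurd (by simpa using AltSplit.pow_fix_iff.mpr h.dvd) (Perm.mem_support.mp hx)
      · exact h
    rw [← hprod]
    refine Finset.prod_bij' (fun i _ => (π ^ i) x) (fun y hy => (hc.exists_pow_eq (Perm.mem_support.mp hx) (Perm.mem_support.mp hy)).choose % p)
      (fun i _ => Perm.pow_apply_mem_support.mpr hx) (fun y _ => Finset.mem_range.mpr (Nat.mod_lt _ hp.out.pos))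
      (fun i hi => ?_) (fun y hy => ?_) (fun i _ => rfl)
    · have hy := Perm.pow_apply_mem_support (n := i).mpr hx
      have hspec := (hc.exists_pow_eq (Perm.mem_support.mp hx) (Perm.mem_support.mp hy)).choose_spec
      set j := (hc.exists_pow_eq (Perm.mem_support.mp hx) (Perm.mem_support.mp hy)).choose
      have h := MulAction.pow_mod_period_smul j (m := π) (a := x)
      rw [Perm.smul_def, Perm.smul_def, show MulAction.period π x = p from hper, hspec] at h
      rcases le_total (j % p) i with hle | hle
      · have h' : (π ^ (i - j % p)) x = x := by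
          apply (π ^ (j % p)).injective
          rw [← Perm.mul_apply, ← pow_add, Nat.add_sub_cancel' hle, h]
        have := AltSplit.pow_fix_iff.mp h'
        rw [hper] at this
        have := Nat.eq_zero_of_dvd_of_lt this (by have := Finset.mem_range.mp hi; omega)
        omega
      · have h' : (π ^ (j % p - i)) x = x := by
          apply (π ^ i).injective
          rw [← Perm.mul_apply, ← pow_add, Nat.add_sub_cancel' hle, h]
        have := AltSplit.pow_fix_iff.mp h'
        rw [hper] at this
        have hlt := Nat.mod_lt j hp.out.pos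
        have := Nat.eq_zero_of_dvd_of_lt this (by omega)
        omega
    · have hspec := (hc.exists_pow_eq (Perm.mem_support.mp hx) (Perm.mem_support.mp hy)).choose_spec
      have h := MulAction.pow_mod_period_smul (m := π) (a := x)
        (hc.exists_pow_eq (Perm.mem_support.mp hx) (Perm.mem_support.mp hy)).choose
      rw [Perm.smul_def, Perm.smul_def, show MulAction.period π x = p from hper] at h
      exact h.trans hspec
  · refine Finset.prod_eq_one fun i _ => ?_
    rw [Perm.pow_apply_eq_self_of_apply_eq_self (Perm.notMem_support.mp hx), hv x hx]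

/-- Elements of order `p` generate the alternating group. -/
theorem alternating_le_closure {β : Type*} [Fintype β] [DecidableEq β] (hodd : Odd p)
    (hcard : p ≤ Fintype.card β) :
    alternatingGroup β ≤ Subgroup.closure {π : Perm β | π ^ p = 1} := by
  have hp2 := hp.out.two_le
  rcases Nat.lt_or_ge p 5 with h5 | h5
  · have hp3 : p = 3 := by
      obtain ⟨k, hk⟩ := hodd
      omega
    subst hp3
    rw [← closure_three_cycles_eq_alternating]
    refine Subgroup.closure_mono fun π hπ => ?_
    have h : π.IsThreeCycle := hπ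
    show π ^ 3 = 1
    rw [← h.orderOf, pow_orderOf_eq_one]
  · haveI := alternatingGroup.isSimpleGroup (α := β) (by rw [Nat.card_eq_fintype_card]; omega)
    set K := (Subgroup.closure {π : Perm β | π ^ p = 1}).subgroupOf (alternatingGroup β)
    have hn : (Subgroup.closure {π : Perm β | π ^ p = 1}).Normal := ⟨fun π hπ g => by
      induction hπ using Subgroup.closure_induction with
      | mem π hπ =>
        refine Subgroup.subset_closure ?_
        show (g * π * g⁻¹) ^ p = 1
        rw [conj_pow, show π ^ p = 1 from hπ, mul_one, mul_inv_cancel]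
      | one => simp
      | mul y z _ _ h1 h2 => rw [← conj_mul]; exact mul_mem h1 h2
      | inv y _ h => rw [← conj_inv]; exact inv_mem h⟩
    have hK : K.Normal := inferInstanceAs ((Subgroup.closure _).subgroupOf _).Normal
    rcases IsSimpleGroup.eq_bot_or_eq_top_of_normal K hK with h | h
    · exfalso
      obtain ⟨s, -, hs⟩ := Finset.exists_subset_card_eq (s := (Finset.univ : Finset β)) (n := p)
        (by rw [Finset.card_univ]; exact hcard)
      set c := s.toList.formPerm
      have hc : c.IsCycle := List.isCycle_formPerm s.nodup_toList (by rw [Finset.length_toList]; omega)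
      have hcs : c.support.card = p := by
        rw [List.support_formPerm_of_nodup _ s.nodup_toList (fun z hz => by
          have := congrArg List.length hz
          simp [hs] at this
          omega), Finset.toList_toFinset, hs]
      have hcp : c ^ p = 1 := by rw [← hcs, ← hc.orderOf, pow_orderOf_eq_one]
      have hcA : c ∈ alternatingGroup β := by
        rw [mem_alternatingGroup, hc.sign, hcs, hodd.neg_one_pow, neg_neg]
      have : (⟨c, hcA⟩ : alternatingGroup β) ∈ K := Subgroup.subset_closure hcp
      rw [h, Subgroup.mem_bot] at this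
      exact hc.ne_one (congrArg Subtype.val this)
    · intro π hπ
      exact (h ▸ Subgroup.mem_top (⟨π, hπ⟩ : alternatingGroup β) : (⟨π, hπ⟩ : alternatingGroup β) ∈ K)

end Cfsg.Agent.Fusion.AltAut
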