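/-
The subgroups of the block model: translations, the square group, and their normalizers.
-/
import Cfsg.Agent.Fusion.AltModelB
import Mathlib.FieldTheory.Finite.Basic
set_option autoImplicit false

namespace Cfsg.Agent.Fusion.AltAut

open Equiv Equiv.Perm

variable {p : ℕ} [hp : Fact p.Prime] {r e : ℕ}

/-- Shifting the blocks of the square. -/
def shift (a : ZMod p) : Perm (Blk p r) := Equiv.sumCongr (Equiv.addRight a) 1

theorem shift_mul (a a' : ZMod p) : (shift a : Perm (Blk p r)) * shift a' = shift (a + a') := by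
  ext (i | k)
  · simp [shift, add_comm a a', add_assoc]
  · rfl

theorem shift_zero : (shift 0 : Perm (Blk p r)) = 1 := by
  ext (i | k)
  · simp [shift]
  · rfl

theorem shift_mul_aff (a a' : ZMod p) (f f' : Blk p r → ZMod p) :
    aff e (shift a) 1 f * aff e (shift a') 1 f' =
      aff e (shift (a + a')) 1 (fun b => f' b + f (shift a' b)) := by
  rw [aff_mul, shift_mul]
  refine congrArg₂ (fun x y => aff e _ x y) ?_ ?_ <;> funext b <;> simp

theorem shift_inv_aff (a : ZMod p) (f : Blk p r → ZMod p) :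
    (aff e (shift a) 1 f)⁻¹ = aff e (shift (-a)) 1 (fun b => -f (shift (-a) b)) := by
  refine inv_eq_of_mul_eq_one_right ?_
  rw [shift_mul_aff, add_neg_cancel, shift_zero, show (fun b => -f (shift (-a) b) + f (shift (-a) b)) =
    (0 : Blk p r → ZMod p) from funext fun b => neg_add_cancel _]
  exact aff_one

theorem one_eq : (1 : Perm (Pt p r e)) = aff e (shift 0) 1 0 := by rw [shift_zero]; exact aff_one.symm

variable (p r e)

/-- All translations. -/
def Emod : Subgroup (Perm (Pt p r e)) where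
  carrier := {g | ∃ f : Blk p r → ZMod p, g = T e f}
  one_mem' := ⟨0, aff_one.symm⟩
  mul_mem' := fun {g h} ⟨f, hg⟩ ⟨f', hh⟩ => ⟨f + f', by rw [hg, hh, T_add]⟩
  inv_mem' := fun {g} ⟨f, hg⟩ => ⟨-f, by
    rw [hg]
    refine inv_eq_of_mul_eq_one_right ?_
    rw [← T_add, add_neg_cancel]
    exact aff_one⟩

/-- Translations combined with shifts of the square. -/
def Umod : Subgroup (Perm (Pt p r e)) where
  carrier := {g | ∃ (a : ZMod p) (f : Blk p r → ZMod p), g = aff e (shift a) 1 f}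
  one_mem' := ⟨0, 0, one_eq⟩
  mul_mem' := fun {g h} ⟨a, f, hg⟩ ⟨a', f', hh⟩ => ⟨a + a', fun b => f' b + f (shift a' b), by rw [hg, hh, shift_mul_aff]⟩
  inv_mem' := fun {g} ⟨a, f, hg⟩ => ⟨-a, fun b => -f (shift (-a) b), by rw [hg, shift_inv_aff]⟩

/-- The square acts regularly, the other blocks by translations. -/
def Rmod : Subgroup (Perm (Pt p r e)) where
  carrier := {g | ∃ (a c : ZMod p) (f : Blk p r → ZMod p), g = aff e (shift a) 1 f ∧ ∀ i, f (Sum.inl i) = c}
  one_mem' := ⟨0, 0, 0, one_eq, fun _ => rfl⟩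
  mul_mem' := fun {g h} ⟨a, c, f, hg, hf⟩ ⟨a', c', f', hh, hf'⟩ =>
    ⟨a + a', c' + c, fun b => f' b + f (shift a' b), by rw [hg, hh, shift_mul_aff], fun i => by simp [shift, hf, hf']⟩
  inv_mem' := fun {g} ⟨a, c, f, hg, hf⟩ =>
    ⟨-a, -c, fun b => -f (shift (-a) b), by rw [hg, shift_inv_aff], fun i => by simp [shift, hf]⟩

variable {p r e}

theorem Emod_le_Umod : Emod p r e ≤ Umod p r e := fun _ ⟨f, hg⟩ =>
  ⟨0, f, by rw [hg, shift_zero]⟩

theorem Rmod_le_Umod : Rmod p r e ≤ Umod p r e := fun _ ⟨a, _, f, hg, _⟩ => ⟨a, f, hg⟩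

theorem isPGroup_Umod : IsPGroup p (Umod p r e) := by
  rintro ⟨g, a, f, rfl⟩
  refine ⟨2, Subtype.ext ?_⟩
  show aff e (shift a) 1 f ^ p ^ 2 = 1
  have h : ∀ n : ℕ, ∃ f' : Blk p r → ZMod p, aff e (shift a) 1 f ^ n = aff e (shift (n • a)) 1 f' := by
    intro n
    induction n with
    | zero => exact ⟨0, by rw [zero_smul, pow_zero]; exact one_eq⟩
    | succ n ih =>
      obtain ⟨f', hf'⟩ := ih
      exact ⟨_, by rw [pow_succ, hf', shift_mul_aff, succ_nsmul]⟩
  obtain ⟨f', hf'⟩ := h p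
  rw [pow_two, pow_mul, hf', show p • a = 0 by simp, shift_zero]
  exact T_pow_p f'

/-- The transvection of the square mixing the blocks. -/
def yv (e : ℕ) (t : ZMod p) : Perm (Pt p r e) where
  toFun := Sum.map (fun x => (Sum.map (fun i => i + t * x.2) id x.1, x.2)) id
  invFun := Sum.map (fun x => (Sum.map (fun i => i - t * x.2) id x.1, x.2)) id
  left_inv := by rintro (⟨i | k, j⟩ | c) <;> simp
  right_inv := by rintro (⟨i | k, j⟩ | c) <;> simp

theorem yv_mul (s t : ZMod p) : (yv e s : Perm (Pt p r e)) * yv e t = yv e (t + s) := by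
  ext (⟨i | k, j⟩ | c) <;> simp [yv, add_mul, add_assoc]

theorem yv_zero : (yv e 0 : Perm (Pt p r e)) = 1 := by
  ext (⟨i | k, j⟩ | c) <;> simp [yv]

theorem yv_pow (t : ZMod p) (n : ℕ) : (yv e t : Perm (Pt p r e)) ^ n = yv e (n • t) := by
  induction n with
  | zero => rw [pow_zero, zero_smul, yv_zero]
  | succ n ih => rw [pow_succ, ih, yv_mul, succ_nsmul']

theorem yv_pow_p (t : ZMod p) : (yv e t : Perm (Pt p r e)) ^ p = 1 := by
  rw [yv_pow, show p • t = 0 by simp, yv_zero]

theorem yv_normalizes (t : ZMod p) {g : Perm (Pt p r e)} (hg : g ∈ Rmod p r e) :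
    yv e t * g * (yv e t)⁻¹ ∈ Rmod p r e := by
  obtain ⟨a, c, f, rfl, hf⟩ := hg
  refine ⟨a + t * c, c, f, ?_, hf⟩
  rw [mul_inv_eq_iff_eq_mul]
  ext (⟨i | k, j⟩ | d)
  · simp [yv, aff, shift, hf]; ring
  · simp [yv, aff, shift]
  · simp [yv, aff]

/-- Translations by a linear function on the square. -/
def xf (t : ZMod p) : Blk p r → ZMod p := Sum.elim (fun i => t * i) (fun _ => 0)

theorem xf_normalizes (t : ZMod p) {g : Perm (Pt p r e)} (hg : g ∈ Rmod p r e) :
    T e (xf t) * g * (T e (xf t))⁻¹ ∈ Rmod p r e := by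
  obtain ⟨a, c, f, rfl, hf⟩ := hg
  refine ⟨a, c + t * a, fun b => f b + xf t (shift a b) - xf t b, ?_, fun i => by simp [xf, shift, hf]; ring⟩
  rw [mul_inv_eq_iff_eq_mul, aff_mul, aff_mul]
  refine congr (congrArg₂ (fun x y => aff e x y) ?_ ?_) ?_
  · simp
  · funext b; simp
  · funext b; simp

/-- The multipliers of the diagonal element. -/
def du (t : (ZMod p)ˣ) : Blk p r → (ZMod p)ˣ := Sum.elim (fun _ => t) (fun _ => 1)

/-- The diagonal element of the square. -/
def dd (e : ℕ) (t : (ZMod p)ˣ) : Perm (Pt p r e) :=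
  aff e (Equiv.sumCongr (Equiv.mulLeft₀ ((t⁻¹ : (ZMod p)ˣ) : ZMod p) (Units.ne_zero _)) 1) (du t) 0

theorem dd_eq (t : (ZMod p)ˣ) : (dd e t : Perm (Pt p r e)) = T e (xf (t : ZMod p)) *
    yv e (-((t⁻¹ : (ZMod p)ˣ) : ZMod p)) * T e (xf (t : ZMod p)) * T e (xf (-1)) * yv e 1 * T e (xf (-1)) := by
  have h1 : (t : ZMod p) * ((t⁻¹ : (ZMod p)ˣ) : ZMod p) = 1 := by
    rw [← Units.val_mul, mul_inv_cancel, Units.val_one]
  ext (⟨i | k, j⟩ | d)
  · simp only [Perm.mul_apply, dd, aff_inl]
    simp [-Units.val_inv_eq_inv_val, yv, aff, xf, du]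
    constructor
    · linear_combination j * h1
    · linear_combination ((t : ZMod p) * j - i) * h1
  · simp [-Units.val_inv_eq_inv_val, yv, aff, xf, du, dd]
  · simp [-Units.val_inv_eq_inv_val, yv, aff, dd]

theorem dd_shift (t : (ZMod p)ˣ) (a : ZMod p) (f : Blk p r → ZMod p) :
    ∃ f', dd e t * aff e (shift a) 1 f * (dd e t)⁻¹ =
      aff e (shift (((t⁻¹ : (ZMod p)ˣ) : ZMod p) * a)) 1 f' := by
  set π : Perm (Blk p r) :=
    Equiv.sumCongr (Equiv.mulLeft₀ ((t⁻¹ : (ZMod p)ˣ) : ZMod p) (Units.ne_zero _)) 1 with hπ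
  refine ⟨fun b => (du t (π.symm b) : ZMod p) * f (π.symm b), ?_⟩
  rw [mul_inv_eq_iff_eq_mul, dd, aff_mul, aff_mul]
  refine congr (congrArg₂ (fun x y => aff e x y) ?_ ?_) ?_
  · ext (i | k)
    · simp [-Units.val_inv_eq_inv_val, shift, mul_add]
    · rfl
  · funext b
    rcases b with i | k <;> simp [-Units.val_inv_eq_inv_val, du, shift]
  · funext b
    rcases b with i | k <;> simp [-Units.val_inv_eq_inv_val, du, shift, ← hπ]

theorem prod_du (t : (ZMod p)ˣ) : ∏ b : Blk p r, du t b = t := by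
  rw [Fintype.prod_sum_type]
  simp only [du, Sum.elim_inl, Sum.elim_inr, Finset.prod_const, Finset.card_univ, ZMod.card, one_pow, mul_one]
  refine Units.ext ?_
  rw [Units.val_pow_eq_pow_val]
  have := FiniteField.pow_card (K := ZMod p) (t : ZMod p)
  rwa [ZMod.card] at this

theorem apply_add {w : Perm (Pt p r e)} {q : Pt p r e} {X : Perm (Pt p r e)} (hc : w * X = X * w) (n : ℕ) :
    w ((X ^ n) q) = (X ^ n) (w q) := by
  rw [← Perm.mul_apply, ← Perm.mul_apply, ((show Commute w X from hc).pow_right n).eq]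

theorem eq_of_inl_onto (he : e ≤ 1) {w : Perm (Pt p r e)}
    (h : ∀ y : Blk p r × ZMod p, ∃ z, w (Sum.inl y) = Sum.inl z) (c : Fin e) :
    w (Sum.inr c) = Sum.inr c := by
  choose z hz using h
  have hinj : Function.Injective z := fun a b hab => Sum.inl_injective (w.injective (by rw [hz, hz, hab]))
  rcases hw : w (Sum.inr c) with y | c'
  · obtain ⟨q, hq⟩ := Finite.surjective_of_injective hinj y
    have := w.injective ((hz q).trans ((congrArg Sum.inl hq).trans hw.symm))
    simp at this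
  · have : Subsingleton (Fin e) := Fin.subsingleton_iff_le_one.mpr he
    rw [Subsingleton.elim c' c]

theorem mem_Rmod_of_commute (he : e ≤ 1) {w : Perm (Pt p r e)} (hc : ∀ g ∈ Rmod p r e, w * g = g * w) :
    w ∈ Rmod p r e := by
  classical
  set V0 : Blk p r → ZMod p := Sum.elim (fun _ => 1) (fun _ => 0)
  set Tk : Fin r → Blk p r → ZMod p := fun k => Pi.single (Sum.inr k) 1
  have hV0 : T e V0 ∈ Rmod p r e := ⟨0, 1, V0, by rw [shift_zero], fun _ => rfl⟩
  have hTk : ∀ k, T e (Tk k) ∈ Rmod p r e := fun k => ⟨0, 0, Tk k, by rw [shift_zero], fun i => by simp [Tk]⟩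
  have hV1 : aff e (shift 1 : Perm (Blk p r)) 1 0 ∈ Rmod p r e := ⟨1, 0, 0, rfl, fun _ => rfl⟩
  have hsmul : ∀ (f : Blk p r → ZMod p) (j : ZMod p) (b : Blk p r) (i : ZMod p),
      (T e f ^ j.val) (Sum.inl (b, i)) = Sum.inl (b, i + j * f b) := fun f j b i => by
    rw [T_nsmul, aff_inl]; simp [nsmul_eq_mul]
  have hblock : ∀ k : Fin r, ∃ g : ZMod p, w (Sum.inl (Sum.inr k, 0)) = Sum.inl (Sum.inr k, g) := by
    intro k
    have h := congrArg (fun X : Perm (Pt p r e) => X (Sum.inl (Sum.inr k, 0))) (hc _ (hTk k))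
    simp only [Perm.mul_apply] at h
    rcases hw : w (Sum.inl (Sum.inr k, 0)) with ⟨b, j⟩ | c
    · by_cases hb : b = Sum.inr k
      · exact ⟨j, by rw [hb]⟩
      · exfalso
        rw [hw, aff_inl, aff_inl] at h
        simp [Tk, hb] at h
        rw [← hw, EmbeddingLike.apply_eq_iff_eq] at h
        simp at h
    · exfalso
      rw [hw, aff_inl, aff_inr, ← hw, EmbeddingLike.apply_eq_iff_eq] at h
      simp [Tk] at h
  choose gk hgk using hblock
  obtain ⟨a, c, hac⟩ : ∃ a c : ZMod p, w (Sum.inl (Sum.inl 0, 0)) = Sum.inl (Sum.inl a, c) := by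
    have h0 := congrArg (fun X : Perm (Pt p r e) => X (Sum.inl (Sum.inl 0, 0))) (hc _ hV0)
    simp only [Perm.mul_apply] at h0
    rcases hw : w (Sum.inl (Sum.inl 0, 0)) with ⟨b | k, j⟩ | d
    · exact ⟨b, j, rfl⟩
    · exfalso
      rw [hw, aff_inl, aff_inl] at h0
      simp [V0] at h0
      rw [← hw, EmbeddingLike.apply_eq_iff_eq] at h0
      simp at h0
    · exfalso
      rw [hw, aff_inl, aff_inr, ← hw, EmbeddingLike.apply_eq_iff_eq] at h0
      simp [V0] at h0
  have hv1 : ∀ (n : ℕ) (i j : ZMod p), ((aff e (shift 1 : Perm (Blk p r)) 1 0) ^ n) (Sum.inl (Sum.inl i, j)) =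
      Sum.inl (Sum.inl (i + n), j) := by
    intro n
    induction n with
    | zero => intro i j; simp
    | succ n ih =>
      intro i j
      rw [pow_succ', Perm.mul_apply, ih, aff_inl]
      simp [shift, add_assoc]
  refine ⟨a, c, Sum.elim (fun _ => c) gk, ?_, fun _ => rfl⟩
  have hsq : ∀ i j : ZMod p, w (Sum.inl (Sum.inl i, j)) = Sum.inl (Sum.inl (a + i), c + j) := by
    intro i j
    have e0 : (Sum.inl (Sum.inl i, j) : Pt p r e) =
        ((aff e (shift 1 : Perm (Blk p r)) 1 0) ^ i.val) ((T e V0 ^ j.val) (Sum.inl (Sum.inl 0, 0))) := by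
      rw [hsmul, hv1]; simp [V0]
    rw [e0, apply_add (hc _ hV1), apply_add (hc _ hV0), hac, hsmul, hv1]
    simp [V0]
  have hrest : ∀ k j, w (Sum.inl (Sum.inr k, j)) = Sum.inl (Sum.inr k, gk k + j) := by
    intro k j
    have e0 : (Sum.inl (Sum.inr k, j) : Pt p r e) = (T e (Tk k) ^ j.val) (Sum.inl (Sum.inr k, 0)) := by
      rw [hsmul]; simp [Tk]
    rw [e0, apply_add (hc _ (hTk k)), hgk, hsmul]
    simp [Tk]
  apply Equiv.ext
  rintro (⟨i | k, j⟩ | d)
  · rw [hsq, aff_inl]; simp [shift, add_comm]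
  · rw [hrest, aff_inl]; simp [shift, add_comm]
  · rw [aff_inr]
    exact eq_of_inl_onto he (fun y => by
      rcases y with ⟨i | k, j⟩
      · exact ⟨_, hsq i j⟩
      · exact ⟨_, hrest k j⟩) d

theorem support_T (f : Blk p r → ZMod p) :
    (T e f).support = ((Finset.univ.filter fun b => f b ≠ 0) ×ˢ Finset.univ).map Function.Embedding.inl := by
  ext q
  rw [Perm.mem_support]
  rcases q with ⟨b, j⟩ | c
  · rw [aff_inl]; simp
  · rw [aff_inr]; simp

theorem card_support_T (f : Blk p r → ZMod p) :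
    (T e f).support.card = (Finset.univ.filter fun b => f b ≠ 0).card * p := by
  rw [support_T, Finset.card_map, Finset.card_product, Finset.card_univ, ZMod.card]

theorem mem_Emod_iff_forall {w : Perm (Pt p r e)} :
    (∀ g ∈ Emod p r e, w * g * w⁻¹ ∈ Emod p r e) ↔
      ∀ b : Blk p r, w * T e (Pi.single b 1) * w⁻¹ ∈ Emod p r e := by
  classical
  refine ⟨fun h b => h _ ⟨_, rfl⟩, fun h => ?_⟩
  rintro _ ⟨f, rfl⟩
  rw [← Finset.univ_sum_single f]
  refine Finset.induction_on (motive := fun s : Finset (Blk p r) =>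
    w * T e (∑ i ∈ s, Pi.single i (f i)) * w⁻¹ ∈ Emod p r e) _ ?_ ?_
  · rw [Finset.sum_empty]
    exact ⟨0, by rw [show T e (0 : Blk p r → ZMod p) = 1 from aff_one]; simp⟩
  · intro a s ha ih
    rw [Finset.sum_insert ha, T_add, ← conj_mul]
    refine mul_mem ?_ ih
    have : T e (Pi.single a (f a)) = T e (Pi.single a 1) ^ (f a).val := by
      rw [T_nsmul]
      congr 1
      funext b
      by_cases hb : b = a
      · subst hb; simp
      · simp [hb]
    rw [this, ← conj_pow]
    exact pow_mem (h a) _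

/-- The normalizer of the translations consists of affine maps. -/
theorem exists_aff (he : e ≤ 1) {w : Perm (Pt p r e)} (h : ∀ g ∈ Emod p r e, w * g * w⁻¹ ∈ Emod p r e) :
    ∃ π u f, w = aff e π u f := by
  classical
  have hb : ∀ b : Blk p r, ∃ (b' : Blk p r) (u : (ZMod p)ˣ) (f : ZMod p),
      ∀ j, w (Sum.inl (b, j)) = Sum.inl (b', (u : ZMod p) * j + f) := by
    intro b
    obtain ⟨g, hg⟩ := h (T e (Pi.single b 1)) ⟨_, rfl⟩
    have hcard : (T e g).support.card = p := by
      rw [← hg, Perm.card_support_conj, card_support_T]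
      have : (Finset.univ.filter fun x => (Pi.single b (1 : ZMod p) : Blk p r → ZMod p) x ≠ 0) = {b} := by
        ext x
        by_cases hx : x = b
        · subst hx; simp
        · simp [hx]
      rw [this, Finset.card_singleton, one_mul]
    rw [card_support_T] at hcard
    obtain ⟨b', hb'⟩ := Finset.card_eq_one.mp (Nat.eq_of_mul_eq_mul_right hp.out.pos (hcard.trans (one_mul p).symm))
    have hgb : g b' ≠ 0 := by
      have : b' ∈ (Finset.univ.filter fun x => g x ≠ 0) := by rw [hb']; simp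
      simpa using this
    have hstep : ∀ q, w (T e (Pi.single b 1) q) = T e g (w q) := fun q => by
      rw [← hg]; simp
    obtain ⟨j0, hj0⟩ : ∃ j0, w (Sum.inl (b, 0)) = Sum.inl (b', j0) := by
      have h0 := hstep (Sum.inl (b, 0))
      rcases hw : w (Sum.inl (b, 0)) with ⟨x, j⟩ | c
      · by_cases hx : x = b'
        · exact ⟨j, by rw [hx]⟩
        · exfalso
          have hgx : g x = 0 := by
            by_contra hh
            have : x ∈ (Finset.univ.filter fun x => g x ≠ 0) := by simp [hh]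
            rw [hb'] at this
            simp [hx] at this
          rw [hw, aff_inl, aff_inl] at h0
          simp [hgx] at h0
          rw [← hw, EmbeddingLike.apply_eq_iff_eq] at h0
          simp at h0
      · exfalso
        rw [hw, aff_inl, aff_inr, ← hw, EmbeddingLike.apply_eq_iff_eq] at h0
        simp at h0
    refine ⟨b', Units.mk0 _ hgb, j0, fun j => ?_⟩
    have hn : ∀ n : ℕ, w (Sum.inl (b, (n : ZMod p))) = Sum.inl (b', g b' * n + j0) := by
      intro n
      induction n with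
      | zero => simpa using hj0
      | succ n ih =>
        have h1 := hstep (Sum.inl (b, (n : ZMod p)))
        rw [ih, aff_inl, aff_inl] at h1
        simp at h1
        rw [Nat.cast_succ, h1]
        congr 2
        ring
    simpa using hn j.val
  choose π u f hπ using hb
  have hinj : Function.Injective π := by
    intro a b hab
    have key : ∀ y, ∃ j, w (Sum.inl (a, j)) = Sum.inl (π a, y) := fun y =>
      ⟨((u a)⁻¹ : (ZMod p)ˣ) * (y - f a), by
        rw [hπ, ← mul_assoc, ← Units.val_mul, mul_inv_cancel, Units.val_one, one_mul, sub_add_cancel]⟩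
    obtain ⟨j, hj⟩ := key (f b)
    have h0 : w (Sum.inl (b, 0)) = w (Sum.inl (a, j)) := by rw [hj, hπ, hab]; simp
    have := w.injective h0
    simp at this
    exact this.1.symm
  refine ⟨Equiv.ofBijective π (Finite.injective_iff_bijective.mp hinj), u, f, Equiv.ext ?_⟩
  rintro (⟨b, j⟩ | c)
  · rw [aff_inl, hπ]; rfl
  · rw [aff_inr]
    exact eq_of_inl_onto he (fun y => ⟨_, hπ y.1 y.2⟩) c

end Cfsg.Agent.Fusion.AltAut
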