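/-
Fusion systems of alternating groups of degree `n ≥ p ^ 2`, `n % p ≤ 1`, are simple.
-/
import Cfsg.Agent.Fusion.AltModelA
import Cfsg.Agent.Fusion.AltModelC
import Cfsg.Agent.Fusion.AltClosed
import Cfsg.Agent.KnownA.SylowTwoNormalizer
set_option autoImplicit false

namespace Cfsg.Agent.Fusion.AltAut

open Equiv Equiv.Perm Cfsg Cfsg.FusionSystem

variable {p : ℕ} [hp : Fact p.Prime] {r e : ℕ}

theorem pgroup_even (hodd : Odd p) {α : Type*} [Fintype α] [DecidableEq α] {w : Perm α} {k : ℕ}
    (hw : w ^ p ^ k = 1) : sign w = 1 :=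
  mem_alternatingGroup.mp (AltClosed.odd_order_mem hodd hw)

theorem sign_T (hodd : Odd p) (f : Blk p r → ZMod p) : sign (T e f) = 1 :=
  pgroup_even hodd (k := 1) (by rw [pow_one]; exact T_pow_p f)

theorem sign_Umod (hodd : Odd p) {w : Perm (Pt p r e)} (hw : w ∈ Umod p r e) : sign w = 1 := by
  obtain ⟨k, hk⟩ := isPGroup_Umod ⟨w, hw⟩
  exact pgroup_even hodd (congrArg Subtype.val hk)

theorem aff_normalizes (π : Perm (Blk p r)) (u : Blk p r → (ZMod p)ˣ) (f : Blk p r → ZMod p)
    {g : Perm (Pt p r e)} (hg : g ∈ Emod p r e) :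
    aff e π u f * g * (aff e π u f)⁻¹ ∈ Emod p r e := by
  obtain ⟨g, rfl⟩ := hg
  refine ⟨fun b => (u (π.symm b) : ZMod p) * g (π.symm b), ?_⟩
  rw [mul_inv_eq_iff_eq_mul, aff_mul, aff_mul, mul_one, one_mul]
  refine congrArg₂ (fun a b => aff e π a b) ?_ ?_ <;> funext b <;> simp [add_comm]

theorem aff_inj {π π' : Perm (Blk p r)} {u u' : Blk p r → (ZMod p)ˣ} {f f' : Blk p r → ZMod p}
    (h : aff e π u f = aff e π' u' f') : π = π' ∧ u = u' ∧ f = f' := by
  have h0 := fun b => congrArg (fun X : Perm (Pt p r e) => X (Sum.inl (b, (0 : ZMod p)))) h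
  have h1 := fun b => congrArg (fun X : Perm (Pt p r e) => X (Sum.inl (b, (1 : ZMod p)))) h
  simp only [aff_inl, mul_zero, zero_add, mul_one, Sum.inl.injEq, Prod.mk.injEq] at h0 h1
  refine ⟨Equiv.ext fun b => (h0 b).1, funext fun b => Units.ext ?_, funext fun b => (h0 b).2⟩
  exact add_right_cancel ((h1 b).2.trans (by rw [(h0 b).2]))

section Embed

variable {α : Type*} [Fintype α] [DecidableEq α] (ε : Pt p r e ≃ α)

/-- The even permutations of `α` corresponding to a group of permutations of the model. -/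
def sub (K : Subgroup (Perm (Pt p r e))) : Subgroup (alternatingGroup α) :=
  (K.comap ε.permCongrHom.symm.toMonoidHom).subgroupOf (alternatingGroup α)

theorem mem_sub {K : Subgroup (Perm (Pt p r e))} {g : alternatingGroup α} :
    g ∈ sub ε K ↔ ε.permCongrHom.symm (g : Perm α) ∈ K := Iff.rfl

/-- The element of the alternating group given by an even permutation of the model. -/
def el (w : Perm (Pt p r e)) (hw : sign w = 1) : alternatingGroup α :=
  ⟨ε.permCongrHom w, mem_alternatingGroup.mpr ((sign_permCongr ε w).trans hw)⟩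

theorem el_mem_sub {K : Subgroup (Perm (Pt p r e))} {w : Perm (Pt p r e)} (hw : sign w = 1) :
    el ε w hw ∈ sub ε K ↔ w ∈ K := by
  rw [mem_sub, el, MulEquiv.symm_apply_apply]

theorem symm_el (w : Perm (Pt p r e)) (hw : sign w = 1) :
    ε.permCongrHom.symm ((el ε w hw : alternatingGroup α) : Perm α) = w := by
  exact ε.permCongrHom.symm_apply_apply w

theorem el_normalizes {K : Subgroup (Perm (Pt p r e))} {w : Perm (Pt p r e)} (hw : sign w = 1)
    (h : ∀ x ∈ K, w * x * w⁻¹ ∈ K) : el ε w hw ∈ Subgroup.normalizer (sub ε K : Set (alternatingGroup α)) := by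
  refine Subgroup.mem_normalizer_fintype fun g hg => ?_
  show ε.permCongrHom.symm (((el ε w hw : alternatingGroup α) : Perm α) * g *
    ((el ε w hw : alternatingGroup α) : Perm α)⁻¹) ∈ K
  rw [map_mul, map_mul, map_inv, symm_el]
  exact h _ hg

theorem sub_mono {K L : Subgroup (Perm (Pt p r e))} (h : K ≤ L) : sub ε K ≤ sub ε L :=
  fun _ hg => h hg

theorem commute_of_sub {K : Subgroup (Perm (Pt p r e))} (hev : ∀ x ∈ K, sign x = 1)
    {g : alternatingGroup α} (hg : g ∈ Subgroup.centralizer (sub ε K : Set (alternatingGroup α))) :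
    ∀ x ∈ K, ε.permCongrHom.symm (g : Perm α) * x = x * ε.permCongrHom.symm (g : Perm α) := by
  intro x hx
  have h := Subgroup.mem_centralizer_iff.mp hg (el ε x (hev x hx)) ((el_mem_sub ε _).mpr hx)
  have h' := congrArg (fun z : alternatingGroup α => ε.permCongrHom.symm (z : Perm α)) h
  simp only [Subgroup.coe_mul, map_mul, symm_el] at h'
  exact h'.symm

theorem centralizer_Rmod (hodd : Odd p) (he : e ≤ 1) :
    Subgroup.centralizer (sub ε (Rmod p r e) : Set (alternatingGroup α)) ≤ sub ε (Rmod p r e) :=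
  fun _ hg => mem_Rmod_of_commute he
    (commute_of_sub ε (fun _ hx => sign_Umod hodd (Rmod_le_Umod hx)) hg)

theorem centralizer_Emod (hodd : Odd p) (he : e ≤ 1) :
    Subgroup.centralizer (sub ε (Emod p r e) : Set (alternatingGroup α)) ≤ sub ε (Emod p r e) := by
  intro g hg
  have hc := commute_of_sub ε (fun _ hx => sign_Umod hodd (Emod_le_Umod hx)) hg
  rw [mem_sub]
  generalize ε.permCongrHom.symm (g : Perm α) = w at hc
  obtain ⟨π, u, f, rfl⟩ := exists_aff he (w := w) fun x hx => by
    rw [hc x hx, mul_inv_cancel_right]; exact hx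
  classical
  have key : ∀ b, π b = b ∧ u b = 1 := fun b => by
    have h := congrArg (fun X : Perm (Pt p r e) => X (Sum.inl (b, (0 : ZMod p))))
      (hc (T e (Pi.single b 1)) ⟨_, rfl⟩)
    simp [Perm.mul_apply, aff_inl] at h
    by_cases hb : π b = b
    · refine ⟨hb, Units.ext ?_⟩
      have h' : (u b : ZMod p) + f b = f b + 1 := by simpa [hb, add_comm] using h
      rw [Units.val_one]
      exact add_right_cancel (h'.trans (add_comm _ _))
    · rw [Pi.single_eq_of_ne hb] at h
      simp at h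
  refine ⟨f, ?_⟩
  rw [show π = 1 from Equiv.ext fun b => (key b).1, show u = 1 from funext fun b => (key b).2]

end Embed

section Fusion

variable {G : Type*} [Group G] [Finite G]

/-- The elements normalizing `R` whose conjugation lies in `E`. -/
def morN {S : Subgroup G} (E : FusionSystem S) {R : Subgroup G} (hR : R ≤ S) : Subgroup G where
  carrier := {g | g ∈ Subgroup.normalizer (R : Set G) ∧ Mor E R (cj g)}
  one_mem' := ⟨one_mem _, (Mor.id' hR).congr fun x _ => (cj_one x).symm⟩
  mul_mem' := fun {a b} ha hb => ⟨mul_mem ha.1 hb.1,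
    (hb.2.comp ha.2 fun x hx => (cj_mem_iff hb.1 x).mpr hx).congr fun x _ => (cj_mul a b x).symm⟩
  inv_mem' := fun {a} ha => by
    refine ⟨inv_mem ha.1, ?_⟩
    have hi : Iso E (cj a) R R := ha.2.iso_of_card (fun x hx => (cj_mem_iff ha.1 x).mpr hx) le_rfl
    obtain ⟨a', ha', -, hr⟩ := hi.exists_symm
    exact ha'.mor.congr fun x hx => cj_injective a (by rw [hr x hx, cj_cancel_inv])

theorem pElement_mem_morN {T₀ : Sylow p G} {E : FusionSystem (T₀ : Subgroup G)}
    (hE : E.IsWeaklyNormalIn (groupFusionSystem (T₀ : Subgroup G)) p) {R : Subgroup G}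
    (hR : R ≤ (T₀ : Subgroup G)) {g : G} (hg : g ∈ Subgroup.normalizer (R : Set G)) {k : ℕ}
    (hk : g ^ p ^ k = 1) : g ∈ morN E hR := by
  obtain ⟨i, -, hi⟩ := (Nat.dvd_prime_pow hp.out).mp (orderOf_dvd_of_pow_eq_one hk)
  exact ⟨hg, weaklyNormal_pElement T₀ hE hR hg hi⟩

end Fusion

section Main

variable {α : Type*} [Fintype α] [DecidableEq α] {T₀ : Sylow p (alternatingGroup α)}
  {E : FusionSystem (T₀ : Subgroup (alternatingGroup α))}
  (hE : E.IsWeaklyNormalIn (groupFusionSystem (T₀ : Subgroup (alternatingGroup α))) p)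
  (ε : Pt p r e ≃ α) (hodd : Odd p) (he : e ≤ 1)
  (hU : sub ε (Umod p r e) ≤ (T₀ : Subgroup (alternatingGroup α)))

/-- The model of the automorphisms of the translations contained in `E`. -/
def MM (hEle : sub ε (Emod p r e) ≤ (T₀ : Subgroup (alternatingGroup α))) :
    Subgroup (Perm (Pt p r e)) :=
  ((morN E hEle).map (alternatingGroup α).subtype).comap ε.permCongrHom.toMonoidHom

variable (hEle : sub ε (Emod p r e) ≤ (T₀ : Subgroup (alternatingGroup α)))

theorem mem_MM {w : Perm (Pt p r e)} :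
    w ∈ MM (E := E) ε hEle ↔ ∃ hw : sign w = 1, el ε w hw ∈ morN E hEle := by
  constructor
  · rintro ⟨g, hg, hgw⟩
    have hw : sign w = 1 := by
      have := mem_alternatingGroup.mp g.2
      rw [show (g : Perm α) = ε.permCongrHom w from hgw] at this
      exact (sign_permCongr ε w).symm.trans this
    refine ⟨hw, ?_⟩
    rwa [show el ε w hw = g from Subtype.ext hgw.symm]
  · rintro ⟨hw, h⟩
    exact ⟨_, h, rfl⟩

include hE hodd

theorem pElement_mem_MM {w : Perm (Pt p r e)} {k : ℕ} (hk : w ^ p ^ k = 1)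
    (hn : ∀ x ∈ Emod p r e, w * x * w⁻¹ ∈ Emod p r e) : w ∈ MM (E := E) ε hEle := by
  refine (mem_MM ε hEle).mpr ⟨pgroup_even hodd hk, pElement_mem_morN hE hEle (el_normalizes ε _ hn) (k := k) ?_⟩
  refine Subtype.ext ?_
  show (ε.permCongrHom w) ^ p ^ k = 1
  rw [← map_pow, hk, map_one]

include he hU in
theorem dd_mem_MM (t : (ZMod p)ˣ) : (dd e t : Perm (Pt p r e)) ∈ MM (E := E) ε hEle := by
  have hR : sub ε (Rmod p r e) ≤ (T₀ : Subgroup (alternatingGroup α)) :=
    (sub_mono ε Rmod_le_Umod).trans hU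
  set N := ((morN E hR).map (alternatingGroup α).subtype).comap ε.permCongrHom.toMonoidHom
  have hgen : ∀ (w : Perm (Pt p r e)), w ^ p = 1 →
      (∀ x ∈ Rmod p r e, w * x * w⁻¹ ∈ Rmod p r e) → w ∈ N := by
    intro w hw hn
    have hs := pgroup_even hodd (k := 1) (by rwa [pow_one])
    refine ⟨el ε w hs, pElement_mem_morN hE hR (el_normalizes ε _ hn) (k := 1) ?_, rfl⟩
    refine Subtype.ext ?_
    show (ε.permCongrHom w) ^ p ^ 1 = 1
    rw [← map_pow, pow_one, hw, map_one]
  have hx : ∀ s, T e (xf s) ∈ N := fun s => hgen _ (T_pow_p _) fun x hx => xf_normalizes s hx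
  have hy : ∀ s, yv e s ∈ N := fun s => hgen _ (yv_pow_p s) fun x hx => yv_normalizes s hx
  have hd : dd e t ∈ N := by
    rw [dd_eq]
    exact mul_mem (mul_mem (mul_mem (mul_mem (mul_mem (hx _) (hy _)) (hx _)) (hx _)) (hy _)) (hx _)
  obtain ⟨g, ⟨hgR, hgm⟩, hgd⟩ := hd
  have hgd' : ε.permCongrHom.symm (g : Perm α) = dd e t := by
    rw [show (g : Perm α) = ε.permCongrHom (dd e t) from hgd, MulEquiv.symm_apply_apply]
  have hgU : g ∈ Subgroup.normalizer (sub ε (Umod p r e) : Set (alternatingGroup α)) := by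
    refine Subgroup.mem_normalizer_fintype fun x hx => ?_
    obtain ⟨a, f, hxf⟩ := hx
    obtain ⟨f', hf'⟩ := dd_shift (e := e) t a f
    refine ⟨((t⁻¹ : (ZMod p)ˣ) : ZMod p) * a, f', ?_⟩
    show ε.permCongrHom.symm ((g : Perm α) * x * (g : Perm α)⁻¹) = _
    have hxf' : ε.permCongrHom.symm (x : Perm α) = aff e (shift a) 1 f := hxf
    rw [map_mul, map_mul, map_inv, hgd', hxf', hf']
  have hgE : g ∈ Subgroup.normalizer (sub ε (Emod p r e) : Set (alternatingGroup α)) := by
    refine Subgroup.mem_normalizer_fintype fun x hx => ?_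
    show ε.permCongrHom.symm ((g : Perm α) * x * (g : Perm α)⁻¹) ∈ Emod p r e
    rw [map_mul, map_mul, map_inv, hgd']
    exact aff_normalizes _ _ _ hx
  have hm := weaklyNormal_extend_to T₀.isPGroup' (groupFusion_saturated T₀)
    (groupFusion_inducedBy _) hE hU hgU (group_isCentric hR (centralizer_Rmod ε hodd he))
    (sub_mono ε Rmod_le_Umod) hgR hgm
  exact ⟨g, ⟨hgE, hm.restrict (sub_mono ε Emod_le_Umod)⟩, hgd⟩

theorem P_mem_MM (hr : Odd p) {π : Perm (Blk p r)} (hπ : π ∈ alternatingGroup (Blk p r)) :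
    P e π ∈ MM (E := E) ε hEle := by
  have hcard : p ≤ Fintype.card (Blk p r) := by simp
  have h := alternating_le_closure (p := p) hr hcard hπ
  clear hπ
  induction h using Subgroup.closure_induction with
  | mem π hπ =>
    refine pElement_mem_MM hE ε hodd hEle (k := 1) ?_ fun x hx => aff_normalizes _ _ _ hx
    rw [pow_one, aff_pow, show π ^ p = 1 from hπ]
    exact (congrArg (fun z => aff e 1 z 0) (funext fun b => by simp)).trans aff_one
  | one => rw [show P e (1 : Perm (Blk p r)) = 1 from aff_one]; exact one_mem _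
  | mul a b _ _ ha hb => rw [P_mul]; exact mul_mem ha hb
  | inv a _ ha =>
    rw [show P e a⁻¹ = (P e a : Perm (Pt p r e))⁻¹ from (inv_eq_of_mul_eq_one_right (by
      rw [← P_mul, mul_inv_cancel]; exact aff_one)).symm]
    exact inv_mem ha

theorem D_pair_mem_MM {a b : Blk p r} (hab : a ≠ b) (t : (ZMod p)ˣ) :
    D e (Pi.mulSingle b t * Pi.mulSingle a t⁻¹) ∈ MM (E := E) ε hEle := by
  have hp2 := hp.out.two_le
  obtain ⟨s, hsab, -, hs⟩ := Finset.exists_subsuperset_card_eq (s := ({a, b} : Finset (Blk p r)))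
    (t := Finset.univ) (n := p) (Finset.subset_univ _) (Finset.card_le_two.trans hp2) (by simp)
  set π := s.toList.formPerm
  have hc : π.IsCycle := List.isCycle_formPerm s.nodup_toList (by rw [Finset.length_toList]; omega)
  have hπs : π.support = s := by
    rw [List.support_formPerm_of_nodup _ s.nodup_toList (fun z hz => by
      have := congrArg List.length hz
      simp [hs] at this
      omega), Finset.toList_toFinset]
  have hπp : π ^ p = 1 := by
    have := pow_orderOf_eq_one π
    rwa [hc.orderOf, hπs, hs] at this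
  set v : Blk p r → (ZMod p)ˣ := Pi.mulSingle b t * Pi.mulSingle a t⁻¹ with hv
  have hout : ∀ x ∉ π.support, v x = 1 := fun x hx => by
    rw [hπs] at hx
    have hxa : x ≠ a := fun h => hx (h ▸ hsab (by simp))
    have hxb : x ≠ b := fun h => hx (h ▸ hsab (by simp))
    simp [hv, hxa, hxb]
  have hprod : ∏ x ∈ π.support, v x = 1 := by
    rw [hπs, hv]
    simp only [Pi.mul_apply, Finset.prod_mul_distrib, Finset.prod_pi_mulSingle', if_pos (hsab (Finset.mem_insert_self a {b})),
      if_pos (hsab (Finset.mem_insert_of_mem (Finset.mem_singleton_self b))), mul_inv_cancel]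
  have hpow : aff e π v 0 ^ p ^ 1 = 1 := by
    rw [pow_one, aff_pow, hπp, show (fun x => ∏ i ∈ Finset.range p, v ((π ^ i) x)) = 1 from
      funext (prod_orbit hc (by rw [hπs, hs]) v hout hprod)]
    exact aff_one
  have h1 := pElement_mem_MM hE ε hodd hEle hpow fun x hx => aff_normalizes _ _ _ hx
  have h2 : P e π ∈ MM (E := E) ε hEle := by
    refine pElement_mem_MM hE ε hodd hEle (k := 1) ?_ fun x hx => aff_normalizes _ _ _ hx
    rw [pow_one, aff_pow, hπp]
    exact (congrArg (fun z => aff e 1 z 0) (funext fun b => by simp)).trans aff_one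
  have : aff e π v 0 = P e π * D e v := by
    rw [aff_mul, mul_one]
    refine congrArg₂ (fun x y => aff e π x y) ?_ ?_ <;> funext x <;> simp
  rw [this] at h1
  exact (Subgroup.mul_mem_cancel_left _ h2).mp h1

theorem D_mem_MM {u : Blk p r → (ZMod p)ˣ} (hu : ∏ b, u b = 1) :
    D e u ∈ MM (E := E) ε hEle := by
  classical
  let Dh : (Blk p r → (ZMod p)ˣ) →* Perm (Pt p r e) := MonoidHom.mk' (fun u => D e u) D_mul
  have he' : u = ∏ b, (Pi.mulSingle b (u b) * Pi.mulSingle (Sum.inl 0) (u b)⁻¹) := by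
    rw [Finset.prod_mul_distrib, Finset.univ_prod_mulSingle]
    have : ∏ b, (Pi.mulSingle (Sum.inl 0) (u b)⁻¹ : Blk p r → (ZMod p)ˣ) = 1 := by
      funext c
      rw [Finset.prod_apply]
      by_cases hc : c = Sum.inl 0
      · subst hc
        simp only [Pi.mulSingle_eq_same, Finset.prod_inv_distrib, hu, inv_one, Pi.one_apply]
      · simp [hc]
    rw [this, mul_one]
  show u ∈ (MM (E := E) ε hEle).comap Dh
  rw [he']
  refine Subgroup.prod_mem _ fun b _ => ?_
  by_cases hb : Sum.inl 0 = b
  · subst hb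
    rw [← Pi.mulSingle_mul, mul_inv_cancel, Pi.mulSingle_one]
    exact one_mem _
  · exact D_pair_mem_MM hE ε hodd hEle hb _

include he hU hEle in
theorem mor_of_normalizer {g : alternatingGroup α}
    (hg : g ∈ Subgroup.normalizer ((T₀ : Subgroup (alternatingGroup α)) : Set (alternatingGroup α))) :
    Mor E (T₀ : Subgroup (alternatingGroup α)) (cj g) := by
  classical
  set w := ε.permCongrHom.symm (g : Perm α) with hwdef
  set Q := ((T₀ : Subgroup (alternatingGroup α)).map (alternatingGroup α).subtype).comap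
    ε.permCongrHom.toMonoidHom with hQ
  have hQp : IsPGroup p Q := (T₀.isPGroup'.map _).comap_of_injective _ ε.permCongrHom.injective
  have hEQ : ∀ x ∈ Emod p r e, x ∈ Q := fun x hx =>
    ⟨el ε x (sign_Umod hodd (Emod_le_Umod hx)), hEle ((el_mem_sub ε _).mpr hx), rfl⟩
  have hwn : ∀ x ∈ Emod p r e, w * x * w⁻¹ ∈ Emod p r e := by
    refine mem_Emod_iff_forall.mpr fun b => ?_
    set τ := T e (Pi.single b (1 : ZMod p)) with hτ
    have hcy : ∀ c : Blk p r, (T e (Pi.single c (1 : ZMod p))).IsCycle ∧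
        (T e (Pi.single c (1 : ZMod p))).support.card = p := by
      intro c
      have hs : (T e (Pi.single c (1 : ZMod p))).support.card = p := by
        rw [card_support_T, show (Finset.univ.filter fun x => (Pi.single c (1 : ZMod p) : Blk p r → ZMod p) x ≠ 0) = {c} by
          ext x; by_cases hx : x = c
          · subst hx; simp
          · simp [hx]]
        simp
      have hne : T e (Pi.single c (1 : ZMod p)) ≠ 1 := AltClosed.ne_one_of_support hs hp.out.ne_zero
      have ho := orderOf_eq_prime (T_pow_p _) hne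
      exact ⟨isCycle_of_prime_order (ho.symm ▸ hp.out) (by rw [hs, ho]; have := hp.out.pos; omega), hs⟩
    have huQ : w * τ * w⁻¹ ∈ Q := by
      obtain ⟨x, hx, hxτ⟩ := hEQ τ ⟨_, rfl⟩
      refine ⟨g * x * g⁻¹, (Subgroup.mem_normalizer_iff.mp hg x).mp hx, ?_⟩
      have hxτ' : (x : Perm α) = ε.permCongrHom τ := hxτ
      show (g : Perm α) * x * (g : Perm α)⁻¹ = ε.permCongrHom (w * τ * w⁻¹)
      rw [map_mul, map_mul, map_inv, hxτ', hwdef, MulEquiv.apply_symm_apply]
    have husupp : (w * τ * w⁻¹).support.card = p := by rw [Perm.card_support_conj, (hcy b).2]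
    obtain ⟨b', j, hbj⟩ : ∃ b' j, (w * τ * w⁻¹) (Sum.inl (b', j)) ≠ Sum.inl (b', j) := by
      by_contra hcon
      push_neg at hcon
      have hsub : (w * τ * w⁻¹).support ⊆ Finset.univ.map Function.Embedding.inr := by
        intro q hq
        rcases q with ⟨b', j⟩ | c
        · exact absurd (hcon b' j) (Perm.mem_support.mp hq)
        · simp
      have := Finset.card_le_card hsub
      rw [husupp, Finset.card_map, Finset.card_univ, Fintype.card_fin] at this
      have := hp.out.two_le
      omega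
    rcases pcycle_disjoint_or_mem (hcy b').1 (hcy b').2 ((hcy b).1.conj) husupp hQp
        (hEQ _ ⟨_, rfl⟩) huQ with hd | hm
    · rcases hd (Sum.inl (b', j)) with h | h
      · simp [aff_inl] at h
      · exact absurd h hbj
    · exact (Subgroup.zpowers_le (H := Emod p r e)).mpr ⟨_, rfl⟩ hm
  obtain ⟨π, u, f, huf⟩ := exists_aff he hwn
  set t := ∏ b, u b
  have hdd : (dd e t : Perm (Pt p r e)) ∈ MM (E := E) ε hEle := dd_mem_MM hE ε hodd he hU hEle t
  set w' := w * (dd e t)⁻¹ with hw'
  have hw'n : ∀ x ∈ Emod p r e, w' * x * w'⁻¹ ∈ Emod p r e := by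
    intro x hx
    have hi : (dd e t)⁻¹ * x * dd e t ∈ Emod p r e := by
      have hn : dd e t ∈ Subgroup.normalizer (Emod p r e : Set (Perm (Pt p r e))) :=
        Subgroup.mem_normalizer_fintype fun y hy => aff_normalizes _ _ _ hy
      have := (Subgroup.mem_normalizer_iff.mp (inv_mem hn) x).mp hx
      rwa [inv_inv] at this
    have := hwn _ hi
    rw [show w' * x * w'⁻¹ = w * ((dd e t)⁻¹ * x * dd e t) * w⁻¹ by rw [hw']; group]
    exact this
  obtain ⟨π', u', f', hw'f⟩ := exists_aff he hw'n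
  have hu' : ∏ b, u' b = 1 := by
    have h : aff e π u f = aff e π' u' f' * dd e t := by rw [← hw'f, ← huf, hw', inv_mul_cancel_right]
    rw [dd, aff_mul] at h
    have h2 := congrArg (fun z : Blk p r → (ZMod p)ˣ => ∏ b, z b) (aff_inj h).2.1
    simp only [Finset.prod_mul_distrib, prod_du, Equiv.prod_comp] at h2
    exact (mul_eq_right.mp h2.symm)
  have hTmem : ∀ f : Blk p r → ZMod p, T e f ∈ MM (E := E) ε hEle := fun f =>
    pElement_mem_MM hE ε hodd hEle (k := 1) (by rw [pow_one]; exact T_pow_p f)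
      fun x hx => aff_normalizes _ _ _ hx
  have hsw : sign w = 1 := by
    rw [hwdef, Equiv.permCongrHom_symm]
    exact (sign_permCongr ε.symm (g : Perm α)).trans (mem_alternatingGroup.mp g.2)
  have hDu := D_mem_MM hE ε hodd hEle hu'
  have hπ' : π' ∈ alternatingGroup (Blk p r) := by
    rw [mem_alternatingGroup, ← sign_P (e := e) hodd]
    have hd1 := ((mem_MM ε hEle).mp hdd).1
    have hD1 := ((mem_MM ε hEle).mp hDu).1
    have h1 : sign w' = 1 := by rw [hw', map_mul, map_inv, hsw, hd1, inv_one, mul_one]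
    rwa [hw'f, aff_decomp, map_mul, map_mul, hD1, sign_T hodd, mul_one, mul_one] at h1
  have hw'M : w' ∈ MM (E := E) ε hEle := by
    rw [hw'f, aff_decomp]
    exact mul_mem (mul_mem (P_mem_MM hE ε hodd hEle hodd hπ') hDu) (hTmem _)
  have hwM : w ∈ MM (E := E) ε hEle := by
    rw [show w = w' * dd e t by rw [hw', inv_mul_cancel_right]]
    exact mul_mem hw'M hdd
  obtain ⟨_, hgn, hgm⟩ := (mem_MM ε hEle).mp hwM
  rw [show el ε w _ = g from Subtype.ext (ε.permCongrHom.apply_symm_apply _)] at hgn hgm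
  exact weaklyNormal_extend T₀.isPGroup' (groupFusion_saturated T₀) (groupFusion_inducedBy _) hE hg
    (group_isCentric hEle (centralizer_Emod ε hodd he)) hgn hgm

end Main

/-- The fusion systems of alternating groups of degree `n ≥ p ^ 2`, `n % p ≤ 1` are simple. -/
theorem alternating_isSimple (n : ℕ) (hn : 6 ≤ n) (hnp : p ^ 2 ≤ n) (hb : n % p ≤ 1)
    (T₀ : Sylow p (alternatingGroup (Fin n))) :
    (groupFusionSystem (T₀ : Subgroup (alternatingGroup (Fin n)))).IsSimple p := by
  have hp2 := hp.out.two_le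
  have h2p : 2 * p ≤ n := by rw [pow_two] at hnp; nlinarith
  have h3p : 3 * p ≤ n := by
    rcases eq_or_lt_of_le hp2 with h | h
    · omega
    · rw [pow_two] at hnp; nlinarith
  have hS1 : (T₀ : Subgroup (alternatingGroup (Fin n))) ≠ ⊥ := by
    refine T₀.ne_bot_of_dvd_card ?_
    haveI : Nontrivial (Fin n) := Fin.nontrivial_iff_two_le.mpr (by omega)
    have h : 2 * p ∣ 2 * Nat.card (alternatingGroup (Fin n)) := by
      rw [two_mul_nat_card_alternatingGroup, Nat.card_perm, Nat.card_fin]
      exact Nat.dvd_factorial (by omega) h2p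
    exact Nat.dvd_of_mul_dvd_mul_left (by norm_num) h
  refine group_isSimple_of_extend T₀ hS1 (fun T hT => ?_) fun E hE g hg => ?_
  · by_cases hne : T = ⊥
    · exact Or.inl hne
    · exact Or.inr (AltClosed.eq_top hT (by simpa using h3p) hne)
  rcases hp.out.eq_two_or_odd' with h2 | hodd
  · subst h2
    rw [KnownA.normalizer_sylow_two_alt (Fin n) (by simpa using hn) T₀] at hg
    exact Mor.conj le_rfl hg
  have hdiv : p ≤ n / p := (Nat.le_div_iff_mul_le hp.out.pos).mpr (by rw [← pow_two]; exact hnp)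
  have hc : Fintype.card (Pt p (n / p - p) (n % p)) = Fintype.card (Fin n) := by
    simp only [Fintype.card_sum, Fintype.card_prod, ZMod.card, Fintype.card_fin]
    rw [Nat.add_sub_cancel' hdiv]
    exact Nat.div_add_mod' n p
  set ε₀ := Fintype.equivOfCardEq hc
  have hUp : IsPGroup p (sub ε₀ (Umod p (n / p - p) (n % p))) :=
    ((isPGroup_Umod).comap_of_injective _ ε₀.permCongrHom.symm.injective).comap_subtype
  obtain ⟨Q, hQ⟩ := hUp.exists_le_sylow
  obtain ⟨c, hc'⟩ := MulAction.exists_smul_eq (alternatingGroup (Fin n)) Q T₀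
  set ε := ε₀.trans (c : Perm (Fin n))
  have hU : sub ε (Umod p (n / p - p) (n % p)) ≤ (T₀ : Subgroup (alternatingGroup (Fin n))) := by
    intro x hx
    rw [← hc', Sylow.coe_subgroup_smul]
    refine ⟨c⁻¹ * x * c, hQ ?_, by simp [mul_assoc]⟩
    have key : ε.permCongrHom.symm (x : Perm (Fin n)) =
        ε₀.permCongrHom.symm ((c⁻¹ * x * c : alternatingGroup (Fin n)) : Perm (Fin n)) := by
      apply Equiv.ext
      intro q
      simp [ε, Equiv.permCongrHom, Perm.mul_apply, Equiv.Perm.inv_def]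
    rw [mem_sub, ← key]
    exact hx
  exact mor_of_normalizer hE ε hodd hb hU ((sub_mono ε Emod_le_Umod).trans hU) hg

end Cfsg.Agent.Fusion.AltAut
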