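/-
Constrained systems modulo a central subgroup of the group.
-/
import Cfsg.Agent.Fusion.NormalMore
import Cfsg.Agent.Fusion.Group
set_option autoImplicit false
set_option linter.style.haveILetI false

namespace Cfsg.Agent.Fusion

open Cfsg Cfsg.FusionSystem IsInducedBy
open scoped Pointwise

universe u v

variable {L : Type u} [Group L] [Finite L] {M : Type v} [Group M] {p : ℕ} [Fact p.Prime]

/-- If the system of `L` is constrained, so is that of a central quotient of `L`. -/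
theorem central_quotient_constrained (T : Sylow p L) (hF : (groupFusionSystem (T : Subgroup L)).IsConstrained p)
    (θ : L →* M) (hθ : Function.Surjective θ) (hker : θ.ker ≤ Subgroup.center L) :
    (groupFusionSystem ((T : Subgroup L).map θ)).IsConstrained p := by
  obtain ⟨hsat, Q, hQ, hQc⟩ := hF
  set F := groupFusionSystem (T : Subgroup L)
  have hI := groupFusion_inducedBy (T : Subgroup L)
  have hTp := T.isPGroup'
  haveI : Finite M := Finite.of_surjective θ hθ
  have hcen : ∀ {z}, θ z = 1 → ∀ g : L, g * z = z * g := fun hz g => Subgroup.mem_center_iff.mp (hker hz) g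
  -- a `p`-element lying in `T · ker θ` is in `T`
  have hTmem : ∀ (P : Subgroup L), IsPGroup p P → ∀ x ∈ P, θ x ∈ (T : Subgroup L).map θ → x ∈ T := by
    intro P hP x hx hxT
    obtain ⟨t, ht, e⟩ := hxT
    set z := t⁻¹ * x
    have hz : θ z = 1 := by rw [map_mul, map_inv, e, inv_mul_cancel]
    obtain ⟨a, ha⟩ := hP ⟨x, hx⟩
    obtain ⟨b, hb⟩ := hTp ⟨t, ht⟩
    have ha' : x ^ p ^ a = 1 := congrArg Subtype.val ha
    have hb' : t ^ p ^ b = 1 := congrArg Subtype.val hb
    have hzp : z ^ p ^ (a + b) = 1 := by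
      have hc : Commute t⁻¹ x := by
        show t⁻¹ * x = x * t⁻¹
        have h1 := hcen hz t
        rw [mul_inv_cancel_left] at h1
        rw [eq_mul_inv_iff_mul_eq]
        exact h1.symm
      rw [hc.mul_pow, inv_pow, pow_add, pow_mul' t, hb', one_pow, inv_one, one_mul, pow_mul, ha', one_pow]
    have hZp : IsPGroup p (Subgroup.zpowers z) := IsPGroup.of_card (n := (Nat.dvd_prime_pow
      (Fact.out : p.Prime)).mp (orderOf_dvd_of_pow_eq_one hzp) |>.choose) (by
        rw [Nat.card_zpowers]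
        exact ((Nat.dvd_prime_pow (Fact.out : p.Prime)).mp (orderOf_dvd_of_pow_eq_one hzp)).choose_spec.2)
    obtain ⟨l, -, hl⟩ := exists_conj_le_of_sylow (A := (T : Subgroup L)) (L := ⊤) le_top hTp
      (by rw [Subgroup.relIndex_top_right]; exact T.not_dvd_index) le_top hZp
    have h1 := hl z (Subgroup.mem_zpowers z)
    rw [cj_apply, hcen hz l, mul_inv_cancel_right] at h1
    have h2 := (T : Subgroup L).mul_mem ht h1
    rwa [mul_inv_cancel_left] at h2
  have hQs := isNormal_stronglyClosed hQ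
  have hnQ := stronglyClosed_normalizer hQs
  have hQT := hQ.1
  have hzQ : ∀ {z}, z ∈ T → θ z = 1 → z ∈ Q := fun hzT hz =>
    hQc.2 Q (isConj_refl hQT) ⟨hzT, fun q _ => hcen hz q⟩
  let Y : Subgroup L :=
    { carrier := {s | s ∈ T ∧ ∀ q ∈ Q, θ s * θ q = θ q * θ s}
      one_mem' := ⟨(T : Subgroup L).one_mem, fun q _ => by rw [map_one, one_mul, mul_one]⟩
      mul_mem' := fun {a b} ha hb => ⟨(T : Subgroup L).mul_mem ha.1 hb.1, fun q hq => by
        rw [map_mul, mul_assoc, hb.2 q hq, ← mul_assoc, ha.2 q hq, mul_assoc]⟩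
      inv_mem' := fun {a} ha => ⟨(T : Subgroup L).inv_mem ha.1, fun q hq => by
        rw [map_inv, eq_mul_inv_iff_mul_eq, mul_assoc, ← ha.2 q hq, inv_mul_cancel_left]⟩ }
  have hYmem : ∀ {s}, s ∈ Y ↔ s ∈ T ∧ ∀ q ∈ Q, θ s * θ q = θ q * θ s := Iff.rfl
  have hYz : ∀ {s}, s ∈ Y → ∀ q ∈ Q, ∃ z, θ z = 1 ∧ z ∈ Q ∧ s * q * s⁻¹ = q * z := by
    intro s hs q hq
    refine ⟨q⁻¹ * (s * q * s⁻¹), ?_, Q.mul_mem (Q.inv_mem hq)
      ((Subgroup.mem_normalizer_iff.mp (hnQ hs.1) q).mp hq), (mul_inv_cancel_left _ _).symm⟩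
    rw [map_mul, map_mul, map_mul, map_inv, map_inv, hs.2 q hq, mul_inv_cancel_right, inv_mul_cancel]
  set W := Y ⊔ Q with hW
  have hWT : W ≤ (T : Subgroup L) := sup_le (fun s hs => hs.1) hQT
  have hYn : Y ≤ Subgroup.normalizer (Q : Set L) := fun s hs => hnQ hs.1
  have hWmem : ∀ {x}, x ∈ W → ∃ c ∈ Y, ∃ q ∈ Q, c * q = x := by
    intro x hx
    have h : x ∈ ((W : Subgroup L) : Set L) := hx
    rw [Subgroup.coe_mul_of_left_le_normalizer_right Y Q hYn] at h
    exact h
  have hWs : F.StronglyClosed W := by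
    refine stronglyClosed_of_mor hWT fun P f hf x hxP hx => ?_
    obtain ⟨c, hc, q, hq, rfl⟩ := hWmem hx
    obtain ⟨g, hg, eg, mg⟩ := ExtStab.of_isNormal hQ hf
    have hqD : q ∈ P ⊔ Q := Subgroup.mem_sup_right hq
    have hcD : c ∈ P ⊔ Q := by
      have := mul_mem (Subgroup.mem_sup_left (T := Q) hxP) (inv_mem hqD)
      rwa [mul_inv_cancel_right] at this
    obtain ⟨-, -, l, -, el⟩ := (hI _ _).mp hg
    rw [← eg _ hxP, hg.map_mul hcD hqD]
    refine mul_mem (Subgroup.mem_sup_left (hYmem.mpr ⟨hg.map_mem hcD, fun w hw => ?_⟩))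
      (Subgroup.mem_sup_right (mg q hq))
    haveI : Finite Q := finite_of_le hQT
    obtain ⟨v, hv, rfl⟩ := ((hg.restrict le_sup_right).iso_of_card mg le_rfl).surj hw
    rw [el c hcD, el v (Subgroup.mem_sup_right hv), ← map_mul, ← map_mul, ← cj_map_mul, ← cj_map_mul,
      cj_apply, cj_apply]
    simp only [map_mul, hc.2 v hv]
  have hWn := stronglyClosed_normalizer hWs
  -- commutators
  have hcomm : ∀ c ∈ Y, ∀ d ∈ Y, d⁻¹ * c * d * c⁻¹ ∈ Q := by
    intro c hc d hd
    have hcenQ : c⁻¹ * d⁻¹ * c * d ∈ centralizerIn (T : Subgroup L) Q := by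
      refine ⟨(T : Subgroup L).mul_mem ((T : Subgroup L).mul_mem ((T : Subgroup L).mul_mem
        ((T : Subgroup L).inv_mem hc.1) ((T : Subgroup L).inv_mem hd.1)) hc.1) hd.1, fun q hq => ?_⟩
      obtain ⟨a, ha, -, ea⟩ := hYz hc q hq
      obtain ⟨b, hb, -, eb⟩ := hYz hd q hq
      have k1 : c * q = q * a * c := by rw [← ea, inv_mul_cancel_right]
      have k2 : d * q = q * b * d := by rw [← eb, inv_mul_cancel_right]
      have f1 : (c * d) * q = q * (a * b) * (c * d) := by
        rw [mul_assoc, k2, ← mul_assoc, ← mul_assoc, k1, mul_assoc (q * a) c b, hcen hb c]; group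
      have f2 : (d * c) * q = q * (a * b) * (d * c) := by
        rw [hcen hb a, mul_assoc, k1, ← mul_assoc, ← mul_assoc, k2, mul_assoc (q * b) d a, hcen ha d]; group
      calc q * (c⁻¹ * d⁻¹ * c * d) = (d * c)⁻¹ * ((d * c) * q) * ((d * c)⁻¹ * (c * d)) := by group
        _ = (d * c)⁻¹ * (q * (a * b) * (c * d)) := by rw [f2]; group
        _ = (d * c)⁻¹ * ((c * d) * q) := by rw [f1]
        _ = c⁻¹ * d⁻¹ * c * d * q := by group
    have h3 := hQc.2 Q (isConj_refl hQT) hcenQ
    rw [show d⁻¹ * c * d * c⁻¹ = c * (c⁻¹ * d⁻¹ * c * d) * c⁻¹ by group]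
    exact (Subgroup.mem_normalizer_iff.mp (hnQ hc.1) _).mp h3
  have hWnormal : F.IsNormal W := by
    refine isNormal_of_stronglyClosed hTp hsat hWs fun R hR => ?_
    have hr := essential_radical hTp hR
    have hc := hR.1
    have hQR : Q ≤ R := isNormal_le_centricRadical hTp hQ hc hr
    by_contra hWR
    obtain ⟨b, hbT, hbR, hbn⟩ := exists_mem_normalizer_of_lt (hTp.to_le (sup_le hc.1 hWT))
      (lt_of_le_of_ne le_sup_left fun e => hWR (e ▸ le_sup_right) : R < R ⊔ W)
    obtain ⟨u, hu, a, haW, rfl⟩ := show b ∈ (R : Set L) * (W : Set L) by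
      rw [← Subgroup.coe_mul_of_left_le_normalizer_right _ _ (hc.1.trans hWn)]
      exact hbT
    obtain ⟨c, hcY, q, hq, rfl⟩ := hWmem haW
    have hcR : c ∉ R := fun h => hbR (R.mul_mem hu (R.mul_mem h (hQR hq)))
    have hcN : c ∈ normalizerIn (T : Subgroup L) R := ⟨hcY.1, by
      have h1 := mul_mem (mul_mem (inv_mem (Subgroup.le_normalizer hu)) hbn)
        (inv_mem (Subgroup.le_normalizer (hQR hq)))
      rwa [inv_mul_cancel_left, mul_inv_cancel_right] at h1⟩
    let D : ℕ → Subgroup R := fun j =>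
      if j = 0 then ⊥ else if j = 1 then θ.ker.subgroupOf R else if j = 2 then Q.subgroupOf R else
        if j = 3 then W.subgroupOf R else ⊤
    refine hcR (mem_of_stabilizes hTp hc hr hcN D 4 rfl rfl ?_ ?_ ?_)
    · intro j hj
      interval_cases j
      · exact bot_le
      · exact fun x (hx : θ (x : L) = 1) => hzQ (hc.1 x.2) hx
      · exact Subgroup.comap_mono le_sup_right
      · exact le_top
    · intro α hα j hj x hx
      obtain ⟨f, hf, ef⟩ := (mem_autGroup_iff hc.1).mp hα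
      interval_cases j
      · rw [show x = 1 from hx, map_one]; exact one_mem _
      · show θ ((α x : R) : L) = 1
        obtain ⟨-, -, l, -, el⟩ := (hI _ _).mp hf.mor
        rw [← ef x, el x x.2, cj_apply, map_mul, map_mul, map_inv, show θ (x : L) = 1 from hx, mul_one,
          mul_inv_cancel]
      · show ((α x : R) : L) ∈ Q
        rw [← ef x]; exact stronglyClosed_mem hQs hf.mor x.2 hx
      · show ((α x : R) : L) ∈ W
        rw [← ef x]; exact stronglyClosed_mem hWs hf.mor x.2 hx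
      · exact Subgroup.mem_top _
    · intro j hj x hx
      have hval : ((x⁻¹ * actHom (T : Subgroup L) R ⟨c, hcN⟩ x : R) : L) = (x : L)⁻¹ * c * x * c⁻¹ := by
        rw [Subgroup.coe_mul, InvMemClass.coe_inv, actHom_apply, cj_apply]
        group
      interval_cases j
      · refine Subgroup.mem_bot.mpr (Subtype.ext ?_)
        rw [hval, mul_assoc _ c, hcen (show θ (x : L) = 1 from hx) c]
        show (x : L)⁻¹ * ((x : L) * c) * c⁻¹ = 1
        group
      · show θ ((x⁻¹ * actHom (T : Subgroup L) R ⟨c, hcN⟩ x : R) : L) = 1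
        rw [hval, map_mul, map_mul, map_mul, map_inv, map_inv, mul_assoc (θ (x : L))⁻¹,
          hcY.2 x (show (x : L) ∈ Q from hx), inv_mul_cancel_left, mul_inv_cancel]
      · show ((x⁻¹ * actHom (T : Subgroup L) R ⟨c, hcN⟩ x : R) : L) ∈ Q
        obtain ⟨d, hd, w, hw, e⟩ := hWmem (show (x : L) ∈ W from hx)
        rw [hval, ← e,
          show (d * w)⁻¹ * c * (d * w) * c⁻¹ = w⁻¹ * ((d⁻¹ * c * d * c⁻¹) * (c * w * c⁻¹)) by group]
        exact Q.mul_mem (Q.inv_mem hw) (Q.mul_mem (hcomm c hcY d hd)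
          ((Subgroup.mem_normalizer_iff.mp (hnQ hcY.1) w).mp hw))
      · show ((x⁻¹ * actHom (T : Subgroup L) R ⟨c, hcN⟩ x : R) : L) ∈ W
        rw [hval]
        have h1 := (Subgroup.mem_normalizer_iff.mp
          (hWn ((T : Subgroup L).inv_mem (hc.1 x.2))) c).mp (Subgroup.mem_sup_left hcY)
        rw [inv_inv] at h1
        exact W.mul_mem h1 (W.inv_mem (Subgroup.mem_sup_left hcY))
  set T' := (T : Subgroup L).map θ with hT'
  have hT'p : IsPGroup p T' := hTp.map θ
  have hI' := groupFusion_inducedBy T'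
  have hSyl : ¬ p ∣ T'.relIndex ⊤ := by
    rw [Subgroup.relIndex_top_right]
    exact fun hd => T.not_dvd_index (hd.trans ((T : Subgroup L).index_map_dvd hθ))
  refine ⟨hI'.saturated le_top hT'p hSyl, W.map θ, isNormal_of_extStab (Subgroup.map_mono hWT) ?_,
    Subgroup.map_mono hWT, fun R' hR' y hy => ?_⟩
  · intro P' f' hf'
    obtain ⟨hP', hv, g', -, eg⟩ := (hI' _ _).mp hf'
    obtain ⟨g, rfl⟩ := hθ g'
    set P := (T : Subgroup L) ⊓ P'.comap θ
    have hPm : Mor F P (cj g) := by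
      refine (hI _ _).mpr ⟨inf_le_left, fun x hx => ?_, g, trivial, fun _ _ => rfl⟩
      refine hTmem _ ((hTp.to_le inf_le_left).map (MulAut.conj g).toMonoidHom) _ ⟨x, hx, rfl⟩ ?_
      have h1 := hv (θ x) hx.2
      rw [eg _ hx.2, cj_apply, ← map_inv, ← map_mul, ← map_mul] at h1
      exact h1
    obtain ⟨k, hk, ek, mk⟩ := ExtStab.of_isNormal hWnormal hPm
    obtain ⟨-, hkv, l, -, el⟩ := (hI _ _).mp hk
    have hP'le : P' ≤ P.map θ := fun y hy => by
      obtain ⟨x, hx, rfl⟩ := hP' hy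
      exact ⟨x, ⟨hx, hy⟩, rfl⟩
    refine ⟨cj (θ l), (hI' _ _).mpr ⟨sup_le hP' (Subgroup.map_mono hWT), ?_, θ l, trivial, fun _ _ => rfl⟩, ?_, ?_⟩
    · have hle : P' ⊔ W.map θ ≤ ((P ⊔ W).map θ) :=
        sup_le (hP'le.trans (Subgroup.map_mono le_sup_left)) (Subgroup.map_mono le_sup_right)
      intro y hy
      obtain ⟨x, hx, rfl⟩ := hle hy
      rw [cj_apply, ← map_inv, ← map_mul, ← map_mul]
      exact ⟨_, hkv x hx, by rw [el x hx]; rfl⟩
    · intro y hy
      obtain ⟨x, hx, rfl⟩ := hP'le hy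
      have h1 := ek x hx
      rw [el x (Subgroup.mem_sup_left hx)] at h1
      rw [eg _ hy]
      show θ l * θ x * (θ l)⁻¹ = θ g * θ x * (θ g)⁻¹
      rw [← map_inv, ← map_mul, ← map_mul, show l * x * l⁻¹ = g * x * g⁻¹ from h1]
      simp
    · rintro _ ⟨w, hw, rfl⟩
      refine ⟨k w, mk w hw, ?_⟩
      rw [el w (Subgroup.mem_sup_right hw)]
      simp [cj_apply]
  · obtain ⟨f, hf⟩ := isConj_iff.mp hR'
    obtain ⟨-, -, g', -, eg⟩ := (hI' _ _).mp hf.mor
    obtain ⟨g, rfl⟩ := hθ g'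
    obtain ⟨t, ht, rfl⟩ := hy.1
    -- the inner maps carry the image of `W` to itself
    have hPm : Mor F W (cj g) := by
      refine (hI _ _).mpr ⟨hWT, fun x hx => ?_, g, trivial, fun _ _ => rfl⟩
      refine hTmem _ ((hTp.to_le hWT).map (MulAut.conj g).toMonoidHom) _ ⟨x, hx, rfl⟩ ?_
      have h1 := hf.cod_le (hf.mapsTo ⟨x, hx, rfl⟩)
      rw [eg _ ⟨x, hx, rfl⟩, cj_apply, ← map_inv, ← map_mul, ← map_mul] at h1
      exact h1
    have hi : Iso F (cj g) W W := by
      haveI : Finite W := finite_of_le hWT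
      exact hPm.iso_of_card (fun x hx => stronglyClosed_mem hWs hPm hx hx) le_rfl
    have hR : R' = W.map θ := by
      ext z
      constructor
      · intro hz
        obtain ⟨w', ⟨w, hw, rfl⟩, rfl⟩ := hf.surj hz
        rw [eg _ ⟨w, hw, rfl⟩]
        exact ⟨_, hi.mapsTo hw, by simp [cj_apply]⟩
      · rintro ⟨w, hw, rfl⟩
        obtain ⟨v, hv, e⟩ := hi.surj hw
        have h1 := hf.mapsTo (x := θ v) ⟨v, hv, rfl⟩
        rw [eg _ ⟨v, hv, rfl⟩] at h1
        rw [← e]
        simpa [cj_apply] using h1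
    subst hR
    refine ⟨t, Subgroup.mem_sup_left (hYmem.mpr ⟨ht, fun q hq => ?_⟩), rfl⟩
    exact (hy.2 _ ⟨q, Subgroup.mem_sup_right hq, rfl⟩).symm

end Cfsg.Agent.Fusion
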