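/-
Strongly closed direct factors.
-/
import Cfsg.Agent.Fusion.NormalizerSat
import Cfsg.Agent.Fusion.Normal
import Cfsg.Agent.Fusion.Local
set_option autoImplicit false

namespace Cfsg.Agent.Fusion.DirectClosed

open Cfsg Cfsg.FusionSystem

variable {Ω : Type*} [Group Ω] {S : Subgroup Ω} {F : FusionSystem S} {p : ℕ} [hp : Fact p.Prime]

omit hp in
theorem mor_sub_iff {U T : Subgroup Ω} {G : FusionSystem U} {R : FusionSystem T}
    (hR : ∀ P : Subgroup Ω, P ≤ T → R.Hom P = G.Hom P) {P : Subgroup Ω} {f : Ω → Ω} :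
    Mor R P f ↔ P ≤ T ∧ Mor G P f := by
  constructor
  · intro h
    exact ⟨h.dom_le, mem_iff_mor.mp (hR P h.dom_le ▸ h.hom_mem) |>.congr fun x hx => by
      rw [extFun_apply _ hx]; rfl⟩
  · rintro ⟨hP, h⟩
    exact (mem_iff_mor.mp (hR P hP ▸ h.hom_mem)).congr fun x hx => by rw [extFun_apply _ hx]; rfl

omit hp in
theorem iso_sub_iff {U T : Subgroup Ω} {G : FusionSystem U} {R : FusionSystem T}
    (hR : ∀ P : Subgroup Ω, P ≤ T → R.Hom P = G.Hom P) {P Q : Subgroup Ω} {f : Ω → Ω} (hP : P ≤ T) :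
    Iso R f P Q ↔ Iso G f P Q :=
  ⟨fun h => ⟨((mor_sub_iff hR).mp h.mor).2, h.bij⟩, fun h => ⟨(mor_sub_iff hR).mpr ⟨hP, h.mor⟩, h.bij⟩⟩

/-- The restriction of a saturated system to a strongly closed subgroup with centralizing complement. -/
theorem restrict_saturated {U T : Subgroup Ω} [Finite U] (hU : IsPGroup p U) {G : FusionSystem U}
    (hG : G.IsSaturated p) (hT : G.StronglyClosed T)
    (hdec : ∀ u ∈ U, ∃ t ∈ T, ∃ c : Ω, (∀ x ∈ T, Commute c x) ∧ u = t * c)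
    {R : FusionSystem T} (hR : ∀ P : Subgroup Ω, P ≤ T → R.Hom P = G.Hom P) : R.IsSaturated p := by
  intro P hP
  obtain ⟨Q, hQ, hA, hrec⟩ := hG P (hP.trans hT.1)
  obtain ⟨f, hf⟩ := isConj_iff.mp hQ
  have hQT : Q ≤ T := fun y hy => by
    obtain ⟨x, hx, rfl⟩ := hf.surj hy
    exact stronglyClosed_mem hT hf.mor hx (hP hx)
  have hAut : R.autGroup Q = G.autGroup Q := by
    ext α
    rw [autGroup_set_eq hQT, autGroup_set_eq (hQT.trans hT.1), hR Q hQT]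
  have hInd : autInducedBy T Q = autInducedBy U Q := by
    refine le_antisymm (autInducedBy_mono hT.1 Q) fun α hα => ?_
    obtain ⟨g, hg, hgn, e⟩ := mem_autInducedBy.mp hα
    obtain ⟨t, ht, c, hc, rfl⟩ := hdec g hg
    have e' : ∀ x : Q, cj (t * c) (x : Ω) = cj t x := fun x => by
      rw [cj_mul]
      show cj t (c * x * c⁻¹) = _
      rw [(hc x (hQT x.2)).eq, mul_inv_cancel_right]
    refine mem_autInducedBy.mpr ⟨t, ht, Subgroup.mem_normalizer_iff.mpr fun x => ?_, fun x => (e x).trans (e' x)⟩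
    constructor
    · intro hx
      have := (cj_mem_iff hgn x).mpr hx
      rw [e' ⟨x, hx⟩] at this
      exact this
    · intro hx
      obtain ⟨y, hy⟩ := (cj_mem_iff hgn (cj (t * c)⁻¹ (cj t x))).mp (by rw [cj_cancel_inv]; exact hx) |>
        fun h => (⟨⟨_, h⟩, rfl⟩ : ∃ y : Q, (y : Ω) = cj (t * c)⁻¹ (cj t x))
      have h1 := e' y
      rw [hy, cj_cancel_inv, ← hy] at h1
      exact cj_injective t h1 ▸ y.2
  refine ⟨Q, ?_, ?_, ?_⟩
  · exact ((iso_sub_iff hR hP).mpr hf).isConj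
  · obtain ⟨-, W, hW⟩ := hA
    refine ⟨hQT, ?_⟩
    rw [hInd, hAut]
    exact ⟨W, hW⟩
  · refine receptive_iff.mpr ⟨hQT, fun P' χ hχ => ?_⟩
    have hPT := hχ.mor.dom_le
    obtain ⟨g, hg, eg⟩ := (receptive_iff.mp hrec).2 P' χ ((iso_sub_iff hR hPT).mp hχ)
    have hsub : nphi T P' χ ≤ nphi U P' χ := fun a ha =>
      ⟨hT.1 ha.1, ha.2.1, by
        obtain ⟨s, hs, es⟩ := ha.2.2
        exact ⟨s, hT.1 hs, es⟩⟩
    exact ⟨g, (mor_sub_iff hR).mpr ⟨nphi_le.trans normalizerIn_le, hg.restrict hsub⟩, eg⟩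

variable {S₁ S₂ : Subgroup Ω}

/-- The maps of `R'` in terms of maps. -/
theorem mor_fix_iff {R' : FusionSystem S₁} (hR' : ∀ P : Subgroup Ω, P ≤ S₁ → R'.Hom P = F.centralizerHom S₂ P)
    (hS1 : S₁ ≤ centralizerIn S S₂) (h₁ : F.StronglyClosed S₁) {P : Subgroup Ω} {f : Ω → Ω} :
    Mor R' P f ↔ P ≤ S₁ ∧ ∃ g, Mor F (P ⊔ S₂) g ∧ (∀ x ∈ P, g x = f x) ∧ ∀ x ∈ S₂, g x = x := by
  constructor
  · intro h
    have hP := h.dom_le
    obtain ⟨-, -, -, hext⟩ := hR' P hP ▸ h.hom_mem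
    obtain ⟨g, hg, e, m⟩ := fixExt_iff.mp hext
    exact ⟨hP, g, hg, fun x hx => e ⟨x, hx⟩, m⟩
  · rintro ⟨hP, g, hg, e, m⟩
    have hm : Mor F P f := (hg.restrict le_sup_left).congr e
    have hmem : hm.hom ∈ R'.Hom P := by
      rw [hR' P hP]
      refine ⟨hm.hom_mem, hP.trans hS1, fun x => hS1 ?_, fixExt_iff.mpr ⟨g, hg, fun x => e x x.2, m⟩⟩
      exact stronglyClosed_mem h₁ hm x.2 (hP x.2)
    exact (mem_iff_mor.mp hmem).congr fun x hx => by rw [extFun_apply _ hx]; rfl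

/-- The theorem. -/
theorem direct_closed [Finite S] (hS : IsPGroup p S) (hF : F.IsSaturated p)
    (hprod : Cfsg.IsInternalDirectProduct S₁ S₂ S) (h₁ : F.StronglyClosed S₁) (h₂ : F.StronglyClosed S₂)
    (R R' : FusionSystem S₁) (hR : ∀ P : Subgroup Ω, P ≤ S₁ → R.Hom P = F.Hom P)
    (hR' : ∀ P : Subgroup Ω, P ≤ S₁ → R'.Hom P = F.centralizerHom S₂ P) :
    R.IsSaturated p ∧ R'.IsSaturated p ∧ R'.IsNormalIn F p ∧ R'.IsNormalIn R p ∧ R.IsWeaklyNormalIn F p := by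
  obtain ⟨hS1, hS2, hcomm, hbot, hsup⟩ := hprod
  haveI := finite_of_le hS1
  haveI := finite_of_le hS2
  have hS1C : S₁ ≤ centralizerIn S S₂ := fun a ha => ⟨hS1 ha, fun b hb => (hcomm a ha b hb).symm⟩
  have hdec : ∀ u ∈ S, ∃ t ∈ S₁, ∃ c ∈ S₂, u = t * c := by
    have hn : S₂ ≤ Subgroup.normalizer (S₁ : Set Ω) := fun c hc => stronglyClosed_normalizer h₁ (hS2 hc)
    intro u hu
    have hu' : u ∈ ((S₁ ⊔ S₂ : Subgroup Ω) : Set Ω) := hsup.ge hu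
    rw [Subgroup.coe_mul_of_right_le_normalizer_left _ _ hn] at hu'
    obtain ⟨t, ht, c, hc, rfl⟩ := hu'
    exact ⟨t, ht, c, hc, rfl⟩
  have hRsat : R.IsSaturated p := restrict_saturated hS hF h₁ (fun u hu => by
    obtain ⟨t, ht, c, hc, rfl⟩ := hdec u hu
    exact ⟨t, ht, c, fun x hx => (hcomm x hx c hc).symm, rfl⟩) hR
  -- the centralizer system
  have hfcen : F.IsFullyCentralized S₂ := ⟨hS2, fun Q hQ => by
    obtain ⟨f, hf⟩ := isConj_iff.mp hQ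
    have hsub : Q ≤ S₂ := fun y hy => by
      obtain ⟨x, hx, rfl⟩ := hf.surj hy
      exact stronglyClosed_mem h₂ hf.mor hx hx
    rw [eq_of_le_of_card hsub hf.card_eq.le]⟩
  obtain ⟨C, hC⟩ := exists_centralizerSystem F S₂ hS2
  have hCsat := centralizerSystem_saturated hS hF hfcen hC
  haveI := finite_of_le (centralizerIn_le : centralizerIn S S₂ ≤ S)
  have hCsc : C.StronglyClosed S₁ := ⟨hS1C, fun Q hQ φ hφ x => by
    rw [hC Q] at hφ
    exact h₁.2 Q hQ φ hφ.1 x⟩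
  have hR'sat : R'.IsSaturated p := restrict_saturated (hS.to_le centralizerIn_le) hCsat hCsc (fun u hu => by
    obtain ⟨t, ht, c, hc, rfl⟩ := hdec u hu.1
    exact ⟨t, ht, c, fun x hx => (hcomm x hx c hc).symm, rfl⟩) fun P hP => by rw [hR' P hP, hC P]
  -- maps on subgroups of `S₁` stabilise `S₂`
  have hext : ∀ (P : Subgroup Ω) (f : Ω → Ω), P ≤ S₁ → Mor F P f →
      ∃ g, Mor F (P ⊔ S₂) g ∧ (∀ x ∈ P, g x = f x) ∧ ∀ x ∈ S₂, g x ∈ S₂ := by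
    intro P f hP hf
    obtain ⟨Q, hPQ, hQ⟩ := exists_fullyNormalized (F := F) hf.img_le
    obtain ⟨k, hk⟩ := isConj_iff.mp hPQ
    -- extend both `f` followed by a map to `Q`, and that map
    have hboth : ∀ (P' : Subgroup Ω) (u : Ω → Ω), P' ≤ S₁ → Iso F u P' Q →
        ∃ g, Mor F (P' ⊔ S₂) g ∧ (∀ x ∈ P', g x = u x) ∧ ∀ x ∈ S₂, g x ∈ S₂ := by
      intro P' u hP' hu
      obtain ⟨-, -, hrec⟩ := IsSaturated_fullyNormalized hS hF hQ
      obtain ⟨g, hg, eg⟩ := (receptive_iff.mp hrec).2 P' u hu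
      have hle : P' ⊔ S₂ ≤ nphi S P' u := sup_le hu.mor.le_nphi fun c hc => centralizerIn_le_nphi
        ⟨hS2 hc, fun x hx => hcomm x (hP' hx) c hc⟩
      exact ⟨g, hg.restrict hle, eg, fun x hx => stronglyClosed_mem h₂ (hg.restrict hle) (Subgroup.mem_sup_right hx) hx⟩
    have hfQ := hf.toIso.comp hk
    have himgS1 : hf.img ≤ S₁ := fun y hy => by
      obtain ⟨x, hx, rfl⟩ := hf.mem_img.mp hy
      exact stronglyClosed_mem h₁ hf hx (hP hx)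
    obtain ⟨a, ha, ea, ma⟩ := hboth P _ hP hfQ
    obtain ⟨b, hb, eb, mb⟩ := hboth hf.img k himgS1 hk
    obtain ⟨b', hb', hbb, hbb'⟩ := hb.toIso.exists_symm
    have hab : ∀ x ∈ P ⊔ S₂, a x ∈ hb.img := by
      refine Mor.map_sup ha (fun x hx => ?_) fun x hx => ?_
      · exact hb.mem_img.mpr ⟨f x, Subgroup.mem_sup_left (hf.mem_img.mpr ⟨x, hx, rfl⟩), by
          rw [eb _ (hf.mem_img.mpr ⟨x, hx, rfl⟩), ea x hx]; rfl⟩
      · have hbi : Iso F b S₂ S₂ := (hb.restrict le_sup_right).iso_of_card mb le_rfl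
        obtain ⟨y, hy, e⟩ := hbi.surj (ma x hx)
        exact hb.mem_img.mpr ⟨y, Subgroup.mem_sup_right hy, e⟩
    refine ⟨b' ∘ a, ha.comp hb'.mor hab, fun x hx => ?_, fun x hx => ?_⟩
    · show b' (a x) = f x
      rw [ea x hx]
      show b' (k (f x)) = f x
      rw [← eb _ (hf.mem_img.mpr ⟨x, hx, rfl⟩), hbb _ (Subgroup.mem_sup_left (hf.mem_img.mpr ⟨x, hx, rfl⟩))]
    · have hbi : Iso F b S₂ S₂ := (hb.restrict le_sup_right).iso_of_card mb le_rfl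
      obtain ⟨y, hy, e⟩ := hbi.surj (ma x hx)
      show b' (a x) ∈ S₂
      rw [← e, hbb y (Subgroup.mem_sup_right hy)]
      exact hy
  -- an automorphism of `S₂` extends to `S`
  have hfn2 : F.IsFullyNormalized S₂ := ⟨hS2, fun Q hQ => by
    obtain ⟨f, hf⟩ := isConj_iff.mp hQ
    have hsub : Q ≤ S₂ := fun y hy => by
      obtain ⟨x, hx, rfl⟩ := hf.surj hy
      exact stronglyClosed_mem h₂ hf.mor hx hx
    rw [eq_of_le_of_card hsub hf.card_eq.le]⟩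
  have hlift : ∀ b, Iso F b S₂ S₂ → ∃ g, Iso F g S S ∧ ∀ x ∈ S₂, g x = b x := by
    intro b hb
    obtain ⟨-, -, hrec⟩ := IsSaturated_fullyNormalized hS hF hfn2
    obtain ⟨g, hg, eg⟩ := (receptive_iff.mp hrec).2 S₂ b hb
    have hle : S ≤ nphi S S₂ b := fun s hs => by
      obtain ⟨t, ht, c, hc, rfl⟩ := hdec s hs
      refine mem_nphi.mpr ⟨hs, stronglyClosed_normalizer h₂ hs, b c, hS2 (hb.mapsTo hc), fun x hx => ?_⟩
      have e : cj (t * c) x = c * x * c⁻¹ := by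
        rw [cj_mul]
        show t * (c * x * c⁻¹) * t⁻¹ = _
        rw [hcomm t ht _ (S₂.mul_mem (S₂.mul_mem hc hx) (S₂.inv_mem hc)), mul_inv_cancel_right]
      rw [e, hb.mor.map_conj hc hx]
      rfl
    exact ⟨g, (hg.restrict hle).iso_of_card (fun x hx => (hg.restrict hle).map_mem hx) le_rfl, eg⟩
  -- an automorphism of `S₁` extends to `S`
  have hlift1 : ∀ a, Iso F a S₁ S₁ → ∃ g, Iso F g S S ∧ (∀ x ∈ S₁, g x = a x) ∧ ∀ x ∈ S₂, g x ∈ S₂ := by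
    intro a ha
    obtain ⟨g, hg, eg, mg⟩ := hext S₁ a le_rfl ha.mor
    rw [hsup] at hg
    exact ⟨g, hg.iso_of_card (fun x hx => hg.map_mem hx) le_rfl, eg, mg⟩
  have hsubR' : R'.IsSubsystemOf F := fun P φ hφ => by
    have hP := (R'.le_of_mem hφ).1
    rw [hR' P hP] at hφ
    exact hφ.1
  have hsubR : R.IsSubsystemOf F := fun P φ hφ => hR P (R.le_of_mem hφ).1 ▸ hφ
  -- invariance and the Frattini condition for `R'`
  have hinv : ∀ (P : Subgroup Ω) (hPT : P ≤ S₁) (φ : P →* Ω), φ ∈ R'.Hom P → ∀ α ∈ F.autGroup S₁,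
      ∃ χ ∈ R'.Hom ((P.subgroupOf S₁).map (S₁.subtype.comp α.toMonoidHom)),
        ∀ (x : P) (hφx : φ x ∈ S₁)
          (hαx : ((α ⟨x, hPT x.2⟩ : S₁) : Ω) ∈ (P.subgroupOf S₁).map (S₁.subtype.comp α.toMonoidHom)),
          χ ⟨(α ⟨x, hPT x.2⟩ : S₁), hαx⟩ = ((α ⟨φ x, hφx⟩ : S₁) : Ω) := by
    intro P hPT φ hφ α hα
    obtain ⟨a, ha, ea⟩ := (mem_autGroup_iff hS1).mp hα
    obtain ⟨d, hd, ed, md⟩ := hlift1 a ha
    obtain ⟨-, g, hg, eg, mg⟩ := (mor_fix_iff hR' hS1C h₁).mp (mor_of_mem hφ)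
    obtain ⟨d', hd', hdd, -⟩ := hd.exists_symm
    set P' := (P.subgroupOf S₁).map (S₁.subtype.comp α.toMonoidHom) with hP'
    have hP'1 : P' ≤ S₁ := by rintro _ ⟨x, -, rfl⟩; exact (α x).2
    have hmem : ∀ y ∈ P', ∃ x ∈ P, d x = y := by
      rintro _ ⟨x, hx, rfl⟩
      exact ⟨x, hx, (ed x x.2).trans (ea x)⟩
    have hsub : ∀ y ∈ P' ⊔ S₂, d' y ∈ P ⊔ S₂ := by
      refine Mor.map_sup (hd'.mor.restrict (sup_le (hP'1.trans hS1) hS2)) (fun y hy => ?_) fun y hy => ?_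
      · obtain ⟨x, hx, rfl⟩ := hmem y hy
        rw [hdd x (hS1 (hPT hx))]
        exact Subgroup.mem_sup_left hx
      · exact Subgroup.mem_sup_right (stronglyClosed_mem h₂ hd'.mor (hS2 hy) hy)
    have hm := ((hd'.mor.restrict (sup_le (hP'1.trans hS1) hS2)).comp hg hsub).comp hd.mor
      fun y hy => hg.map_mem (hsub y hy)
    have hfix : Mor R' P' (d ∘ g ∘ d') := by
      refine (mor_fix_iff hR' hS1C h₁).mpr ⟨hP'1, _, hm, fun _ _ => rfl, fun y hy => ?_⟩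
      have hy' := stronglyClosed_mem h₂ hd'.mor (hS2 hy) hy
      show d (g (d' y)) = y
      rw [mg _ hy']
      obtain ⟨d'', -, -, hdd'⟩ := hd'.exists_symm
      obtain ⟨z, hz, rfl⟩ := hd.surj (hS2 hy)
      rw [hdd z hz]
    refine ⟨hfix.hom, hfix.hom_mem, fun x hφx hαx => ?_⟩
    show d (g (d' ((α ⟨x, hPT x.2⟩ : S₁) : Ω))) = _
    rw [← ea ⟨x, hPT x.2⟩, ← ed x (hPT x.2), hdd _ (hS1 (hPT x.2)), eg x x.2, extFun_coe, ed _ hφx]
    exact ea ⟨φ x, hφx⟩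
  have hfrat : ∀ (P : Subgroup Ω), P ≤ S₁ → ∀ (φ : P →* Ω), φ ∈ F.Hom P →
      ∃ α ∈ F.autGroup S₁, ∃ φ₀ ∈ R'.Hom P, ∀ (x : P) (hx : φ₀ x ∈ S₁), φ x = ((α ⟨φ₀ x, hx⟩ : S₁) : Ω) := by
    intro P hP φ hφ
    obtain ⟨g, hg, eg, mg⟩ := hext P _ hP (mor_of_mem hφ)
    have hgi : Iso F g S₂ S₂ := (hg.restrict le_sup_right).iso_of_card mg le_rfl
    obtain ⟨d, hd, ed⟩ := hlift g hgi
    obtain ⟨d', hd', hdd, hdd'⟩ := hd.exists_symm
    have hm := hg.comp hd'.mor fun y hy => hg.map_mem hy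
    have hfix : Mor R' P (d' ∘ g) := (mor_fix_iff hR' hS1C h₁).mpr ⟨hP, _, hm, fun _ _ => rfl, fun y hy => by
      show d' (g y) = y
      rw [← ed y hy, hdd y (hS2 hy)]⟩
    have hd1 : Iso F d S₁ S₁ := (hd.mor.restrict hS1).iso_of_card
      (fun x hx => stronglyClosed_mem h₁ hd.mor (hS1 hx) hx) le_rfl
    refine ⟨_, hd1.equiv_mem_autGroup, hfix.hom, hfix.hom_mem, fun x hx => ?_⟩
    show φ x = d (d' (g x))
    rw [hdd' _ (hg.map_mem (Subgroup.mem_sup_left x.2)), eg x x.2, extFun_coe]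
  have hinvF : R'.IsInvariantIn F := ⟨hsubR', h₁, hinv, hfrat⟩
  have hAutR : R.autGroup S₁ = F.autGroup S₁ := by
    ext α
    rw [autGroup_set_eq le_rfl, autGroup_set_eq hS1, hR S₁ le_rfl]
  refine ⟨hRsat, hR'sat, ⟨⟨hR'sat, hF, hinvF⟩, fun α hα => ?_⟩, ⟨⟨hR'sat, hRsat, ?_⟩, fun α hα => ?_⟩,
    hRsat, hF, hsubR, h₁, fun P hPT φ hφ α hα => ?_, fun P hP φ hφ => ?_⟩
  · -- extension in `F`
    obtain ⟨a, ha, ea⟩ := (mem_autGroup_iff le_rfl).mp hα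
    obtain ⟨-, g, hg, eg, mg⟩ := (mor_fix_iff hR' hS1C h₁).mp ha.mor
    rw [hsup] at hg
    have hgi : Iso F g S S := hg.iso_of_card (fun x hx => hg.map_mem hx) le_rfl
    have hsupS : S₁ ⊔ centralizerIn S S₁ = S := le_antisymm (sup_le hS1 centralizerIn_le)
      (hsup.ge.trans (sup_le_sup_left (fun c hc => (⟨hS2 hc, fun x hx => hcomm x hx c hc⟩ : c ∈ centralizerIn S S₁)) S₁))
    haveI := finite_of_le (sup_le hS1 (centralizerIn_le : centralizerIn S S₁ ≤ S))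
    have hgW : Iso F g (S₁ ⊔ centralizerIn S S₁) (S₁ ⊔ centralizerIn S S₁) := by rw [hsupS]; exact hgi
    refine ⟨_, hgW.equiv_mem_autGroup, fun x => (eg x x.2).trans (ea x), fun c hc => ?_⟩
    obtain ⟨t, ht, s, hs, e⟩ := hdec c hc.1
    have htc : ∀ x ∈ S₁, x * t = t * x := fun x hx => by
      have h1 : x * (c : Ω) = (c : Ω) * x := hc.2 x hx
      rw [e, ← mul_assoc, mul_assoc t s x, ← hcomm x hx s hs, ← mul_assoc] at h1
      exact mul_right_cancel h1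
    show (c : Ω)⁻¹ * g c ∈ S₁ ⊓ Subgroup.centralizer (S₁ : Set Ω)
    rw [e, hg.map_mul (hS1 ht) (hS2 hs), mg s hs, eg t ht]
    have hat : a t ∈ S₁ := ha.mapsTo ht
    have e2 : (t * s)⁻¹ * (a t * s) = t⁻¹ * a t := by
      rw [hcomm (a t) hat s hs, mul_inv_rev, mul_assoc, ← mul_assoc t⁻¹, hcomm t⁻¹ (S₁.inv_mem ht) s hs,
        mul_assoc s t⁻¹, ← mul_assoc s⁻¹, inv_mul_cancel, one_mul]
    rw [e2]
    refine ⟨S₁.mul_mem (S₁.inv_mem ht) hat, fun x hx => ?_⟩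
    obtain ⟨y, hy, rfl⟩ := ha.surj hx
    have h3 : a y * a t = a t * a y := by
      rw [← ha.mor.map_mul hy ht, ← ha.mor.map_mul ht hy, htc y hy]
    have h4 : Commute (a y) t := htc _ hx
    exact (h4.inv_right.mul_right h3).eq
  · -- `R'` invariant in `R`
    refine ⟨fun P φ hφ => ?_, ⟨le_rfl, fun Q _ φ hφ x => (R.le_of_mem hφ).2 x⟩,
      fun P hPT φ hφ α hα => hinv P hPT φ hφ α (hAutR ▸ hα), fun P hP φ hφ => ?_⟩
    · rw [hR P (R'.le_of_mem hφ).1]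
      exact hsubR' P hφ
    · obtain ⟨β, hβ, rest⟩ := hfrat P hP φ (hR P hP ▸ hφ)
      exact ⟨β, hAutR ▸ hβ, rest⟩
  · -- extension in `R`
    have hsup1 : S₁ ⊔ centralizerIn S₁ S₁ = S₁ := sup_eq_left.mpr centralizerIn_le
    obtain ⟨a, ha, ea⟩ := (mem_autGroup_iff le_rfl).mp hα
    have haR : Iso R a (S₁ ⊔ centralizerIn S₁ S₁) (S₁ ⊔ centralizerIn S₁ S₁) := by
      rw [hsup1]
      exact ⟨(mor_sub_iff hR).mpr ⟨le_rfl, ((mor_of_mem (hsubR' _ ha.mor.hom_mem)).congr fun x hx => by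
        rw [extFun_apply _ hx]; rfl)⟩, ha.bij⟩
    refine ⟨_, haR.equiv_mem_autGroup, fun x => ea x, fun c hc => ⟨?_, fun x hx => ?_⟩⟩
    · exact S₁.mul_mem (S₁.inv_mem hc.1) (ha.mapsTo hc.1)
    · obtain ⟨y, hy, rfl⟩ := ha.surj hx
      have h4 : Commute (a y) (c : Ω) := hc.2 _ hx
      have h3 : Commute (a y) (a (c : Ω)) := by
        show a y * a c = a c * a y
        rw [← ha.mor.map_mul hy hc.1, ← ha.mor.map_mul hc.1 hy, hc.2 y hy]
      exact (h4.inv_right.mul_right h3).eq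
  · -- invariance of `R`
    obtain ⟨a, ha, ea⟩ := (mem_autGroup_iff hS1).mp hα
    obtain ⟨a', ha', haa, -⟩ := ha.exists_symm
    have hf : Mor F P (extFun φ) := mor_of_mem (hsubR P hφ)
    set P' := (P.subgroupOf S₁).map (S₁.subtype.comp α.toMonoidHom) with hP'
    have hP'1 : P' ≤ S₁ := by rintro _ ⟨x, -, rfl⟩; exact (α x).2
    have hsub : ∀ y ∈ P', a' y ∈ P := by
      rintro _ ⟨x, hx, rfl⟩
      show a' (α x : Ω) ∈ P
      rw [← ea x, haa x x.2]; exact hx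
    have hm : Mor F P' (a ∘ extFun φ ∘ a') := ((ha'.mor.restrict hP'1).comp hf hsub).comp ha.mor
      fun y hy => stronglyClosed_mem h₁ hf (hsub y hy) (hPT (hsub y hy))
    have hmR : Mor R P' (a ∘ extFun φ ∘ a') := (mor_sub_iff hR).mpr ⟨hP'1, hm⟩
    refine ⟨hmR.hom, hmR.hom_mem, fun x hφx hαx => ?_⟩
    show a (extFun φ (a' ((α ⟨x, hPT x.2⟩ : S₁) : Ω))) = _
    rw [← ea ⟨x, hPT x.2⟩, haa x (hPT x.2), extFun_coe]
    exact ea ⟨φ x, hφx⟩
  · exact ⟨1, one_mem _, φ, hR P hP ▸ hφ, fun x _ => rfl⟩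

end Cfsg.Agent.Fusion.DirectClosed
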