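/-
The special unitary group of the anti-diagonal form, its unipotent group and the three kinds of root elements.
-/
import Cfsg.Agent.KnownA.Pronormal.UnitaryCharTwo
set_option autoImplicit false
set_option linter.unusedSectionVars false

namespace Cfsg.Agent.Fusion.PSU

open Matrix Cfsg Cfsg.Agent.Linear.Unipotent Cfsg.Agent.KnownA.PronormalCharTwo Cfsg.Agent.KnownA.PronormalUnitary

variable {F : Type*} [Field F] {n : ℕ} (C : Conj F)

local notation "G" => GL (Fin n) F
local notation "M" => Matrix (Fin n) (Fin n) F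

/-- The special unitary group of the anti-diagonal form. -/
def gu (C : Conj F) (n : ℕ) : Subgroup (GL (Fin n) F) := fixed C ⊓ (Matrix.GeneralLinearGroup.det).ker

/-- Its unipotent subgroup. -/
def uniU (C : Conj F) (n : ℕ) : Subgroup (gu C n) := (unip F n).subgroupOf (gu C n)

theorem mem_gu {g : G} : g ∈ gu C n ↔ g ∈ fixed C ∧ g.1.det = 1 := by
  rw [gu, Subgroup.mem_inf, MonoidHom.mem_ker, Units.ext_iff]; rfl

/-- The long root element. -/
def lg (a : Fin n) (h : a ≠ a.rev) (s : F) : G := el a a.rev h s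

/-- The short root element. -/
def pr (a b : Fin n) (h : a ≠ b) (x : F) : G := el a b h x * el b.rev a.rev (fun e => h (Fin.rev_inj.mp e).symm) (-C.c x)

/-- The middle root element. -/
def md (a o : Fin n) (h : a ≠ o) (h' : a ≠ a.rev) (ho : o.rev = o) (c s : F) : G :=
  el a o h c * el o a.rev (fun e => h (Fin.rev_inj.mp (ho.trans e)).symm) (-C.c c) * el a a.rev h' (s + c * C.c c)

theorem lg_val (a : Fin n) (h : a ≠ a.rev) (s : F) :
    (lg a h s : G).1 = 1 + Matrix.single a a.rev s := rfl

theorem pr_val (a b : Fin n) (h : a ≠ b) (hb : b ≠ b.rev) (x : F) :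
    (pr C a b h x).1 = 1 + Matrix.single a b x + Matrix.single b.rev a.rev (-C.c x) := by
  rw [pr, Units.val_mul, el_val, el_val]
  simp only [transvection, Matrix.add_mul, Matrix.mul_add, Matrix.mul_one, Matrix.one_mul,
    Matrix.single_mul_single_of_ne _ _ _ _ hb, add_zero]

theorem md_val (a o : Fin n) (h : a ≠ o) (h' : a ≠ a.rev) (ho : o.rev = o) (c s : F) :
    (md C a o h h' ho c s).1 =
      1 + Matrix.single a o c + Matrix.single o a.rev (-C.c c) + Matrix.single a a.rev s := by
  have h1 : o ≠ a := h.symm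
  rw [md, Units.val_mul, Units.val_mul, el_val, el_val, el_val]
  simp only [transvection, Matrix.add_mul, Matrix.mul_add, Matrix.mul_one, Matrix.one_mul,
    Matrix.single_mul_single_same, Matrix.single_mul_single_of_ne _ _ _ _ h1,
    Matrix.single_mul_single_of_ne _ _ _ _ h'.symm, Matrix.single_mul_single_of_ne _ _ _ _
      (fun e : o = a => h1 e), add_zero, zero_mul, mul_zero]
  ext i j
  simp only [Matrix.add_apply, Matrix.single_apply]
  split_ifs <;> ring

theorem det_el (a b : Fin n) (h : a ≠ b) (x : F) : (el a b h x : G).1.det = 1 := det_transvection_of_ne a b h x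

theorem adj_single (a b : Fin n) (x : F) : adj C (Matrix.single a b x) = Matrix.single b.rev a.rev (C.c x) := by
  ext i j
  simp only [adj_apply, Matrix.single_apply, apply_ite C.c, map_zero]
  exact if_congr (by rw [Fin.rev_eq_iff, Fin.rev_eq_iff (i := a)]; exact ⟨fun h => ⟨h.2, h.1⟩, fun h => ⟨h.2, h.1⟩⟩) rfl rfl

theorem lg_mem (a : Fin n) (h : a ≠ a.rev) {s : F} (hs : s + C.c s = 0) : (lg a h s : G) ∈ gu C n := by
  refine (mem_gu C).2 ⟨(mem_fixed_iff C).2 ?_, det_el _ _ _ _⟩
  rw [lg_val, adj_add, adj_one, adj_single, Fin.rev_rev]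
  simp only [Matrix.add_mul, Matrix.mul_add, Matrix.mul_one, Matrix.one_mul,
    Matrix.single_mul_single_of_ne _ _ _ _ h.symm, add_zero]
  rw [add_assoc, ← Matrix.single_add, add_comm (C.c s), hs, Matrix.single_zero, add_zero]

theorem pr_mem {a b : Fin n} (h : a ≠ b) (hab : b ≠ a.rev) (ha : a ≠ a.rev) (hb : b ≠ b.rev) (x : F) :
    pr C a b h x ∈ gu C n := by
  refine (mem_gu C).2 ⟨(mem_fixed_iff C).2 ?_, by rw [pr, Units.val_mul, Matrix.det_mul, det_el, det_el, mul_one]⟩
  have h2 : a.rev ≠ b.rev := fun e => h (Fin.rev_inj.mp e)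
  have h3 : a ≠ b.rev := fun e => hab (by rw [e, Fin.rev_rev])
  rw [pr_val C a b h hb, adj_add, adj_add, adj_one, adj_single, adj_single]
  simp only [Fin.rev_rev, map_neg, C.invol, Matrix.add_mul, Matrix.mul_add, Matrix.mul_one, Matrix.one_mul,
    Matrix.single_mul_single_of_ne _ _ _ _ ha.symm, Matrix.single_mul_single_of_ne _ _ _ _ h2,
    Matrix.single_mul_single_of_ne _ _ _ _ hb, Matrix.single_mul_single_of_ne _ _ _ _ h.symm, add_zero]
  ext i j
  simp only [Matrix.add_apply, Matrix.single_apply]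
  split_ifs <;> ring

theorem md_mem {a o : Fin n} (h : a ≠ o) (h' : a ≠ a.rev) (ho : o.rev = o) {c s : F}
    (hs : s + C.c s + c * C.c c = 0) : md C a o h h' ho c s ∈ gu C n := by
  refine (mem_gu C).2 ⟨(mem_fixed_iff C).2 ?_,
    by rw [md, Units.val_mul, Units.val_mul, Matrix.det_mul, Matrix.det_mul, det_el, det_el, det_el, mul_one, mul_one]⟩
  have h1 : a.rev ≠ o := fun e => h (Fin.rev_inj.mp (e.trans ho.symm))
  rw [md_val C, adj_add, adj_add, adj_add, adj_one, adj_single, adj_single, adj_single]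
  simp only [Fin.rev_rev, ho, map_neg, C.invol, Matrix.add_mul, Matrix.mul_add, Matrix.mul_one, Matrix.one_mul,
    Matrix.single_mul_single_same, Matrix.single_mul_single_of_ne _ _ _ _ h1,
    Matrix.single_mul_single_of_ne _ _ _ _ h'.symm, Matrix.single_mul_single_of_ne _ _ _ _ h.symm, add_zero]
  ext i j
  simp only [Matrix.add_apply, Matrix.single_apply]
  split_ifs <;> first | ring1 | linear_combination hs

theorem lt_rev_lt {a b : Fin n} (h : a < b) : b.rev < a.rev := Fin.rev_lt_rev.mpr h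

theorem lg_uni {a : Fin n} (h : a < a.rev) (s : F) : (lg a h.ne s : G) ∈ unip F n := el_mem_unip h s

theorem pr_uni {a b : Fin n} (h : a < b) (x : F) : pr C a b h.ne x ∈ unip F n :=
  mul_mem (el_mem_unip h x) (el_mem_unip (lt_rev_lt h) _)

theorem md_uni {a o : Fin n} (h : a < o) (h' : a ≠ a.rev) (ho : o.rev = o) (c s : F) :
    md C a o h.ne h' ho c s ∈ unip F n := by
  have h1 : o < a.rev := by have := lt_rev_lt h; rwa [ho] at this
  exact mul_mem (mul_mem (el_mem_unip h c) (el_mem_unip h1 _)) (el_mem_unip (h.trans h1) _)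

/-- A nonzero skew element. -/
theorem exists_skew (hc : ∃ x, C.c x ≠ x) : ∃ s : F, s ≠ 0 ∧ s + C.c s = 0 := by
  obtain ⟨x, hx⟩ := hc
  exact ⟨C.c x - x, sub_ne_zero.mpr hx, by rw [map_sub, C.invol]; ring⟩

/-- A middle parameter over any `c`. -/
theorem exists_md_param (c : F) : ∃ s : F, s + C.c s + c * C.c c = 0 := by
  refine ⟨-(C.s * (c * C.c c)), ?_⟩
  rw [map_neg, map_mul, map_mul, C.invol]
  linear_combination -(c * C.c c) * C.trace_s

/-- An element of the unipotent group with prescribed first entry in a row. -/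
theorem exists_row (hc : ∃ x, C.c x ≠ x) {i r : Fin n} (hir : i < r) :
    ∃ u ∈ unip F n, u ∈ gu C n ∧ u.1 i r ≠ 0 ∧ ∀ k, k < r → k ≠ i → u.1 i k = 0 := by
  by_cases h1 : r = i.rev
  · subst h1
    obtain ⟨s, hs0, hs⟩ := exists_skew C hc
    refine ⟨lg i hir.ne s, lg_uni hir s, lg_mem C i hir.ne hs, ?_, fun k hk hki => ?_⟩
    · simp [lg_val, hir.ne, hs0]
    · simp [lg_val, Matrix.one_apply, hki.symm, Matrix.single_apply, hk.ne']
  by_cases hi : i = i.rev
  · obtain ⟨s, hs⟩ := exists_md_param C 1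
    have hlt : r.rev < i := by have := lt_rev_lt hir; rwa [← hi] at this
    have hr : r.rev ≠ r.rev.rev := by rw [Fin.rev_rev]; exact (hlt.trans hir).ne
    refine ⟨md C r.rev i hlt.ne hr hi.symm 1 s, md_uni C hlt hr hi.symm 1 s,
      md_mem C hlt.ne hr hi.symm hs, ?_, fun k hk hki => ?_⟩
    · simp [md_val, Fin.rev_rev, hir.ne, hlt.ne, hlt.ne']
    · simp [md_val, Fin.rev_rev, Matrix.one_apply, hki.symm, Matrix.single_apply, hk.ne', hlt.ne]
  by_cases hr : r = r.rev
  · obtain ⟨s, hs⟩ := exists_md_param C 1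
    refine ⟨md C i r hir.ne hi hr.symm 1 s, md_uni C hir hi hr.symm 1 s, md_mem C hir.ne hi hr.symm hs, ?_,
      fun k hk hki => ?_⟩
    · simp [md_val, hir.ne, hir.ne', h1, Ne.symm h1]
    · have hlt : r < i.rev := by have := lt_rev_lt hir; rwa [← hr] at this
      simp [md_val, Matrix.one_apply, hki.symm, Matrix.single_apply, hk.ne', hir.ne', (hk.trans hlt).ne']
  refine ⟨pr C i r hir.ne 1, pr_uni C hir 1, pr_mem C hir.ne h1 hi hr 1, ?_, fun k hk hki => ?_⟩
  · have h2 : r.rev ≠ i := fun e => h1 (by rw [← e, Fin.rev_rev])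
    simp [pr_val C i r hir.ne hr, hir.ne, h2]
  · have h2 : r.rev ≠ i := fun e => h1 (by rw [← e, Fin.rev_rev])
    simp [pr_val C i r hir.ne hr, Matrix.one_apply, hki.symm, Matrix.single_apply, hk.ne', h2]

/-- An element normalising the unipotent group is upper triangular. -/
theorem upper_of_normalizes (hc : ∃ x, C.c x ≠ x) {g : G} (hg : g ∈ gu C n)
    (h : ∀ u ∈ unip F n, u ∈ gu C n → g⁻¹ * u * g ∈ unip F n) : g ∈ upperTriangularGL n F := by
  suffices key : ∀ j i : Fin n, j < i → g.1 i j = 0 from fun i j hij => key j i hij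
  intro j
  induction hn : (j : ℕ) using Nat.strong_induction_on generalizing j with
  | _ N IH => ?_
  have ih : ∀ c, c < j → ∀ i, c < i → g.1 i c = 0 := fun c hc => IH c (hn ▸ hc) c rfl
  have hrow : ∀ u ∈ unip F n, u ∈ gu C n → ∀ i, j ≤ i → (u.1 * g.1) i j = g.1 i j := by
    intro u hu hu' i hi
    have e : u.1 * g.1 = g.1 * (g⁻¹ * u * g).1 := by
      rw [← Units.val_mul, ← Units.val_mul, ← mul_assoc, mul_inv_cancel_left]
    obtain ⟨hb, hd⟩ := h u hu hu'
    rw [e, Matrix.mul_apply, Finset.sum_eq_single j _ (by simp), hd, mul_one]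
    intro k _ hk
    rcases lt_or_gt_of_ne hk with hlt | hgt
    · rw [ih k hlt i (hlt.trans_le hi), zero_mul]
    · rw [hb (show id j < id k from hgt), mul_zero]
  suffices hdown : ∀ (k : ℕ) (r : Fin n), n - (r : ℕ) = k → j < r → g.1 r j = 0 from fun r hr => hdown _ r rfl hr
  intro k
  induction k using Nat.strong_induction_on with
  | _ k ihk => ?_
  intro r hk hjr
  have hr0 : 0 < (r : ℕ) := lt_of_le_of_lt (Nat.zero_le _) hjr
  set i : Fin n := ⟨(r : ℕ) - 1, by omega⟩ with hi
  have hir : i < r := by simp [Fin.lt_def, hi]; omega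
  obtain ⟨u, hu, hu', hur, hrest⟩ := exists_row C hc hir
  have h1 := hrow u hu hu' i (by simp [Fin.le_def, hi]; omega)
  rw [Matrix.mul_apply, ← Finset.add_sum_erase _ _ (Finset.mem_univ i), hu.2, one_mul, add_eq_left,
    Finset.sum_eq_single r] at h1
  · exact (mul_eq_zero.mp h1).resolve_left hur
  · intro l hl hlr
    rcases lt_or_gt_of_ne hlr with hlt | hgt
    · rw [hrest l hlt (Finset.ne_of_mem_erase hl), zero_mul]
    · rw [ihk (n - l) (by rw [← hk]; have : (r : ℕ) < l := hgt; omega) l rfl (hjr.trans hgt), mul_zero]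
  · simp [hir.ne']

/-- An upper triangular element commuting with the unipotent group has constant diagonal. -/
theorem diag_const (hc : ∃ x, C.c x ≠ x) {z : G} (hz : z ∈ upperTriangularGL n F)
    (h : ∀ u ∈ unip F n, u ∈ gu C n → z * u = u * z) : ∀ i j : Fin n, z.1 i i = z.1 j j := by
  have hzb : z.1.BlockTriangular id := hz
  have hstep : ∀ i r : Fin n, (r : ℕ) = i + 1 → z.1 i i = z.1 r r := by
    intro i r hr
    have hir : i < r := by rw [Fin.lt_def]; omega
    obtain ⟨u, hu, hu', hur, -⟩ := exists_row C hc hir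
    have e := Matrix.ext_iff.mpr (congrArg Units.val (h u hu hu')) i r
    rw [Units.val_mul, Units.val_mul, Matrix.mul_apply, Matrix.mul_apply,
      Finset.sum_eq_add_of_mem i r (Finset.mem_univ _) (Finset.mem_univ _) hir.ne,
      Finset.sum_eq_add_of_mem i r (Finset.mem_univ _) (Finset.mem_univ _) hir.ne, hu.2, hu.2, one_mul,
      mul_one] at e
    · refine mul_right_cancel₀ hur ?_
      linear_combination e
    all_goals
      intro l _ hl
      rcases lt_or_gt_of_ne hl.1 with h1 | h1
      · first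
          | rw [hzb (show id l < id i from h1), zero_mul]
          | rw [hu.1 (show id l < id i from h1), zero_mul]
      · have h2 : r < l := lt_of_le_of_ne (show r ≤ l by rw [Fin.le_def]; have : (i : ℕ) < l := h1; omega)
          hl.2.symm
        first
          | rw [hu.1 (show id r < id l from h2), mul_zero]
          | rw [hzb (show id r < id l from h2), mul_zero]
  have hall : ∀ (k : ℕ) (hk : k < n), z.1 ⟨k, hk⟩ ⟨k, hk⟩ = z.1 ⟨0, by omega⟩ ⟨0, by omega⟩ := by
    intro k
    induction k with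
    | zero => intro _; rfl
    | succ k ih => intro hk; rw [← hstep ⟨k, by omega⟩ ⟨k + 1, hk⟩ rfl]; exact ih _
  intro i j
  exact (hall i i.2).trans (hall j j.2).symm

/-- Vanishing in the upper left area below a gap gives vanishing below that gap. -/
theorem gap_zero {g : G} (hg : g ∈ unip F n) (hf : g ∈ fixed C) (N : ℕ)
    (h : ∀ a b : Fin n, a < b → (b : ℕ) - a < N → b ≤ a.rev → g.1 a b = 0) :
    ∀ a b : Fin n, a < b → (b : ℕ) - a < N → g.1 a b = 0 := by
  have hx : ∀ a b : Fin n, a < b → (b : ℕ) - a < N → g.1 a b ≠ 0 → a.rev < b :=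
    fun a b hab hN h0 => not_le.mp fun hle => h0 (h a b hab hN hle)
  have hadj : ∀ a b : Fin n, a < b → (b : ℕ) - a < N → adj C g.1 a b ≠ 0 → b < a.rev := by
    intro a b hab hN h0
    have h1 := hx b.rev a.rev (lt_rev_lt hab)
      (by have : (a : ℕ) < b := hab; have := b.2; simp only [Fin.val_rev]; omega)
      (fun e => h0 (by rw [adj_apply, e, map_zero]))
    rwa [Fin.rev_rev] at h1
  have hmul := (mem_fixed_iff C).1 hf
  suffices hk : ∀ k : ℕ, k < N → ∀ a b : Fin n, a < b → (b : ℕ) - a = k → g.1 a b = 0 ∧ adj C g.1 a b = 0 from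
    fun a b hab hN => (hk _ hN a b hab rfl).1
  intro k
  induction k using Nat.strong_induction_on with
  | _ k ih => ?_
  intro hkN
  intro a b hab hk
  have hab' := congrFun (congrFun hmul a) b
  rw [Matrix.mul_apply, Matrix.one_apply_ne hab.ne,
    Finset.sum_eq_add_of_mem a b (Finset.mem_univ _) (Finset.mem_univ _) hab.ne] at hab'
  · rw [adj_apply C g.1 a a, hg.2, map_one, one_mul, hg.2, mul_one] at hab'
    by_contra hne
    rw [not_and_or] at hne
    rcases hne with h1 | h1
    · have h2 : adj C g.1 a b ≠ 0 := fun e => h1 (by rw [e, add_zero] at hab'; exact hab')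
      exact lt_asymm (hx a b hab (hk ▸ hkN) h1) (hadj a b hab (hk ▸ hkN) h2)
    · have h2 : g.1 a b ≠ 0 := fun e => h1 (by rw [e, zero_add] at hab'; exact hab')
      exact lt_asymm (hx a b hab (hk ▸ hkN) h2) (hadj a b hab (hk ▸ hkN) h1)
  · intro l _ hl
    by_cases h1 : a < l ∧ l < b
    · have h3 : (a : ℕ) < l := h1.1
      have h4 : (l : ℕ) < b := h1.2
      rw [(ih ((l : ℕ) - a) (by omega) (by omega) a l h1.1 rfl).2, zero_mul]
    · rw [not_and_or, not_lt, not_lt] at h1
      rcases h1 with h1 | h1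
      · rw [adj_upper C hg.1 (show id l < id a from lt_of_le_of_ne h1 hl.1), zero_mul]
      · rw [hg.1 (show id b < id l from lt_of_le_of_ne h1 hl.2.symm), mul_zero]

/-- A unipotent element whose entries in the upper left area vanish is trivial. -/
theorem eq_one_of_area {g : G} (hg : g ∈ unip F n) (hf : g ∈ fixed C)
    (h : ∀ a b : Fin n, a < b → b ≤ a.rev → g.1 a b = 0) : g = 1 := by
  refine Units.ext (Matrix.ext fun a b => ?_)
  rw [Units.val_one]
  rcases lt_trichotomy a b with h1 | h1 | h1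
  · rw [gap_zero C hg hf n (fun a b h1 _ h2 => h a b h1 h2) a b h1 (by have := b.2; omega),
      Matrix.one_apply_ne h1.ne]
  · subst h1; rw [hg.2, Matrix.one_apply_eq]
  · rw [hg.1 (show id b < id a from h1), Matrix.one_apply_ne h1.ne']

end Cfsg.Agent.Fusion.PSU
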