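/-
A nontrivial subgroup of the unipotent group of `SU_n`, `n ≥ 4`, closed under conjugation into it is everything.
-/
import Cfsg.Agent.Fusion.SUUni
import Cfsg.Agent.OddLocal.NilBasics
import Cfsg.Agent.KnownB.AutPSL.Transv
set_option autoImplicit false
set_option linter.unusedSectionVars false

namespace Cfsg.Agent.Fusion.PSU

open Matrix Cfsg Cfsg.Agent.Linear.Unipotent Cfsg.Agent.KnownA.PronormalCharTwo Cfsg.Agent.KnownA.PronormalUnitary

variable {F : Type*} [Field F] {n : ℕ} (C : Conj F)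

local notation "G" => GL (Fin n) F
local notation "M" => Matrix (Fin n) (Fin n) F

/-- Matrix units. -/
def eU (i j : Fin n) : Matrix (Fin n) (Fin n) F := Matrix.single i j 1

theorem single_eq_smul (i j : Fin n) (x : F) : Matrix.single i j x = x • (eU i j : M) := by
  rw [eU, Matrix.smul_single, smul_eq_mul, mul_one]

theorem eU_mul_same (i j k : Fin n) : (eU i j * eU j k : M) = eU i k := by
  rw [eU, eU, Matrix.single_mul_single_same, one_mul]; rfl

theorem eU_mul_ne {i j k l : Fin n} (h : j ≠ k) : (eU i j * eU k l : M) = 0 :=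
  Matrix.single_mul_single_of_ne _ _ _ _ h _

theorem lg_add (a : Fin n) (h : a ≠ a.rev) (s t : F) : (lg a h s * lg a h t : G) = lg a h (s + t) :=
  Units.ext (by rw [Units.val_mul, lg, lg, lg, el_val, el_val, el_val, transvection_mul_transvection_same (h := h)])

theorem lg_zero (a : Fin n) (h : a ≠ a.rev) : (lg a h 0 : G) = 1 :=
  Units.ext (by rw [lg, el_val, transvection_zero]; rfl)

theorem lg_inv (a : Fin n) (h : a ≠ a.rev) (s : F) : (lg a h s : G)⁻¹ = lg a h (-s) :=
  inv_eq_of_mul_eq_one_right (by rw [lg_add, add_neg_cancel, lg_zero])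

theorem pr_add {a b : Fin n} (h : a ≠ b) (ha : a ≠ a.rev) (hb : b ≠ b.rev) (x y : F) :
    pr C a b h x * pr C a b h y = pr C a b h (x + y) := by
  refine Units.ext ?_
  rw [Units.val_mul, pr_val C a b h hb, pr_val C a b h hb, pr_val C a b h hb]
  have h2 : a.rev ≠ b.rev := fun e => h (Fin.rev_inj.mp e)
  simp only [single_eq_smul, Matrix.add_mul, Matrix.mul_add, Matrix.one_mul, Matrix.mul_one, smul_mul_assoc,
    mul_smul_comm, eU_mul_ne h.symm, eU_mul_ne hb, eU_mul_ne ha.symm, eU_mul_ne h2, smul_zero, add_zero, map_add]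
  module

theorem pr_zero {a b : Fin n} (h : a ≠ b) (hb : b ≠ b.rev) : pr C a b h 0 = 1 :=
  Units.ext (by simp [pr_val C a b h hb])

theorem pr_inv {a b : Fin n} (h : a ≠ b) (ha : a ≠ a.rev) (hb : b ≠ b.rev) (x : F) :
    (pr C a b h x)⁻¹ = pr C a b h (-x) :=
  inv_eq_of_mul_eq_one_right (by rw [pr_add C h ha hb, add_neg_cancel, pr_zero C h hb])

theorem md_lg {a o : Fin n} (h : a ≠ o) (h' : a ≠ a.rev) (ho : o.rev = o) (c s t : F) :
    md C a o h h' ho c s * lg a h' t = md C a o h h' ho c (s + t) := by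
  refine Units.ext ?_
  rw [Units.val_mul, md_val, md_val, lg_val]
  simp only [single_eq_smul, Matrix.add_mul, Matrix.mul_add, Matrix.one_mul, Matrix.mul_one, smul_mul_assoc,
    mul_smul_comm, eU_mul_ne h.symm, eU_mul_ne h'.symm, smul_zero, add_zero]
  module

theorem half_ne {a b : Fin n} (ha : a < a.rev) (hb : b < b.rev) : a ≠ b.rev := by
  intro e
  subst e
  rw [Fin.rev_rev] at ha
  exact lt_asymm ha hb

/-- A long element conjugated by a short one. -/
theorem conj_lg {a b : Fin n} (hab : a ≠ b) (ha : a < a.rev) (hb : b < b.rev) {s : F} (hs : s + C.c s = 0)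
    (x : F) :
    pr C a b hab x * lg b hb.ne s * (pr C a b hab x)⁻¹ =
      lg b hb.ne s * pr C a b.rev (half_ne ha hb) (x * s) * lg a ha.ne (x * C.c x * s) := by
  have h1 : b.rev ≠ b.rev.rev := by rw [Fin.rev_rev]; exact hb.ne'
  have h2 := half_ne hb ha
  have h3 := half_ne ha hb
  have h4 : a.rev ≠ b.rev := fun e => hab (Fin.rev_inj.mp e)
  rw [pr_inv C hab ha.ne hb.ne]
  refine Units.ext ?_
  rw [Units.val_mul, Units.val_mul, Units.val_mul, Units.val_mul, pr_val C a b hab hb.ne, pr_val C a b hab hb.ne,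
    pr_val C a b.rev h3 h1, lg_val, lg_val]
  simp only [single_eq_smul, Fin.rev_rev, Matrix.add_mul, Matrix.mul_add, Matrix.one_mul, Matrix.mul_one,
    smul_mul_assoc, mul_smul_comm, eU_mul_same, eU_mul_ne hab, eU_mul_ne hab.symm, eU_mul_ne hb.ne, eU_mul_ne hb.ne',
    eU_mul_ne ha.ne, eU_mul_ne ha.ne', eU_mul_ne h2, eU_mul_ne h2.symm, eU_mul_ne h3, eU_mul_ne h3.symm,
    eU_mul_ne h4, eU_mul_ne h4.symm, smul_zero, add_zero, zero_add, map_neg, map_mul,
    show C.c s = -s from eq_neg_of_add_eq_zero_right hs]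
  module

/-- A short element conjugated by a lower long one. -/
theorem conj_lower {a b : Fin n} (hab : a ≠ b) (ha : a < a.rev) (hb : b < b.rev) {t : F} (ht : t + C.c t = 0)
    (y : F) (h1 : b.rev ≠ b.rev.rev) :
    lg b.rev h1 t * pr C a b.rev (half_ne ha hb) y * (lg b.rev h1 t)⁻¹ =
      pr C a b hab (-(y * t)) * pr C a b.rev (half_ne ha hb) y * lg a ha.ne (-(y * C.c y * t)) := by
  have h2 := half_ne hb ha
  have h3 := half_ne ha hb
  have h4 : a.rev ≠ b.rev := fun e => hab (Fin.rev_inj.mp e)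
  rw [lg_inv]
  refine Units.ext ?_
  rw [Units.val_mul, Units.val_mul, Units.val_mul, Units.val_mul, pr_val C a b hab hb.ne,
    pr_val C a b.rev h3 h1, lg_val, lg_val, lg_val]
  simp only [single_eq_smul, Fin.rev_rev, Matrix.add_mul, Matrix.mul_add, Matrix.one_mul, Matrix.mul_one,
    smul_mul_assoc, mul_smul_comm, eU_mul_same, eU_mul_ne hab, eU_mul_ne hab.symm, eU_mul_ne hb.ne, eU_mul_ne hb.ne',
    eU_mul_ne ha.ne, eU_mul_ne ha.ne', eU_mul_ne h2, eU_mul_ne h2.symm, eU_mul_ne h3, eU_mul_ne h3.symm,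
    eU_mul_ne h4, eU_mul_ne h4.symm, smul_zero, add_zero, zero_add, map_neg, map_mul,
    show C.c t = -t from eq_neg_of_add_eq_zero_right ht]
  module

/-- A middle element conjugated by a short one. -/
theorem conj_md {a b o : Fin n} (hab : a ≠ b) (ha : a < a.rev) (hb : b < b.rev) (hao : a ≠ o) (hbo : b ≠ o)
    (ho : o.rev = o) {c s : F} (hs : s + C.c s + c * C.c c = 0) (x : F) :
    pr C a b hab x * md C b o hbo hb.ne ho c s * (pr C a b hab x)⁻¹ =
      md C a o hao ha.ne ho (x * c) (x * C.c x * s) * pr C a b.rev (half_ne ha hb) (-(x * C.c s)) *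
        md C b o hbo hb.ne ho c s := by
  have h1 : b.rev ≠ b.rev.rev := by rw [Fin.rev_rev]; exact hb.ne'
  have h2 := half_ne hb ha
  have h3 := half_ne ha hb
  have h4 : a.rev ≠ b.rev := fun e => hab (Fin.rev_inj.mp e)
  have h5 : a.rev ≠ o := fun e => hao (Fin.rev_inj.mp (e.trans ho.symm))
  have h6 : b.rev ≠ o := fun e => hbo (Fin.rev_inj.mp (e.trans ho.symm))
  rw [pr_inv C hab ha.ne hb.ne]
  refine Units.ext ?_
  rw [Units.val_mul, Units.val_mul, Units.val_mul, Units.val_mul, pr_val C a b hab hb.ne, pr_val C a b hab hb.ne,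
    pr_val C a b.rev h3 h1, md_val, md_val]
  simp only [single_eq_smul, Fin.rev_rev, Matrix.add_mul, Matrix.mul_add, Matrix.one_mul, Matrix.mul_one,
    smul_mul_assoc, mul_smul_comm, eU_mul_same, eU_mul_ne hab, eU_mul_ne hab.symm, eU_mul_ne hb.ne, eU_mul_ne hb.ne',
    eU_mul_ne ha.ne, eU_mul_ne ha.ne', eU_mul_ne h2, eU_mul_ne h2.symm, eU_mul_ne h3, eU_mul_ne h3.symm,
    eU_mul_ne h4, eU_mul_ne h4.symm, eU_mul_ne h5, eU_mul_ne h5.symm, eU_mul_ne h6, eU_mul_ne h6.symm,
    eU_mul_ne hao, eU_mul_ne hao.symm, eU_mul_ne hbo, eU_mul_ne hbo.symm,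
    smul_zero, add_zero, zero_add, map_neg, map_mul, map_sub, C.invol,
    show C.c s = -s - c * C.c c by linear_combination hs]
  module

/-- The unipotent group inside the linear group. -/
def uu (C : Conj F) (n : ℕ) : Subgroup (GL (Fin n) F) := unip F n ⊓ gu C n

theorem uu_isPGroup [Fintype F] (p : ℕ) [Fact p.Prime] [CharP F p] : IsPGroup p (uu C n) := by
  rintro ⟨g, hg, hg'⟩
  let s : Matrix.SpecialLinearGroup (Fin n) F := ⟨g.1, (mem_gu C).1 hg' |>.2⟩
  have hs : s ∈ Cfsg.Agent.KnownB.AutPSL.upperUni n F := by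
    intro i j hji
    rcases hji.lt_or_eq with h | h
    · rw [if_neg h.ne']; exact hg.1 h
    · subst h; rw [if_pos rfl]; exact hg.2 j
  obtain ⟨k, hk⟩ := Cfsg.Agent.KnownB.AutPSL.isPGroup_upperUni p ⟨s, hs⟩
  refine ⟨k, Subtype.ext ?_⟩
  show g ^ p ^ k = 1
  rw [show g = Matrix.SpecialLinearGroup.toGL s from Units.ext rfl, ← map_pow,
    show s ^ p ^ k = 1 from congrArg Subtype.val hk, map_one]

/-- A central element of the unipotent group is a long root element. -/
theorem center_lg (hn : 4 ≤ n) (hc : ∃ x, C.c x ≠ x) {z : G} (hz : z ∈ uu C n)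
    (hcent : ∀ u ∈ uu C n, u * z = z * u) (h0 : (⟨0, by omega⟩ : Fin n) ≠ (⟨0, by omega⟩ : Fin n).rev) :
    ∃ s : F, s + C.c s = 0 ∧ z = lg ⟨0, by omega⟩ h0 s := by
  set a0 : Fin n := ⟨0, by omega⟩ with ha0
  have ha0lt : a0 < a0.rev := by rw [Fin.lt_def, Fin.val_rev]; simp [a0]; omega
  obtain ⟨w, hw⟩ := hc
  have entry : ∀ u ∈ uu C n, ∀ i j, (u.1 * z.1) i j = (z.1 * u.1) i j := fun u hu i j => by
    rw [← Units.val_mul, ← Units.val_mul, hcent u hu]
  have harea : ∀ a b : Fin n, a < b → b ≤ a.rev → ¬ (a = a0 ∧ b = a0.rev) → z.1 a b = 0 := by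
    intro a b hab hb hne
    have haa : a < a.rev := hab.trans_le hb
    by_cases hbb : b < b.rev
    · obtain ⟨s, hs0, hs⟩ := exists_skew C ⟨w, hw⟩
      have e := entry _ ⟨lg_uni hbb s, lg_mem C b hbb.ne hs⟩ a b.rev
      rw [lg_val, Matrix.add_mul, Matrix.mul_add, Matrix.one_mul, Matrix.mul_one, Matrix.add_apply,
        Matrix.add_apply, Matrix.single_mul_apply_of_ne _ _ _ _ _ hab.ne, Matrix.mul_single_apply_same,
        add_zero, left_eq_add] at e
      exact (mul_eq_zero.mp e).resolve_right hs0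
    rcases eq_or_ne a a0 with rfl | ha
    · have hb0 : b ≠ a0.rev := fun e => hne ⟨rfl, e⟩
      have hb0' : b < a0.rev := lt_of_le_of_ne hb hb0
      -- the two equations
      suffices h : ∀ x : F, ∃ v : F, x * v = -(z.1 a0 b * C.c x) by
        have key : ∃ v : F, ∀ x, x * v = -(z.1 a0 b * C.c x) := by
          rcases eq_or_ne b b.rev with hbo | hbo
          · refine ⟨z.1 b a0.rev, fun x => ?_⟩
            obtain ⟨s, hs⟩ := exists_md_param C x
            have e := entry _ ⟨md_uni C hab ha0lt.ne hbo.symm x s, md_mem C hab.ne ha0lt.ne hbo.symm hs⟩ a0 a0.rev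
            simp only [md_val, Matrix.add_mul, Matrix.mul_add, Matrix.one_mul, Matrix.mul_one, Matrix.add_apply,
              Matrix.single_mul_apply_of_ne _ _ _ _ _ hab.ne, Matrix.mul_single_apply_same,
              Matrix.single_mul_apply_same, Matrix.mul_single_apply_of_ne (hbj := hb0.symm), add_zero, hz.1.2,
              mul_one, one_mul] at e
            linear_combination e
          · have hlt : b.rev < b := lt_of_le_of_ne (not_lt.mp hbb) hbo.symm
            have h1 : a0 < b.rev := by have := lt_rev_lt hb0'; rwa [Fin.rev_rev] at this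
            have hrb : b.rev ≠ a0.rev := (hlt.trans hb0').ne
            refine ⟨z.1 b.rev a0.rev, fun x => ?_⟩
            have hbr : b.rev ≠ b.rev.rev := by rw [Fin.rev_rev]; exact hbo.symm
            have e := entry _ ⟨pr_uni C h1 x, pr_mem C h1.ne hrb ha0lt.ne hbr x⟩ a0 a0.rev
            simp only [pr_val C _ _ h1.ne hbr, Fin.rev_rev, Matrix.add_mul, Matrix.mul_add, Matrix.one_mul,
              Matrix.mul_one, Matrix.add_apply, Matrix.single_mul_apply_of_ne _ _ _ _ _ hab.ne,
              Matrix.mul_single_apply_same, Matrix.single_mul_apply_same,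
              Matrix.mul_single_apply_of_ne (hbj := hrb.symm), add_zero] at e
            linear_combination e
        obtain ⟨v, hv⟩ := key
        have h1 := hv 1
        rw [one_mul, map_one, mul_one] at h1
        have h2 := hv w
        rw [h1] at h2
        have : (w - C.c w) * z.1 a0 b = 0 := by linear_combination -h2
        exact (mul_eq_zero.mp this).resolve_left (sub_ne_zero.mpr (Ne.symm hw))
      intro x
      rcases eq_or_ne x 0 with rfl | hx
      · exact ⟨0, by simp⟩
      · exact ⟨-(z.1 a0 b * C.c x) / x, mul_div_cancel₀ _ hx⟩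
    · have h1 : a0 < a := lt_of_le_of_ne (Nat.zero_le _) (Ne.symm ha)
      have hb0 : b < a0.rev := lt_of_le_of_lt hb (lt_rev_lt h1)
      have hra : a ≠ a0.rev := (hab.trans hb0).ne
      have e := entry _ ⟨pr_uni C h1 1, pr_mem C h1.ne hra ha0lt.ne haa.ne 1⟩ a0 b
      simp only [pr_val C _ _ h1.ne haa.ne, Matrix.add_mul, Matrix.mul_add, Matrix.one_mul, Matrix.mul_one,
        Matrix.add_apply, Matrix.single_mul_apply_same, Matrix.mul_single_apply_of_ne (hbj := hab.ne'),
        Matrix.mul_single_apply_of_ne (hbj := hb0.ne), Matrix.single_mul_apply_of_ne _ _ _ _ _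
          (show a0 ≠ a.rev from ((h1.trans haa)).ne), add_zero, one_mul, add_eq_left] at e
      exact e
  have hN : ∀ a b : Fin n, a < b → (b : ℕ) - a < n - 1 → z.1 a b = 0 :=
    gap_zero C hz.1 (mem_gu C |>.1 hz.2).1 (n - 1) fun a b hab hgap hb => harea a b hab hb (by
      rintro ⟨rfl, rfl⟩
      simp [a0, Fin.val_rev] at hgap
      )
  have e : z.1 = 1 + Matrix.single a0 a0.rev (z.1 a0 a0.rev) := by
    ext a b
    rw [Matrix.add_apply, Matrix.single_apply]
    rcases lt_trichotomy a b with h | h | h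
    · rw [Matrix.one_apply_ne h.ne, zero_add]
      split_ifs with h'
      · rw [← h'.1, ← h'.2]
      · refine hN a b h ?_
        by_contra hge
        apply h'
        have := b.2
        exact ⟨Fin.ext (by simp [a0]; omega), Fin.ext (by simp [a0, Fin.val_rev]; omega)⟩
    · subst h
      rw [hz.1.2, Matrix.one_apply_eq, if_neg (fun h => ha0lt.ne (h.1.trans h.2.symm)), add_zero]
    · rw [hz.1.1 (show id b < id a from h), Matrix.one_apply_ne h.ne', zero_add,
        if_neg (by rintro ⟨rfl, rfl⟩; exact lt_asymm h ha0lt)]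
  refine ⟨z.1 a0 a0.rev, ?_, Units.ext e⟩
  have hf := (mem_fixed_iff C).1 (mem_gu C |>.1 hz.2).1
  rw [e, adj_add, adj_one, adj_single, Fin.rev_rev] at hf
  have := congrFun (congrFun hf a0) a0.rev
  simp [Matrix.add_mul, Matrix.mul_add, Matrix.one_apply, ha0lt.ne,
    Matrix.single_mul_single_of_ne _ _ _ _ ha0lt.ne'] at this
  linear_combination this

/-- A nontrivial subgroup closed under conjugation into the unipotent group is everything. -/
theorem eq_uu [Fintype F] (p : ℕ) [Fact p.Prime] [CharP F p] (hn : 4 ≤ n) (hc : ∃ x, C.c x ≠ x)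
    (hnorm : ∀ r, C.c r = r → ∃ x, x * C.c x = r) {T : Subgroup G} (hT : T ≤ uu C n) (hT1 : T ≠ ⊥)
    (hcl : ∀ g ∈ gu C n, ∀ x ∈ T, g * x * g⁻¹ ∈ unip F n → g * x * g⁻¹ ∈ T) : T = uu C n := by
  have hnm : ∀ u ∈ uu C n, ∀ x ∈ T, u * x * u⁻¹ ∈ T := fun u hu x hx =>
    hcl u hu.2 x hx (mul_mem (mul_mem hu.1 (hT hx).1) (inv_mem hu.1))
  set a0 : Fin n := ⟨0, by omega⟩ with ha0
  set a1 : Fin n := ⟨1, by omega⟩ with ha1
  have h00 : a0 < a0.rev := by rw [Fin.lt_def, Fin.val_rev]; simp [a0]; omega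
  have h11 : a1 < a1.rev := by rw [Fin.lt_def, Fin.val_rev]; simp [a1]; omega
  have h01 : a0 < a1 := by simp [a0, a1]
  obtain ⟨s₀, hs₀, hs₀0, hz⟩ : ∃ s : F, s + C.c s = 0 ∧ s ≠ 0 ∧ lg a0 h00.ne s ∈ T := by
    haveI : Group.IsNilpotent (uu C n) := (uu_isPGroup C p).isNilpotent
    haveI : (T.subgroupOf (uu C n)).Normal :=
      ⟨fun x hx u => hnm u.1 u.2 x.1 hx⟩
    have hne : T.subgroupOf (uu C n) ≠ ⊥ := fun h => hT1 (by
      rw [← Subgroup.map_subgroupOf_eq_of_le hT, h, Subgroup.map_bot])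
    obtain ⟨x, hxT, hx1, hxc⟩ := OddLocal.exists_ne_one_mem_center_of_normal (T.subgroupOf (uu C n)) hne
    obtain ⟨s, hs, e⟩ := center_lg C hn hc x.2 (fun u hu => congrArg Subtype.val
      (Subgroup.mem_center_iff.mp hxc ⟨u, hu⟩)) h00.ne
    refine ⟨s, hs, fun h => hx1 (Subtype.ext ?_), e ▸ hxT⟩
    rw [e, h, lg_zero]; rfl
  obtain ⟨w, hw⟩ := hc
  set l : F := C.c w / w with hl
  have hw0 : w ≠ 0 := fun e => hw (by rw [e, map_zero])
  have hcw0 : C.c w ≠ 0 := fun e => hw0 (by rw [← C.invol w, e, map_zero])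
  have hl1 : l * C.c l = 1 := by rw [hl, map_div₀, C.invol]; field_simp
  have hlne : l ≠ 1 := fun e => hw (by rw [hl, div_eq_one_iff_eq hw0] at e; exact e)
  -- conjugating the long element at the first index
  have hY : ∀ (a : Fin n) (ha : a < a.rev) (hne : a ≠ a0) (x : F),
      pr C a a0.rev (half_ne ha h00) (x * s₀) * lg a ha.ne (x * C.c x * s₀) ∈ T := by
    intro a ha hne x
    have hg : pr C a a0 hne x ∈ gu C n :=
      pr_mem C hne (half_ne h00 ha) ha.ne h00.ne x
    have e := conj_lg C hne ha h00 hs₀ x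
    have hmem : pr C a a0 hne x * lg a0 h00.ne s₀ * (pr C a a0 hne x)⁻¹ ∈ T := by
      refine hcl _ hg _ hz ?_
      rw [e]
      refine mul_mem (mul_mem (lg_uni h00 _) (pr_uni C ?_ _)) (lg_uni ha _)
      exact lt_of_lt_of_le ha (Fin.rev_le_rev.mpr (Nat.zero_le _))
    rw [e, mul_assoc] at hmem
    have := mul_mem (inv_mem hz) hmem
    rwa [inv_mul_cancel_left] at this
  have hpr0 : ∀ (a : Fin n) (ha : a < a.rev) (hne : a ≠ a0) (y : F), pr C a a0.rev (half_ne ha h00) y ∈ T := by
    intro a ha hne y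
    have h1 : a0.rev ≠ a0.rev.rev := by rw [Fin.rev_rev]; exact h00.ne'
    set x := y / ((1 - l) * s₀) with hx
    have hm := mul_mem (hY a ha hne x) (inv_mem (hY a ha hne (l * x)))
    rw [show l * x * C.c (l * x) * s₀ = x * C.c x * s₀ by rw [map_mul]; linear_combination (x * C.c x * s₀) * hl1,
      _root_.mul_inv_rev, ← mul_assoc, mul_inv_cancel_right, pr_inv C (half_ne ha h00) ha.ne h1,
      pr_add C (half_ne ha h00) ha.ne h1] at hm
    convert hm using 2
    have : (1 - l) * s₀ ≠ 0 := mul_ne_zero (sub_ne_zero.mpr hlne.symm) hs₀0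
    rw [hx]
    field_simp
    ring
  have hfix : ∀ {s : F}, s + C.c s = 0 → ∀ {t : F}, t ≠ 0 → t + C.c t = 0 → ∃ x, x * C.c x * t = s := by
    intro s hs t ht0 ht
    obtain ⟨x, hx⟩ := hnorm (s / t) (by
      rw [map_div₀, eq_neg_of_add_eq_zero_right hs, eq_neg_of_add_eq_zero_right ht, neg_div_neg_eq])
    exact ⟨x, by rw [hx, div_mul_cancel₀ _ ht0]⟩
  have hlg' : ∀ (a : Fin n) (ha : a < a.rev), a ≠ a0 → ∀ s, s + C.c s = 0 → lg a ha.ne s ∈ T := by
    intro a ha hne s hs
    obtain ⟨x, rfl⟩ := hfix hs hs₀0 hs₀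
    have := mul_mem (inv_mem (hpr0 a ha hne (x * s₀))) (hY a ha hne x)
    rwa [inv_mul_cancel_left] at this
  have conjUp : ∀ (a b : Fin n) (hab : a ≠ b) (ha : a < a.rev) (hb : b < b.rev) (s : F), s + C.c s = 0 →
      lg b hb.ne s ∈ T → ∀ x, pr C a b.rev (half_ne ha hb) (x * s) * lg a ha.ne (x * C.c x * s) ∈ T := by
    intro a b hab ha hb s hs hbT x
    have e := conj_lg C hab ha hb hs x
    have hmem : pr C a b hab x * lg b hb.ne s * (pr C a b hab x)⁻¹ ∈ T := by
      refine hcl _ (pr_mem C hab (half_ne hb ha) ha.ne hb.ne x) _ hbT ?_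
      rw [e]
      refine mul_mem (mul_mem (lg_uni hb _) ?_) (lg_uni ha _)
      rcases lt_or_ge a b.rev with h | h
      · exact pr_uni C h _
      · exfalso
        have h1 : (a : ℕ) < a.rev := ha
        have h2 : (b : ℕ) < b.rev := hb
        have h3 : (b.rev : ℕ) ≤ a := h
        simp only [Fin.val_rev] at h1 h2 h3
        omega
    rw [e, mul_assoc] at hmem
    have := mul_mem (inv_mem hbT) hmem
    rwa [inv_mul_cancel_left] at this
  have hlg : ∀ (a : Fin n) (ha : a < a.rev) (s : F), s + C.c s = 0 → lg a ha.ne s ∈ T := by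
    intro a ha s hs
    rcases eq_or_ne a a0 with rfl | hne
    · obtain ⟨t, ht0, ht⟩ := exists_skew C ⟨w, hw⟩
      obtain ⟨x, rfl⟩ := hfix hs ht0 ht
      have h1 := conjUp a0 a1 h01.ne ha h11 t ht (hlg' a1 h11 h01.ne' t ht) x
      have h2 : pr C a0 a1.rev (half_ne ha h11) (x * t) ∈ T := by
        have e : pr C a0 a1.rev (half_ne ha h11) (x * t) = pr C a1 a0.rev (half_ne h11 ha) (-C.c (x * t)) := by
          refine Units.ext ?_
          rw [pr_val C _ _ _ (by rw [Fin.rev_rev]; exact h11.ne'), pr_val C _ _ _ (by rw [Fin.rev_rev]; exact h00.ne'),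
            map_neg, C.invol, neg_neg, Fin.rev_rev, Fin.rev_rev]
          abel
        rw [e]; exact hpr0 a1 h11 h01.ne' _
      have := mul_mem (inv_mem h2) h1
      rwa [inv_mul_cancel_left] at this
    · exact hlg' a ha hne s hs
  have hprFar : ∀ (a b : Fin n) (hab : a ≠ b) (ha : a < a.rev) (hb : b < b.rev) (y : F),
      pr C a b.rev (half_ne ha hb) y ∈ T := by
    intro a b hab ha hb y
    obtain ⟨s, hs0, hs⟩ := exists_skew C ⟨w, hw⟩
    have h1 := conjUp a b hab ha hb s hs (hlg b hb s hs) (y / s)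
    rw [div_mul_cancel₀ _ hs0] at h1
    have h2 : lg a ha.ne (y / s * C.c (y / s) * s) ∈ T := hlg a ha _ (by
      rw [map_mul, map_mul, C.invol]
      linear_combination (y / s * C.c (y / s)) * hs)
    have := mul_mem h1 (inv_mem h2)
    rwa [mul_inv_cancel_right] at this
  have hprNear : ∀ (a b : Fin n) (hab : a < b) (ha : a < a.rev) (hb : b < b.rev) (y : F),
      pr C a b hab.ne y ∈ T := by
    intro a b hab ha hb y
    obtain ⟨t, ht0, ht⟩ := exists_skew C ⟨w, hw⟩
    set x := -y / t with hx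
    have h1 : b.rev ≠ b.rev.rev := by rw [Fin.rev_rev]; exact hb.ne'
    have e := conj_lower C hab.ne ha hb ht x h1
    rw [show -(x * t) = y by rw [hx, div_mul_cancel₀ _ ht0, neg_neg]] at e
    have hab' : a < b.rev := hab.trans hb
    have h2 : lg a ha.ne (-(x * C.c x * t)) ∈ T := hlg a ha _ (by
      rw [map_neg, map_mul, map_mul, C.invol]
      linear_combination -(x * C.c x) * ht)
    have hmem : pr C a b hab.ne y * pr C a b.rev (half_ne ha hb) x * lg a ha.ne (-(x * C.c x * t)) ∈ T := by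
      rw [← e]
      refine hcl _ (lg_mem C _ h1 ht) _ (hprFar a b hab.ne ha hb x) ?_
      rw [e]
      exact mul_mem (mul_mem (pr_uni C hab y) (pr_uni C hab' x)) (lg_uni ha _)
    have := mul_mem (mul_mem hmem (inv_mem h2)) (inv_mem (hprFar a b hab.ne ha hb x))
    rwa [mul_inv_cancel_right, mul_inv_cancel_right] at this
  have hmd : ∀ (a o : Fin n) (hao : a < o) (ha : a < a.rev) (ho : o.rev = o) (c s : F),
      s + C.c s + c * C.c c = 0 → md C a o hao.ne ha.ne ho c s ∈ T := by
    intro a o hao ha ho c s hs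
    have h1o : a1 < o := by
      have := congrArg Fin.val ho
      rw [Fin.val_rev] at this
      simp [Fin.lt_def, a1]; omega
    have hgen : ∀ (a b : Fin n) (hab : a ≠ b) (hao : a < o) (ha : a < a.rev) (hbo : b < o) (hb : b < b.rev),
        (a < b ∨ ∀ c s, s + C.c s + c * C.c c = 0 → md C b o hbo.ne hb.ne ho c s ∈ T) →
        ∀ c s, s + C.c s + c * C.c c = 0 → md C a o hao.ne ha.ne ho c s ∈ T := by
      intro a b hab hao ha hbo hb hor c s hs
      set Q := md C b o hbo.ne hb.ne ho c s with hQdef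
      have hQ : Q ∈ uu C n := ⟨md_uni C hbo hb.ne ho c s, md_mem C hbo.ne hb.ne ho hs⟩
      have e := conj_md C hab ha hb hao.ne hbo.ne ho hs 1
      rw [one_mul, map_one, mul_one, one_mul, one_mul, ← hQdef] at e
      have hab' : a < b.rev := by
        have := lt_rev_lt hbo; rw [ho] at this
        exact hao.trans this
      have hP := hprFar a b hab ha hb (-C.c s)
      have hmem : md C a o hao.ne ha.ne ho c s * pr C a b.rev (half_ne ha hb) (-C.c s) ∈ T := by
        have hP1 : pr C a b hab 1 ∈ gu C n := pr_mem C hab (half_ne hb ha) ha.ne hb.ne 1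
        rcases hor with hlt | hT'
        · have hPT := hprNear a b hlt ha hb 1
          have h1 := mul_mem hPT (hnm Q hQ _ (inv_mem hPT))
          rw [show pr C a b hlt.ne 1 * (Q * (pr C a b hlt.ne 1)⁻¹ * Q⁻¹) =
            pr C a b hab 1 * Q * (pr C a b hab 1)⁻¹ * Q⁻¹ by group, e, mul_inv_cancel_right] at h1
          exact h1
        · have h1 : pr C a b hab 1 * Q * (pr C a b hab 1)⁻¹ ∈ T := by
            refine hcl _ hP1 _ (hT' c s hs) ?_
            rw [e]
            exact mul_mem (mul_mem (md_uni C hao ha.ne ho c s) (pr_uni C hab' _)) hQ.1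
          rw [e] at h1
          have := mul_mem h1 (inv_mem (hT' c s hs))
          rwa [mul_inv_cancel_right] at this
      have := mul_mem hmem (inv_mem hP)
      rwa [mul_inv_cancel_right] at this
    have hmd0 : ∀ c s, s + C.c s + c * C.c c = 0 → md C a0 o (h01.trans h1o).ne h00.ne ho c s ∈ T :=
      hgen a0 a1 h01.ne (h01.trans h1o) h00 h1o h11 (Or.inl h01)
    rcases eq_or_ne a a0 with rfl | hne
    · exact hmd0 c s hs
    · exact hgen a a0 hne hao ha (h01.trans h1o) h00 (Or.inr hmd0) c s hs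
  -- kill the entries of the upper left area one after another
  refine le_antisymm hT ?_
  have hroot : ∀ (a b : Fin n) (x : F), a < b → b ≤ a.rev →
      (b = a.rev → x + C.c x = 0) → ∃ r ∈ T, r.1 a b = x ∧
      ∀ k j, (r.1 - 1) k j ≠ 0 → (k = a ∧ j = b) ∨ (k = a ∧ j = a.rev) ∨ (k = b.rev ∧ j = a.rev) := by
    intro a b x hab hb hx
    have ha : a < a.rev := hab.trans_le hb
    rcases eq_or_ne b a.rev with rfl | hne
    · refine ⟨lg a ha.ne x, hlg a ha x (hx rfl), by simp [lg_val, ha.ne], fun k j h => ?_⟩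
      rw [lg_val, add_sub_cancel_left, Matrix.single_apply] at h
      split_ifs at h with h'
      · exact Or.inl ⟨h'.1.symm, h'.2.symm⟩
      · exact absurd rfl h
    rcases lt_trichotomy b b.rev with hbb | hbb | hbb
    · have hne2 : a ≠ b.rev := fun e => hne (by rw [e, Fin.rev_rev])
      refine ⟨pr C a b hab.ne x, hprNear a b hab ha hbb x, by simp [pr_val C a b hab.ne hbb.ne, hab.ne, hne2.symm],
        fun k j h => ?_⟩
      rw [pr_val C a b hab.ne hbb.ne, add_assoc, add_sub_cancel_left, Matrix.add_apply, Matrix.single_apply,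
        Matrix.single_apply] at h
      split_ifs at h with h1 h2 h2
      · exact Or.inl ⟨h1.1.symm, h1.2.symm⟩
      · exact Or.inl ⟨h1.1.symm, h1.2.symm⟩
      · exact Or.inr (Or.inr ⟨h2.1.symm, h2.2.symm⟩)
      · simp at h
    · obtain ⟨s, hs⟩ := exists_md_param C x
      refine ⟨md C a b hab.ne ha.ne hbb.symm x s, hmd a b hab ha hbb.symm x s hs,
        by simp [md_val, hab.ne, hab.ne', hne, Ne.symm hne], fun k j h => ?_⟩
      rw [md_val, add_assoc, add_assoc, add_sub_cancel_left, Matrix.add_apply, Matrix.add_apply,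
        Matrix.single_apply, Matrix.single_apply, Matrix.single_apply] at h
      by_cases h1 : a = k ∧ b = j
      · exact Or.inl ⟨h1.1.symm, h1.2.symm⟩
      by_cases h2 : b = k ∧ a.rev = j
      · exact Or.inr (Or.inr ⟨by rw [← hbb]; exact h2.1.symm, h2.2.symm⟩)
      by_cases h3 : a = k ∧ a.rev = j
      · exact Or.inr (Or.inl ⟨h3.1.symm, h3.2.symm⟩)
      simp [h1, h2, h3] at h
    · have hb2 : b.rev < b.rev.rev := by rwa [Fin.rev_rev]
      have hab' : a ≠ b.rev := fun e => hne (by rw [e, Fin.rev_rev])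
      have h1 := hprFar a b.rev hab' ha hb2 x
      simp only [Fin.rev_rev] at h1
      refine ⟨pr C a b hab.ne x, h1, by simp [pr_val C a b hab.ne hbb.ne', hab.ne, hab'.symm], fun k j h => ?_⟩
      rw [pr_val C a b hab.ne hbb.ne', add_assoc, add_sub_cancel_left, Matrix.add_apply, Matrix.single_apply,
        Matrix.single_apply] at h
      split_ifs at h with h1 h2 h2
      · exact Or.inl ⟨h1.1.symm, h1.2.symm⟩
      · exact Or.inl ⟨h1.1.symm, h1.2.symm⟩
      · exact Or.inr (Or.inr ⟨h2.1.symm, h2.2.symm⟩)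
      · simp at h
  suffices hind : ∀ (k : ℕ) (g : G), g ∈ uu C n →
      (∀ i j : Fin n, i < j → j ≤ i.rev → (i : ℕ) * n + j < n * n - k → g.1 i j = 0) → g ∈ T from
    fun g hg => hind (n * n) g hg (fun i j _ _ h => absurd h (by omega))
  intro k
  induction k with
  | zero =>
    intro g hg h
    rw [eq_one_of_area C hg.1 (mem_gu C |>.1 hg.2).1 fun a b hab hb => h a b hab hb (by
      have h1 : (a : ℕ) * n ≤ (n - 1) * n := Nat.mul_le_mul_right n (by have := a.2; omega)
      have h2 : (n - 1) * n + n = n * n := by rw [← Nat.succ_mul, Nat.succ_eq_add_one, Nat.sub_add_cancel (by omega)]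
      have := b.2
      omega)]
    exact one_mem T
  | succ k ih =>
    intro g hg h
    by_cases hpos : ∃ a b : Fin n, a < b ∧ b ≤ a.rev ∧ (a : ℕ) * n + b = n * n - (k + 1) ∧ g.1 a b ≠ 0
    · obtain ⟨a, b, hab, hb, hidx, hne⟩ := hpos
      have hearly : ∀ i j : Fin n, i < a → i < j → j ≤ i.rev → g.1 i j = 0 := fun i j hi hij hj =>
        h i j hij hj (by
          have : ((i : ℕ) + 1) * n ≤ (a : ℕ) * n := Nat.mul_le_mul_right n hi
          rw [add_mul, one_mul] at this
          have := j.2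
          omega)
      have hskew : b = a.rev → -(g.1 a b) + C.c (-(g.1 a b)) = 0 := by
        intro e
        subst e
        have hz : ∀ l, a < l → l < a.rev → g.1 a l = 0 := fun l h1 h2 =>
          h a l h1 h2.le (by have : (l : ℕ) < a.rev := h2; omega)
        have hf0 : g.1 * adj C g.1 = 1 := mul_eq_one_comm.1 ((mem_fixed_iff C).1 (mem_gu C |>.1 hg.2).1)
        have hf := congrFun (congrFun hf0 a) a.rev
        rw [Matrix.mul_apply, Matrix.one_apply_ne hab.ne,
          Finset.sum_eq_add_of_mem a a.rev (Finset.mem_univ _) (Finset.mem_univ _) hab.ne] at hf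
        · simp only [adj_apply, Fin.rev_rev, hg.1.2, map_one, one_mul, mul_one] at hf
          rw [map_neg]
          linear_combination -hf
        · intro l _ hl
          rcases lt_or_gt_of_ne hl.1 with h1 | h1
          · rw [hg.1.1 (show id l < id a from h1), zero_mul]
          rcases lt_or_gt_of_ne hl.2 with h2 | h2
          · rw [hz l h1 h2, zero_mul]
          · rw [adj_upper C hg.1.1 (show id a.rev < id l from h2), mul_zero]
      obtain ⟨r, hr, hrab, hsupp⟩ := hroot a b (-(g.1 a b)) hab hb hskew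
      have hgr : g * r ∈ T := by
        refine ih _ (mul_mem hg (hT hr)) fun i j hij hj hlt => ?_
        have hval : (g * r).1 i j = g.1 i j + ∑ l, g.1 i l * (r.1 - 1) l j := by
          rw [Units.val_mul, ← Matrix.mul_apply, Matrix.mul_sub, Matrix.mul_one, Matrix.sub_apply]
          ring
        rw [hval]
        have hle : (i : ℕ) * n + j ≤ (a : ℕ) * n + b := by omega
        have hia : i ≤ a := by
          by_contra hc
          have : ((a : ℕ) + 1) * n ≤ (i : ℕ) * n := Nat.mul_le_mul_right n (not_le.mp hc)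
          rw [add_mul, one_mul] at this
          have := b.2
          omega
        rcases hia.lt_or_eq with hlt' | rfl
        · rw [hearly i j hlt' hij hj, zero_add]
          refine Finset.sum_eq_zero fun l _ => ?_
          by_cases h0 : (r.1 - 1) l j = 0
          · rw [h0, mul_zero]
          have hai : a.rev < i.rev := lt_rev_lt hlt'
          rcases hsupp l j h0 with ⟨rfl, -⟩ | ⟨rfl, -⟩ | ⟨rfl, -⟩
          · rw [hearly i l hlt' hlt' ((hab.trans_le hb).le.trans hai.le), zero_mul]
          · rw [hearly i l hlt' hlt' ((hab.trans_le hb).le.trans hai.le), zero_mul]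
          · rw [hearly i b.rev hlt' (hlt'.trans_le (by rw [← Fin.rev_rev a]; exact Fin.rev_le_rev.mpr hb))
              (Fin.rev_le_rev.mpr (hlt'.trans hab).le), zero_mul]
        · have hjb : j ≤ b := by rw [Fin.le_def]; omega
          rw [Finset.sum_eq_single i]
          · rcases hjb.lt_or_eq with hjlt | rfl
            · have h0 : (r.1 - 1) i j = 0 := by
                by_contra h0
                rcases hsupp i j h0 with ⟨-, e⟩ | ⟨-, e⟩ | ⟨-, e⟩
                · exact hjlt.ne e
                · exact (hjlt.trans_le hb).ne e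
                · exact (hjlt.trans_le hb).ne e
              rw [h0, mul_zero, add_zero]
              exact h i j hij hj (by have : (j : ℕ) < b := hjlt; omega)
            · rw [Matrix.sub_apply, Matrix.one_apply_ne hab.ne, sub_zero, hrab, hg.1.2, one_mul, add_neg_cancel]
          · intro l _ hl
            by_cases h0 : (r.1 - 1) l j = 0
            · rw [h0, mul_zero]
            rcases hsupp l j h0 with ⟨e, -⟩ | ⟨e, -⟩ | ⟨e, e'⟩
            · exact absurd e hl
            · exact absurd e hl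
            · exfalso
              have hjb' : b = i.rev := le_antisymm hb (e' ▸ hjb)
              exact hl (by rw [e, hjb', Fin.rev_rev])
          · simp
      have := mul_mem hgr (inv_mem hr)
      rwa [mul_inv_cancel_right] at this
    · push Not at hpos
      refine ih g hg fun i j hij hj hlt => ?_
      by_cases he : (i : ℕ) * n + j = n * n - (k + 1)
      · exact hpos i j hij hj he
      · exact h i j hij hj (by omega)

end Cfsg.Agent.Fusion.PSU
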