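/-
Torus elements of `SU_n` as products of root elements, and the unipotent radicals normalised by them.
-/
import Cfsg.Agent.Fusion.SUClosed
import Mathlib.LinearAlgebra.Matrix.Block
set_option autoImplicit false
set_option linter.unusedSectionVars false

namespace Cfsg.Agent.Fusion.PSU

open Matrix Cfsg Cfsg.Agent.Linear.Unipotent Cfsg.Agent.KnownA.PronormalCharTwo Cfsg.Agent.KnownA.PronormalUnitary

variable {F : Type*} [Field F] {n : ℕ} (C : Conj F)

local notation "G" => GL (Fin n) F
local notation "M" => Matrix (Fin n) (Fin n) F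

theorem dg_mul_apply (d : Fin n → Fˣ) (X : M) (i j : Fin n) : ((dg d : G).1 * X) i j = (d i : F) * X i j := by
  rw [dg_val, Matrix.diagonal_mul]

theorem el_mul_apply (a b : Fin n) (h : a ≠ b) (x : F) (X : M) (i j : Fin n) :
    ((el a b h x : G).1 * X) i j = X i j + if i = a then x * X b j else 0 := by
  rw [el_val]
  by_cases hi : i = a
  · subst hi; simp
  · simp [hi]

theorem md_mul_apply {a o : Fin n} (h : a ≠ o) (h' : a ≠ a.rev) (ho : o.rev = o) (c s : F) (X : M) (i j : Fin n) :
    ((md C a o h h' ho c s).1 * X) i j = X i j + (if i = a then c * X o j + s * X a.rev j else 0) +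
      if i = o then -C.c c * X a.rev j else 0 := by
  rw [md, Units.val_mul, Units.val_mul, Matrix.mul_assoc, Matrix.mul_assoc]
  simp only [el_mul_apply]
  by_cases h1 : i = a
  · subst h1
    simp [h, h.symm, h', h'.symm]
    ring
  by_cases h2 : i = o
  · subst h2
    simp [h, h.symm, h', h'.symm]
  simp [h1, h2]

theorem pr_mul_apply {a b : Fin n} (h : a ≠ b) (hb : b ≠ b.rev) (x : F) (X : M) (i j : Fin n) :
    ((pr C a b h x).1 * X) i j = X i j + (if i = a then x * X b j else 0) +
      if i = b.rev then -C.c x * X a.rev j else 0 := by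
  rw [pr, Units.val_mul, Matrix.mul_assoc]
  simp only [el_mul_apply]
  by_cases h1 : i = a <;> by_cases h2 : i = b.rev <;> simp [h1, h2, hb, Ne.symm hb] <;> ring

/-- The values of a coroot of the short kind. -/
def hVec (a b : Fin n) (t : Fˣ) : Fin n → Fˣ := fun i =>
  if i = a then t else if i = b then t⁻¹ else if i = b.rev then Units.map (C.c : F →* F) t
  else if i = a.rev then (Units.map (C.c : F →* F) t)⁻¹ else 1

theorem hShort_eq {a b : Fin n} (hab : a ≠ b) (ha : a < a.rev) (hb : b < b.rev) (t : Fˣ) :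
    dg (hVec C a b t) = pr C a b hab (t : F) * pr C b a hab.symm (-(t : F)⁻¹) * pr C a b hab (t : F) *
      pr C a b hab (-1) * pr C b a hab.symm 1 * pr C a b hab (-1) := by
  have h2 := half_ne hb ha
  have h3 := half_ne ha hb
  have h4 : a.rev ≠ b.rev := fun e => hab (Fin.rev_inj.mp e)
  have ht : (t : F) ≠ 0 := t.ne_zero
  have hct : C.c (t : F) ≠ 0 := fun e => ht (by rw [← C.invol (t : F), e, map_zero])
  have key : ∀ X : M, (dg (hVec C a b t) : G).1 * X =
      (pr C a b hab (t : F)).1 * ((pr C b a hab.symm (-(t : F)⁻¹)).1 * ((pr C a b hab (t : F)).1 *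
        ((pr C a b hab (-1)).1 * ((pr C b a hab.symm 1).1 * ((pr C a b hab (-1)).1 * X))))) := by
    intro X
    ext i j
    simp only [dg_mul_apply, pr_mul_apply C hab hb.ne, pr_mul_apply C hab.symm ha.ne, map_neg, map_inv₀, map_one]
    by_cases hi1 : i = a
    · subst hi1
      simp [hVec, hab, hab.symm, ha.ne, ha.ne', h2, h2.symm, h3, h3.symm, h4, h4.symm, hb.ne, hb.ne']
      field_simp
      ring
    by_cases hi2 : i = b
    · subst hi2
      simp [hVec, hab, hab.symm, ha.ne, ha.ne', h2, h2.symm, h3, h3.symm, h4, h4.symm, hb.ne, hb.ne']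
      field_simp
      ring
    by_cases hi3 : i = b.rev
    · subst hi3
      simp [hVec, hab, hab.symm, ha.ne, ha.ne', h2, h2.symm, h3, h3.symm, h4, h4.symm, hb.ne, hb.ne']
      field_simp
      ring
    by_cases hi4 : i = a.rev
    · subst hi4
      simp [hVec, hab, hab.symm, ha.ne, ha.ne', h2, h2.symm, h3, h3.symm, h4, h4.symm, hb.ne, hb.ne']
      field_simp
      ring
    simp [hVec, hi1, hi2, hi3, hi4]
  refine Units.ext ?_
  simpa [Matrix.mul_assoc] using key 1

theorem hShort_mem {a b : Fin n} (hab : a ≠ b) (ha : a < a.rev) (hb : b < b.rev) (t : Fˣ) :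
    dg (hVec C a b t) ∈ gu C n := by
  have h1 : ∀ x, pr C a b hab x ∈ gu C n := fun x => pr_mem C hab (half_ne hb ha) ha.ne hb.ne x
  have h2 : ∀ x, pr C b a hab.symm x ∈ gu C n := fun x => pr_mem C hab.symm (half_ne ha hb) hb.ne ha.ne x
  rw [hShort_eq C hab ha hb]
  exact mul_mem (mul_mem (mul_mem (mul_mem (mul_mem (h1 _) (h2 _)) (h1 _)) (h1 _)) (h2 _)) (h1 _)

/-- The monomial element of the middle three indices. -/
def nMid {a o : Fin n} (h : a ≠ o) (h' : a ≠ a.rev) (ho : o.rev = o) (c s : F) : G :=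
  md C a o h h' ho c s *
    md C a.rev o (fun e => h (Fin.rev_inj.mp (e.trans ho.symm))) (by rw [Fin.rev_rev]; exact h'.symm) ho
      (-(c / s)) (C.c s)⁻¹ *
    md C a o h h' ho (c * C.c s / s) s

theorem nMid_mul_apply {a o : Fin n} (h : a ≠ o) (h' : a ≠ a.rev) (ho : o.rev = o) {c s : F} (hs0 : s ≠ 0)
    (hs : s + C.c s + c * C.c c = 0) (X : M) (i j : Fin n) :
    ((nMid C h h' ho c s).1 * X) i j = if i = a then s * X a.rev j else if i = o then -(C.c s / s) * X o j
      else if i = a.rev then (C.c s)⁻¹ * X a j else X i j := by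
  have h1 : a.rev ≠ o := fun e => h (Fin.rev_inj.mp (e.trans ho.symm))
  have hcs : C.c s ≠ 0 := fun e => hs0 (by rw [← C.invol s, e, map_zero])
  have hs' : C.c s = -s - c * C.c c := by linear_combination hs
  rw [nMid, Units.val_mul, Units.val_mul, Matrix.mul_assoc, Matrix.mul_assoc]
  simp only [md_mul_apply, Fin.rev_rev]
  by_cases hi1 : i = a
  · subst hi1
    simp [h, h.symm, h', h'.symm, h1, h1.symm, C.invol]
    field_simp
    rw [hs']
    ring
  by_cases hi2 : i = o
  · subst hi2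
    simp [h, h.symm, h', h'.symm, h1, h1.symm, C.invol]
    field_simp
    rw [hs']
    ring
  by_cases hi3 : i = a.rev
  · subst hi3
    simp [h, h.symm, h', h'.symm, h1, h1.symm, C.invol]
    field_simp
    rw [hs']
    ring
  simp [hi1, hi2, hi3]

theorem nMid_mem {a o : Fin n} (h : a ≠ o) (h' : a ≠ a.rev) (ho : o.rev = o) {c s : F} (hs0 : s ≠ 0)
    (hs : s + C.c s + c * C.c c = 0) :
    md C a o h h' ho c s ∈ gu C n ∧
    md C a.rev o (fun e => h (Fin.rev_inj.mp (e.trans ho.symm))) (by rw [Fin.rev_rev]; exact h'.symm) ho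
      (-(c / s)) (C.c s)⁻¹ ∈ gu C n ∧
    md C a o h h' ho (c * C.c s / s) s ∈ gu C n := by
  have hcs : C.c s ≠ 0 := fun e => hs0 (by rw [← C.invol s, e, map_zero])
  refine ⟨md_mem C h h' ho hs, md_mem C _ _ ho ?_, md_mem C h h' ho ?_⟩
  · rw [map_inv₀, C.invol, map_neg, map_div₀]
    field_simp
    linear_combination hs
  · rw [map_div₀, map_mul, C.invol]
    field_simp
    linear_combination hs

/-- The values of a torus element of the last kind. -/
def lVec (a : Fin n) (t : Fˣ) (μ : Fˣ) : Fin n → Fˣ := fun i =>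
  if i = a then t else if i = a.rev then (Units.map (C.c : F →* F) t)⁻¹ else if i.rev = i then μ else 1

theorem nMid_ratio {a o : Fin n} (h : a ≠ o) (h' : a ≠ a.rev) (ho : o.rev = o) (hou : ∀ i : Fin n, i.rev = i → i = o)
    {c c₀ s s₀ : F} (hs0 : s ≠ 0) (hs₀0 : s₀ ≠ 0) (hs : s + C.c s + c * C.c c = 0)
    (hs₀ : s₀ + C.c s₀ + c₀ * C.c c₀ = 0) :
    ∃ μ : Fˣ, nMid C h h' ho c s =
      dg (lVec C a (Units.mk0 (s / s₀) (div_ne_zero hs0 hs₀0)) μ) * nMid C h h' ho c₀ s₀ := by
  have h1 : a.rev ≠ o := fun e => h (Fin.rev_inj.mp (e.trans ho.symm))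
  have hcs : C.c s ≠ 0 := fun e => hs0 (by rw [← C.invol s, e, map_zero])
  have hcs₀ : C.c s₀ ≠ 0 := fun e => hs₀0 (by rw [← C.invol s₀, e, map_zero])
  refine ⟨Units.mk0 ((C.c s / s) * (s₀ / C.c s₀)) (mul_ne_zero (div_ne_zero hcs hs0) (div_ne_zero hs₀0 hcs₀)),
    Units.ext (Matrix.ext fun i j => ?_)⟩
  rw [Units.val_mul, dg_mul_apply, ← Matrix.mul_one (nMid C h h' ho c s).1,
    ← Matrix.mul_one (nMid C h h' ho c₀ s₀).1, nMid_mul_apply C h h' ho hs0 hs,
    nMid_mul_apply C h h' ho hs₀0 hs₀]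
  by_cases hi1 : i = a
  · subst hi1
    simp [lVec]
    field_simp
  by_cases hi2 : i = o
  · subst hi2
    simp [lVec, hi1, h1.symm, ho]
    field_simp
  by_cases hi3 : i = a.rev
  · subst hi3
    simp [lVec, hi1, hi2]
    field_simp
  have hi4 : i.rev ≠ i := fun e => hi2 (hou i e)
  simp [lVec, hi1, hi2, hi3, hi4]

theorem lgWeyl_ratio {a : Fin n} (h' : a ≠ a.rev) (hno : ∀ i : Fin n, i.rev ≠ i) {s s₀ : F} (hs0 : s ≠ 0)
    (hs₀0 : s₀ ≠ 0) (hs : s + C.c s = 0) (hs₀ : s₀ + C.c s₀ = 0) :
    (lg a h' s * lg a.rev (by rw [Fin.rev_rev]; exact h'.symm) (-s⁻¹) * lg a h' s : G) =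
      dg (lVec C a (Units.mk0 (s / s₀) (div_ne_zero hs0 hs₀0)) 1) *
        (lg a h' s₀ * lg a.rev (by rw [Fin.rev_rev]; exact h'.symm) (-s₀⁻¹) * lg a h' s₀) := by
  refine Units.ext (Matrix.ext fun i j => ?_)
  simp only [Units.val_mul, lg, Matrix.mul_assoc]
  rw [dg_mul_apply, ← Matrix.mul_one (el a a.rev h' s : G).1, ← Matrix.mul_one (el a a.rev h' s₀ : G).1]
  simp only [Matrix.mul_assoc, Matrix.one_mul, el_mul_apply, Fin.rev_rev]
  have e1 : C.c s = -s := eq_neg_of_add_eq_zero_right hs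
  have e2 : C.c s₀ = -s₀ := eq_neg_of_add_eq_zero_right hs₀
  by_cases hi1 : i = a
  · subst hi1
    simp [lVec, h', h'.symm, mul_add, hs0, hs₀0]
    field_simp
  by_cases hi3 : i = a.rev
  · subst hi3
    simp [lVec, hi1, h', h'.symm, e1, e2, map_div₀]
    field_simp
    ring
  simp [lVec, hi1, hi3, hno i]

/-- Strictly block triangular for a grading. -/
def StrictBT (φ : Fin n → ℕ) (A : M) : Prop := ∀ i j, φ j ≤ φ i → A i j = 0

theorem strict_mul_right {φ : Fin n → ℕ} {A B : M} (hA : StrictBT φ A) (hB : B.BlockTriangular φ) :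
    StrictBT φ (A * B) := by
  intro i j hij
  rw [Matrix.mul_apply]
  refine Finset.sum_eq_zero fun k _ => ?_
  rcases le_or_gt (φ k) (φ i) with h | h
  · rw [hA i k h, zero_mul]
  · rw [hB (show φ j < φ k from hij.trans_lt h), mul_zero]

theorem strict_mul_left {φ : Fin n → ℕ} {A B : M} (hA : A.BlockTriangular φ) (hB : StrictBT φ B) :
    StrictBT φ (A * B) := by
  intro i j hij
  rw [Matrix.mul_apply]
  refine Finset.sum_eq_zero fun k _ => ?_
  rcases lt_or_ge (φ k) (φ i) with h | h
  · rw [hA h, zero_mul]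
  · rw [hB k j (hij.trans h), mul_zero]

theorem bt_of_unip {φ : Fin n → ℕ} (hφ : Monotone φ) {g : G} (hg : g ∈ unip F n) : g.1.BlockTriangular φ :=
  fun i j h => hg.1 (show id j < id i from hφ.reflect_lt h)

theorem el_bt {φ : Fin n → ℕ} {a b : Fin n} (h : a ≠ b) (hφ : φ a ≤ φ b) (x : F) :
    (el a b h x : G).1.BlockTriangular φ :=
  blockTriangular_transvection hφ x

theorem bt_inv {φ : Fin n → ℕ} {g : G} (hg : g.1.BlockTriangular φ) : (g⁻¹ : G).1.BlockTriangular φ := by
  haveI := g.invertible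
  have := Matrix.blockTriangular_inv_of_blockTriangular hg
  rwa [← Matrix.coe_units_inv] at this

/-- The unipotent radical of a grading. -/
def radU (φ : Fin n → ℕ) (hφ : Monotone φ) : Subgroup G where
  carrier := {g | g ∈ uu C n ∧ StrictBT φ (g.1 - 1)}
  one_mem' := ⟨one_mem _, fun i j _ => by simp⟩
  mul_mem' := by
    rintro g h ⟨hg, hg'⟩ ⟨hh, hh'⟩
    refine ⟨mul_mem hg hh, fun i j hij => ?_⟩
    have e : (g * h).1 - 1 = (g.1 - 1) * h.1 + (h.1 - 1) := by
      rw [Units.val_mul, Matrix.sub_mul, Matrix.one_mul]; abel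
    rw [e, Matrix.add_apply, strict_mul_right hg' (bt_of_unip hφ hh.1) i j hij, hh' i j hij, add_zero]
  inv_mem' := by
    rintro g ⟨hg, hg'⟩
    refine ⟨inv_mem hg, fun i j hij => ?_⟩
    have e : (g⁻¹ : G).1 - 1 = -((g⁻¹ : G).1 * (g.1 - 1)) := by
      rw [Matrix.mul_sub, Matrix.mul_one, g.inv_mul]; abel
    rw [e, Matrix.neg_apply, strict_mul_left (bt_of_unip hφ ((uu C n).inv_mem hg).1) hg' i j hij, neg_zero]

theorem radU_le (φ : Fin n → ℕ) (hφ : Monotone φ) : radU C φ hφ ≤ uu C n := fun _ h => h.1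

/-- Block triangular elements normalise the radical. -/
theorem radU_conj {φ : Fin n → ℕ} (hφ : Monotone φ) {g r : G} (hg : g ∈ gu C n) (hgb : g.1.BlockTriangular φ)
    (hr : r ∈ radU C φ hφ) : g * r * g⁻¹ ∈ radU C φ hφ := by
  obtain ⟨⟨hru, hrg⟩, hr'⟩ := hr
  have e : (g * r * g⁻¹).1 - 1 = g.1 * (r.1 - 1) * (g⁻¹ : G).1 := by
    rw [Units.val_mul, Units.val_mul, Matrix.mul_sub, Matrix.mul_one, Matrix.sub_mul, g.mul_inv]
  have hs : StrictBT φ ((g * r * g⁻¹).1 - 1) := e ▸ strict_mul_right (strict_mul_left hgb hr') (bt_inv hgb)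
  refine ⟨⟨⟨fun i j hji => ?_, fun i => ?_⟩, (gu C n).mul_mem ((gu C n).mul_mem hg hrg) ((gu C n).inv_mem hg)⟩, hs⟩
  · have hlt : j < i := hji
    have h1 := hs i j (hφ hlt.le)
    rwa [Matrix.sub_apply, Matrix.one_apply_ne hlt.ne', sub_zero] at h1
  · have h1 := hs i i le_rfl
    rwa [Matrix.sub_apply, Matrix.one_apply_eq, sub_eq_zero] at h1

/-- The grading by halves. -/
def phiHalf (i : Fin n) : ℕ := if i < i.rev then 0 else if i = i.rev then 1 else 2

theorem phiHalf_mono : Monotone (phiHalf (n := n)) := by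
  intro i j hij
  have h1 : (i : ℕ) ≤ j := hij
  simp only [phiHalf, Fin.lt_def, Fin.ext_iff, Fin.val_rev]
  split_ifs <;> omega

theorem half_centric (hc : ∃ x, C.c x ≠ x) {u : G} (hu : u ∈ uu C n)
    (h : ∀ r ∈ radU C phiHalf phiHalf_mono, u * r = r * u) : u ∈ radU C phiHalf phiHalf_mono := by
  refine ⟨hu, fun i j hij => ?_⟩
  rw [Matrix.sub_apply]
  rcases lt_trichotomy i j with h1 | h1 | h1
  · rw [Matrix.one_apply_ne h1.ne, sub_zero]
    obtain ⟨s, hs0, hs⟩ := exists_skew C hc
    have heq : phiHalf i = phiHalf j := le_antisymm (phiHalf_mono h1.le) hij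
    have hlg : ∀ (b : Fin n) (hb : b < b.rev), lg b hb.ne s ∈ radU C phiHalf phiHalf_mono := fun b hb => by
      refine ⟨⟨lg_uni hb s, lg_mem C b hb.ne hs⟩, fun k l hkl => ?_⟩
      rw [lg_val, add_sub_cancel_left, Matrix.single_apply, if_neg]
      rintro ⟨rfl, rfl⟩
      simp [phiHalf, hb, hb.ne', not_lt.mpr hb.le] at hkl
    by_cases hi : i < i.rev
    · have hj : j < j.rev := by
        by_contra hj
        simp only [phiHalf, hi, hj, if_true, if_false] at heq
        split_ifs at heq <;> omega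
      have e := Matrix.ext_iff.mpr (congrArg Units.val (h _ (hlg j hj))) i j.rev
      rw [Units.val_mul, Units.val_mul, lg_val, Matrix.add_mul, Matrix.mul_add, Matrix.one_mul, Matrix.mul_one,
        Matrix.add_apply, Matrix.add_apply, Matrix.single_mul_apply_of_ne _ _ _ _ _ h1.ne,
        Matrix.mul_single_apply_same, add_zero, add_eq_left] at e
      exact (mul_eq_zero.mp e).resolve_right hs0
    · have hii : i.rev < i := by
        refine lt_of_le_of_ne (not_lt.mp hi) fun e => ?_
        have hj' : j.rev < j := (lt_rev_lt h1).trans_le (e.le.trans h1.le)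
        simp [phiHalf, e, not_lt.mpr hj'.le, hj'.ne'] at heq
      have hbb : i.rev < i.rev.rev := by rwa [Fin.rev_rev]
      have e := Matrix.ext_iff.mpr (congrArg Units.val (h _ (hlg i.rev hbb))) i.rev j
      rw [Units.val_mul, Units.val_mul, lg_val, Matrix.add_mul, Matrix.mul_add, Matrix.one_mul, Matrix.mul_one,
        Matrix.add_apply, Matrix.add_apply, Fin.rev_rev, Matrix.mul_single_apply_of_ne (hbj := h1.ne'),
        Matrix.single_mul_apply_same, add_zero, left_eq_add] at e
      exact (mul_eq_zero.mp e).resolve_left hs0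
  · subst h1; rw [hu.1.2, Matrix.one_apply_eq, sub_self]
  · rw [hu.1.1 (show id j < id i from h1), Matrix.one_apply_ne h1.ne', sub_zero]

/-- The grading merging the middle. -/
def phiMid (a : Fin n) (i : Fin n) : ℕ := if a ≤ i ∧ i ≤ a.rev then (a : ℕ) else (i : ℕ)

theorem phiMid_mono (a : Fin n) : Monotone (phiMid a) := by
  intro i j hij
  have h1 : (i : ℕ) ≤ j := hij
  simp only [phiMid, Fin.le_def]
  split_ifs <;> omega

theorem mid_centric {a : Fin n} (ha : a < a.rev) (ha0 : 0 < (a : ℕ))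
    (hmid : ∀ i, a ≤ i → i ≤ a.rev → i = a ∨ i = a.rev ∨ i.rev = i) {u : G} (hu : u ∈ uu C n)
    (h : ∀ r ∈ radU C (phiMid a) (phiMid_mono a), u * r = r * u) : u ∈ radU C (phiMid a) (phiMid_mono a) := by
  refine ⟨hu, fun i j hij => ?_⟩
  rw [Matrix.sub_apply]
  rcases lt_trichotomy i j with h1 | h1 | h1
  · rw [Matrix.one_apply_ne h1.ne, sub_zero]
    have hij' : (i : ℕ) < j := h1
    have hblock : a ≤ i ∧ j ≤ a.rev := by
      simp only [phiMid, Fin.le_def] at hij
      simp only [Fin.le_def]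
      split_ifs at hij <;> omega
    set b : Fin n := ⟨(a : ℕ) - 1, by omega⟩ with hbdef
    have hba : b < a := by simp [Fin.lt_def, b]; omega
    have hbb : b < b.rev := hba.trans (ha.trans (lt_rev_lt hba))
    have hbr : a ≠ b.rev := half_ne ha hbb
    have hP : pr C b a hba.ne 1 ∈ radU C (phiMid a) (phiMid_mono a) := by
      refine ⟨⟨pr_uni C hba 1, pr_mem C hba.ne hbr hbb.ne ha.ne 1⟩, fun k l hkl => ?_⟩
      rw [pr_val C b a hba.ne ha.ne, add_assoc, add_sub_cancel_left, Matrix.add_apply, Matrix.single_apply,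
        Matrix.single_apply, if_neg, if_neg, add_zero]
      · rintro ⟨rfl, rfl⟩
        simp only [phiMid, Fin.le_def, Fin.val_rev, b] at hkl
        split_ifs at hkl <;> omega
      · rintro ⟨rfl, rfl⟩
        simp only [phiMid, Fin.le_def, Fin.val_rev, b] at hkl
        split_ifs at hkl <;> omega
    have e := Matrix.ext_iff.mpr (congrArg Units.val (h _ hP))
    simp only [Units.val_mul, pr_val C b a hba.ne ha.ne, Matrix.add_mul, Matrix.mul_add, Matrix.one_mul,
      Matrix.mul_one, Matrix.add_apply, map_one] at e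
    rcases eq_or_lt_of_le hblock.1 with rfl | hlt
    · have e1 := e b j
      have hjb : j ≠ b.rev := (lt_of_le_of_lt hblock.2 (lt_rev_lt hba)).ne
      rw [Matrix.mul_single_apply_of_ne (hbj := h1.ne'), Matrix.mul_single_apply_of_ne (hbj := hjb),
        Matrix.single_mul_apply_same, Matrix.single_mul_apply_of_ne _ _ _ _ _
          (hba.trans ha).ne] at e1
      simpa using e1.symm
    · have hir : i < a.rev := h1.trans_le hblock.2
      have hjr : j = a.rev := by
        rcases hmid j (hblock.1.trans h1.le) hblock.2 with e' | e' | e'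
        · exact absurd (e' ▸ h1) (not_lt.mpr hblock.1)
        · exact e'
        · exfalso
          rcases hmid i hblock.1 hir.le with e'' | e'' | e''
          · exact hlt.ne' e''
          · exact hir.ne e''
          · have := congrArg Fin.val e'
            have := congrArg Fin.val e''
            simp only [Fin.val_rev] at *
            omega
      subst hjr
      have e1 := e i b.rev
      rw [Matrix.single_mul_apply_of_ne _ _ _ _ _ (hba.trans hlt).ne',
        Matrix.single_mul_apply_of_ne _ _ _ _ _ hir.ne, Matrix.mul_single_apply_of_ne (hbj := hbr.symm),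
        Matrix.mul_single_apply_same] at e1
      simpa using e1
  · subst h1; rw [hu.1.2, Matrix.one_apply_eq, sub_self]
  · rw [hu.1.1 (show id j < id i from h1), Matrix.one_apply_ne h1.ne', sub_zero]

end Cfsg.Agent.Fusion.PSU
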