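/-
The `p`-fusion system of the quotient of `SU_n`, `n ≥ 4`, by its centre in characteristic `p` is simple.
-/
import Cfsg.Agent.Fusion.SUTorus
import Cfsg.Agent.Fusion.GroupSimpleWeak
import Cfsg.Agent.Fusion.SimpleCriterion
import Cfsg.Agent.Fusion.Alperin
set_option autoImplicit false
set_option linter.unusedSectionVars false

namespace Cfsg.Agent.Fusion.PSU

open Matrix Cfsg Cfsg.FusionSystem Cfsg.Agent.Linear.Unipotent Cfsg.Agent.KnownA.PronormalCharTwo
  Cfsg.Agent.KnownA.PronormalUnitary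

variable {F : Type*} [Field F] [Fintype F] {n : ℕ} (C : Conj F)

local notation "G" => GL (Fin n) F

theorem uniU_val {u : gu C n} : u ∈ uniU C n ↔ (u : G) ∈ uu C n :=
  ⟨fun h => ⟨h, u.2⟩, fun h => h.1⟩

theorem uniU_pGroup (p : ℕ) [Fact p.Prime] [CharP F p] : IsPGroup p (uniU C n) := by
  rintro ⟨⟨u, hu'⟩, hu⟩
  obtain ⟨k, hk⟩ := uu_isPGroup C p ⟨u, hu, hu'⟩
  refine ⟨k, Subtype.ext (Subtype.ext ?_)⟩
  show u ^ p ^ k = 1
  exact congrArg Subtype.val hk

theorem pow_diag {g : G} (hg : g.1.BlockTriangular id) (i : Fin n) :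
    ∀ k : ℕ, (g ^ k).1 i i = g.1 i i ^ k ∧ (g ^ k).1.BlockTriangular id
  | 0 => ⟨by simp, by simpa using blockTriangular_one⟩
  | k + 1 => by
    obtain ⟨h1, h2⟩ := pow_diag hg i k
    refine ⟨?_, ?_⟩
    · rw [pow_succ, diag_mul h2 hg, h1, pow_succ]
    · rw [pow_succ, Units.val_mul]; exact h2.mul hg

/-- A central element of `p`-power order is trivial. -/
theorem center_pElement (p : ℕ) [Fact p.Prime] [CharP F p] (hn : 4 ≤ n) (hc : ∃ x, C.c x ≠ x) {z : gu C n}
    (hz : z ∈ Subgroup.center (gu C n)) {k : ℕ} (hk : z ^ p ^ k = 1) : z = 1 := by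
  have hcomm : ∀ u : G, u ∈ gu C n → u * (z : G) = (z : G) * u := fun u hu =>
    congrArg Subtype.val (Subgroup.mem_center_iff.mp hz ⟨u, hu⟩)
  have hup : (z : G) ∈ upperTriangularGL n F := upper_of_normalizes C hc z.2 fun u hu hu' => by
    rw [mul_assoc, hcomm u hu', inv_mul_cancel_left]; exact hu
  have hconst := diag_const C hc hup fun u _ hu' => (hcomm u hu').symm
  have hd : ∀ i, (z : G).1 i i = 1 := fun i => iterateFrobenius_inj F p k (by
    have h1 : ((z : G) ^ p ^ k : G) = 1 := congrArg Subtype.val hk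
    have h2 := (pow_diag (g := (z : G)) hup i (p ^ k)).1
    rw [h1] at h2
    simp [iterateFrobenius_def, ← h2])
  have huu : (z : G) ∈ uu C n := ⟨⟨hup, hd⟩, z.2⟩
  set a0 : Fin n := ⟨0, by omega⟩
  have h00 : a0 < a0.rev := by rw [Fin.lt_def, Fin.val_rev]; simp [a0]; omega
  obtain ⟨s, hs, e⟩ := center_lg C hn hc huu (fun u hu => hcomm u hu.2) h00.ne
  obtain ⟨t, ht0, ht⟩ := exists_skew C hc
  have h1 : a0.rev ≠ a0.rev.rev := by rw [Fin.rev_rev]; exact h00.ne'
  have h2 := Matrix.ext_iff.mpr (congrArg Units.val (hcomm _ (lg_mem C a0.rev h1 ht))) a0 a0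
  rw [e, Units.val_mul, Units.val_mul, lg_val, lg_val, Fin.rev_rev] at h2
  have h3 : s * t = 0 := by
    simpa [Matrix.add_mul, Matrix.mul_add, h00.ne, h00.ne', Matrix.single_mul_apply_of_ne,
      Matrix.mul_single_apply_of_ne, Matrix.single_apply, a0, eq_comm] using h2
  refine Subtype.ext ?_
  rw [e, (mul_eq_zero.mp h3).resolve_right ht0, lg_zero]
  rfl

variable {P : Type*} [Group P] [Finite P] {p : ℕ} [Fact p.Prime] [CharP F p] {π : gu C n →* P}

/-- The conjugated projection. -/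
def proj (π : gu C n →* P) (g : P) : gu C n →* P := (MulAut.conj g).toMonoidHom.comp π

theorem proj_surjective (hπ : Function.Surjective π) (g : P) : Function.Surjective (proj C π g) :=
  (MulAut.conj g).surjective.comp hπ

theorem proj_eq_iff (hker : ∀ x, π x = 1 ↔ x ∈ Subgroup.center (gu C n)) (g : P) (s t : gu C n) :
    proj C π g s = proj C π g t ↔ ∃ z ∈ Subgroup.center (gu C n), t = s * z := by
  refine ((MulAut.conj g).injective.eq_iff).trans ⟨fun h => ⟨s⁻¹ * t, (hker _).mp ?_, by group⟩, ?_⟩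
  · rw [map_mul, map_inv, h, inv_mul_cancel]
  · rintro ⟨z, hz, rfl⟩
    rw [map_mul, (hker z).mpr hz, mul_one]

theorem mem_uni_of_proj (hn : 4 ≤ n) (hc : ∃ x, C.c x ≠ x) (hker : ∀ x, π x = 1 ↔ x ∈ Subgroup.center (gu C n))
    (g : P) {s : gu C n} {k : ℕ} (hk : s ^ p ^ k = 1) (h : proj C π g s ∈ (uniU C n).map (proj C π g)) :
    s ∈ uniU C n := by
  obtain ⟨v, hv, hvs⟩ := Subgroup.mem_map.mp h
  obtain ⟨z, hz, rfl⟩ := (proj_eq_iff C hker g v s).mp hvs
  obtain ⟨l, hl⟩ := uniU_pGroup C p ⟨v, hv⟩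
  have hl' : v ^ p ^ l = 1 := congrArg Subtype.val hl
  have hcomm : Commute v z := Subgroup.mem_center_iff.mp hz v
  have h1 : (v * z) ^ p ^ (k + l) = 1 := by rw [pow_add, pow_mul, hk, one_pow]
  rw [hcomm.mul_pow, show v ^ p ^ (k + l) = 1 by rw [add_comm, pow_add, pow_mul, hl', one_pow], one_mul] at h1
  rw [center_pElement C p hn hc hz h1, mul_one]; exact hv

include p in
theorem exists_diag_factor (hn : 4 ≤ n) (hc : ∃ x, C.c x ≠ x) (hker : ∀ x, π x = 1 ↔ x ∈ Subgroup.center (gu C n))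
    (g : P) {s : gu C n}
    (h : proj C π g s ∈ Subgroup.normalizer (((uniU C n).map (proj C π g) : Subgroup P) : Set P)) :
    ∃ (d : Fin n → Fˣ) (hd : dg d ∈ gu C n) (v : gu C n), v ∈ uniU C n ∧ s = ⟨dg d, hd⟩ * v ∧
      (s : G).1.BlockTriangular id ∧ ∀ i, (d i : F) = (s : G).1 i i := by
  have hnorm : ∀ u : G, u ∈ unip F n → u ∈ gu C n → (s : G)⁻¹ * u * s ∈ unip F n := by
    intro u hu hu'
    obtain ⟨l, hl⟩ := uniU_pGroup C p ⟨⟨u, hu'⟩, hu⟩
    have hl' : (⟨u, hu'⟩ : gu C n) ^ p ^ l = 1 := congrArg Subtype.val hl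
    refine mem_uni_of_proj C hn hc hker g (s := s⁻¹ * ⟨u, hu'⟩ * s) (k := l) ?_ ?_
    · have := (conj_pow (a := s⁻¹) (b := (⟨u, hu'⟩ : gu C n)) (i := p ^ l))
      rw [inv_inv] at this
      rw [this, hl']; simp
    · rw [map_mul, map_mul, map_inv]
      have h1 : proj C π g ⟨u, hu'⟩ ∈ (uniU C n).map (proj C π g) := Subgroup.mem_map_of_mem _ hu
      have := (Subgroup.mem_normalizer_iff.mp (inv_mem h) _).mp h1
      rwa [inv_inv] at this
  have hup : (s : G) ∈ upperTriangularGL n F := upper_of_normalizes C hc s.2 hnorm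
  obtain ⟨d, u, hu, e⟩ := upper_decomp hup
  obtain ⟨hdf, huf⟩ := torus_decomp C hu (e ▸ ((mem_gu C).1 s.2).1)
  have hud : u.1.det = 1 := by
    rw [Matrix.det_of_isUpperTriangular hu.1]; exact Finset.prod_eq_one fun i _ => hu.2 i
  have hdd : (dg d : G).1.det = 1 := by
    have := ((mem_gu C).1 s.2).2
    rwa [e, Units.val_mul, Matrix.det_mul, hud, mul_one] at this
  refine ⟨d, (mem_gu C).2 ⟨hdf, hdd⟩, ⟨u, (mem_gu C).2 ⟨huf, hud⟩⟩, hu, Subtype.ext e, hup, fun i => ?_⟩
  rw [e, Units.val_mul, dg_mul_apply, hu.2, mul_one]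

theorem scalar_mem_center {d : Fin n → Fˣ} (hd : dg d ∈ gu C n) (hs : ∀ i j, d i = d j) :
    (⟨dg d, hd⟩ : gu C n) ∈ Subgroup.center (gu C n) := by
  refine Subgroup.mem_center_iff.mpr fun x => Subtype.ext (Units.ext (Matrix.ext fun i j => ?_))
  show ((x : G) * dg d).1 i j = (dg d * (x : G)).1 i j
  rw [Units.val_mul, Units.val_mul, dg_mul_apply, dg_val, Matrix.mul_diagonal, hs j i, mul_comm]

theorem exists_proj_sylow (hn : 4 ≤ n) (hc : ∃ x, C.c x ≠ x) (hπ : Function.Surjective π)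
    (hker : ∀ x, π x = 1 ↔ x ∈ Subgroup.center (gu C n)) (S : Sylow p P) :
    ∃ g : P, (S : Subgroup P) = (uniU C n).map (proj C π g) := by
  obtain ⟨Q, hQ⟩ := ((uniU_pGroup C (n := n) p).map (proj C π 1)).exists_le_sylow
  have hQeq : (Q : Subgroup P) = (uniU C n).map (proj C π 1) := by
    by_contra hne
    obtain ⟨x, ⟨hxQ, hxN⟩, hxU⟩ := SetLike.exists_of_lt
      (lt_normalizerIn (S := (Q : Subgroup P)) Q.isPGroup' (lt_of_le_of_ne hQ (Ne.symm hne)))
    obtain ⟨s, rfl⟩ := proj_surjective C hπ 1 x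
    obtain ⟨k, hk⟩ := Q.isPGroup' ⟨_, hxQ⟩
    have hk' : proj C π 1 (s ^ p ^ k) = proj C π 1 1 := by
      rw [map_pow, map_one]; exact congrArg Subtype.val hk
    obtain ⟨z, hz, hzk⟩ := (proj_eq_iff C hker _ _ _).mp hk'
    obtain ⟨d, hd, v, hv, hs, hup, hdiag⟩ := exists_diag_factor C (p := p) hn hc hker 1 hxN
    have hsk : s ^ p ^ k = z⁻¹ := eq_inv_of_mul_eq_one_left hzk.symm
    have hzc := Subgroup.mem_center_iff.mp (inv_mem hz)
    have hzup : ((z⁻¹ : gu C n) : G) ∈ upperTriangularGL n F := by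
      rw [← hsk, SubmonoidClass.coe_pow]; exact pow_mem (show (s : G) ∈ upperTriangularGL n F from hup) _
    have hconst := diag_const C hc hzup fun u _ hu' => (congrArg Subtype.val (hzc ⟨u, hu'⟩)).symm
    have hsame : ∀ i j, d i = d j := fun i j => Units.ext (iterateFrobenius_inj F p k (by
      simp only [iterateFrobenius_def, hdiag]
      rw [← (pow_diag hup i _).1, ← (pow_diag hup j _).1, ← SubmonoidClass.coe_pow, hsk]
      exact hconst i j))
    refine hxU ⟨v, hv, (proj_eq_iff C hker _ _ _).mpr ⟨⟨dg d, hd⟩, scalar_mem_center C hd hsame, ?_⟩⟩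
    rw [hs, Subgroup.mem_center_iff.mp (scalar_mem_center C hd hsame) v]
  obtain ⟨g, rfl⟩ := MulAction.exists_smul_eq P Q S
  refine ⟨g, ?_⟩
  rw [Sylow.coe_subgroup_smul, hQeq]
  show Subgroup.map (MulAut.conj g).toMonoidHom ((uniU C n).map (proj C π 1)) = _
  rw [Subgroup.map_map]
  congr 1
  ext u
  simp [proj]

variable {g : P} {S : Sylow p P}

theorem closed_trivial (hn : 4 ≤ n) (hc : ∃ x, C.c x ≠ x) (hnorm : ∀ r, C.c r = r → ∃ x, x * C.c x = r)
    (hS : (S : Subgroup P) = (uniU C n).map (proj C π g)) {T : Subgroup P}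
    (hT : (groupFusionSystem (S : Subgroup P)).StronglyClosed T) : T = ⊥ ∨ T = (S : Subgroup P) := by
  obtain ⟨T', hT'⟩ : ∃ T' : Subgroup (gu C n), ∀ u : gu C n, u ∈ T' ↔ u ∈ uniU C n ∧ proj C π g u ∈ T :=
    ⟨uniU C n ⊓ T.comap (proj C π g), fun _ => Iff.rfl⟩
  have hTeq : T = T'.map (proj C π g) := by
    refine le_antisymm (fun x hx => ?_) (Subgroup.map_le_iff_le_comap.mpr fun u hu => ((hT' u).1 hu).2)
    obtain ⟨u, hu, rfl⟩ := Subgroup.mem_map.mp (hS ▸ hT.1 hx : x ∈ (uniU C n).map (proj C π g))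
    exact Subgroup.mem_map_of_mem _ ((hT' u).2 ⟨hu, hx⟩)
  by_cases h1 : T' = ⊥
  · left; rw [hTeq, h1, Subgroup.map_bot]
  right
  have ha : T'.map (gu C n).subtype ≤ uu C n := by
    intro y hy
    obtain ⟨u, hu, e⟩ := Subgroup.mem_map.mp hy
    rw [← e]
    exact (uniU_val C).1 ((hT' u).1 hu).1
  have hb : T'.map (gu C n).subtype ≠ ⊥ := fun h => h1
    ((Subgroup.map_eq_bot_iff_of_injective T' (gu C n).subtype_injective).1 h)
  have hcl : ∀ w ∈ gu C n, ∀ y ∈ T'.map (gu C n).subtype, w * y * w⁻¹ ∈ unip F n →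
      w * y * w⁻¹ ∈ T'.map (gu C n).subtype := by
    intro w hw y hy hwy
    obtain ⟨x, hx, e⟩ := Subgroup.mem_map.mp hy
    rw [Subgroup.subtype_apply] at e
    subst e
    obtain ⟨W, rfl⟩ : ∃ W : gu C n, (W : G) = w := ⟨⟨w, hw⟩, rfl⟩
    obtain ⟨z, hzd⟩ : ∃ z : gu C n, z = W * x * W⁻¹ := ⟨_, rfl⟩
    have hzv : (z : G) = (W : G) * (x : G) * (W : G)⁻¹ := by
      rw [hzd, Subgroup.coe_mul, Subgroup.coe_mul, Subgroup.coe_inv]
    have hz : z ∈ uniU C n := Subgroup.mem_subgroupOf.mpr (hzv ▸ hwy)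
    have hmem : proj C π g z ∈ (S : Subgroup P) := by
      rw [hS]; exact Subgroup.mem_map_of_mem _ hz
    have hm : proj C π g z ∈ T := by
      rw [hzd, map_mul, map_mul, map_inv] at hmem ⊢
      exact stronglyClosed_conj_mem hT ((hT' x).1 hx).2 hmem (_root_.isConj_iff.mpr ⟨_, rfl⟩)
    rw [← hzv]
    exact Subgroup.mem_map_of_mem (gu C n).subtype ((hT' z).2 (And.intro hz hm))
  have h2 : T'.map (gu C n).subtype = uu C n := eq_uu C p hn hc hnorm ha hb hcl
  have h3 : T' = uniU C n := by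
    refine le_antisymm (fun u hu => ((hT' u).1 hu).1) fun u hu => ?_
    have h4 : (u : G) ∈ T'.map (gu C n).subtype := by rw [h2]; exact (uniU_val C).1 hu
    obtain ⟨v, hv, e⟩ := Subgroup.mem_map.mp h4
    rwa [← (gu C n).subtype_injective e]
  rw [hTeq, h3, hS]

theorem centric_map (hn : 4 ≤ n) (hc : ∃ x, C.c x ≠ x) (hker : ∀ x, π x = 1 ↔ x ∈ Subgroup.center (gu C n))
    (hS : (S : Subgroup P) = (uniU C n).map (proj C π g))
    {R : Subgroup (gu C n)} (hR : R ≤ uniU C n) (hRn : ∀ u ∈ uniU C n, ∀ r ∈ R, u * r * u⁻¹ ∈ R)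
    (hC : ∀ u ∈ uniU C n, (∀ r ∈ R, u * r = r * u) → u ∈ R) :
    (groupFusionSystem (S : Subgroup P)).IsCentric (R.map (proj C π g)) := by
  set T : Subgroup P := (S : Subgroup P)
  have hTp : IsPGroup p T := S.isPGroup'
  have hRT : R.map (proj C π g) ≤ T := hS ▸ Subgroup.map_mono hR
  have hTR : T ≤ Subgroup.normalizer ((R.map (proj C π g) : Subgroup P) : Set P) := by
    intro x hx
    obtain ⟨a, ha, rfl⟩ := Subgroup.mem_map.mp (hS ▸ hx : x ∈ (uniU C n).map (proj C π g))
    refine Subgroup.mem_normalizer_fintype fun y hy => ?_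
    obtain ⟨u, hu, rfl⟩ := Subgroup.mem_map.mp hy
    exact ⟨a * u * a⁻¹, hRn a ha u hu, by rw [map_mul, map_mul, map_inv]⟩
  have hfn : (groupFusionSystem T).IsFullyNormalized (R.map (proj C π g)) := by
    refine ⟨hRT, fun Q hQ => ?_⟩
    have e : normalizerIn T (R.map (proj C π g)) = T := le_antisymm normalizerIn_le fun x hx => ⟨hx, hTR hx⟩
    rw [e]
    exact card_le_of_le normalizerIn_le
  refine isCentric_of_fullyCentralized hTp (groupFusion_saturated S)
    (IsSaturated_fullyNormalized hTp (groupFusion_saturated S) hfn).1 fun x hx => ?_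
  obtain ⟨u, hu, rfl⟩ := Subgroup.mem_map.mp (hS ▸ hx.1 : x ∈ (uniU C n).map (proj C π g))
  refine Subgroup.mem_map_of_mem _ (hC u hu fun r hr => ?_)
  have h1 := hx.2 _ (Subgroup.mem_map_of_mem (proj C π g) hr)
  rw [← map_mul, ← map_mul] at h1
  obtain ⟨z, hz, he⟩ := (proj_eq_iff C hker g _ _).mp h1
  obtain ⟨k, hk⟩ := uniU_pGroup C p ⟨_, mul_mem (inv_mem (mul_mem (hR hr) hu)) (mul_mem hu (hR hr))⟩
  have hz' : (r * u)⁻¹ * (u * r) = z := by rw [he]; group
  rw [center_pElement C p hn hc hz (k := k) (hz' ▸ congrArg Subtype.val hk), mul_one] at he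
  exact he

theorem mor_closure {E : FusionSystem (S : Subgroup P)}
    (hE : E.IsWeaklyNormalIn (groupFusionSystem (S : Subgroup P)) p) {R : Subgroup P}
    (hR : R ≤ (S : Subgroup P)) {A : Set P}
    (hA : ∀ a ∈ A, a ∈ Subgroup.normalizer (R : Set P) ∧ ∃ k : ℕ, orderOf a = p ^ k) {x : P}
    (hx : x ∈ Subgroup.closure A) : x ∈ Subgroup.normalizer (R : Set P) ∧ Mor E R (cj x) := by
  induction hx using Subgroup.closure_induction with
  | mem a ha =>
    obtain ⟨h1, k, hk⟩ := hA a ha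
    exact ⟨h1, weaklyNormal_pElement S hE hR h1 hk⟩
  | one => exact ⟨one_mem _, (Mor.id' hR).congr fun y _ => by simp⟩
  | mul a b _ _ iha ihb =>
    exact ⟨mul_mem iha.1 ihb.1, (ihb.2.comp iha.2 fun y hy => (cj_mem_iff ihb.1 y).mpr hy).congr
      fun y _ => (cj_mul a b y).symm⟩
  | inv a _ ih =>
    refine ⟨inv_mem ih.1, ?_⟩
    obtain ⟨m, hm⟩ : ∃ m : ℕ, a⁻¹ = a ^ m := ⟨orderOf a - 1, by
      rw [inv_eq_iff_mul_eq_one, ← pow_succ', Nat.sub_add_cancel (orderOf_pos a), pow_orderOf_eq_one]⟩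
    have hpow : ∀ m : ℕ, Mor E R (cj (a ^ m)) := by
      intro m
      induction m with
      | zero => exact (Mor.id' hR).congr fun y _ => by simp
      | succ m ihm =>
        exact (ih.2.comp ihm fun y hy => (cj_mem_iff ih.1 y).mpr hy).congr fun y _ => by
          rw [pow_succ]; exact (cj_mul _ a y).symm
    rw [hm]; exact hpow m

theorem automizer (hn : 4 ≤ n) (hc : ∃ x, C.c x ≠ x) (hnorm : ∀ r, C.c r = r → ∃ x, x * C.c x = r)
    (hπ : Function.Surjective π) (hker : ∀ x, π x = 1 ↔ x ∈ Subgroup.center (gu C n))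
    (hS : (S : Subgroup P) = (uniU C n).map (proj C π g))
    (E : FusionSystem (S : Subgroup P))
    (hE : E.IsWeaklyNormalIn (groupFusionSystem (S : Subgroup P)) p)
    (x : P) (hx : x ∈ Subgroup.normalizer ((S : Subgroup P) : Set P)) :
    Mor E (S : Subgroup P) (cj x) := by
  have hTp : IsPGroup p (S : Subgroup P) := S.isPGroup'
  have hI := groupFusion_inducedBy (S : Subgroup P)
  have pord : ∀ u : gu C n, ∀ k : ℕ, u ^ p ^ k = 1 → ∃ i : ℕ, orderOf (proj C π g u) = p ^ i := by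
    intro u k hk
    obtain ⟨i, -, hi⟩ := (Nat.dvd_prime_pow (Fact.out : p.Prime)).mp
      (orderOf_dvd_of_pow_eq_one (show proj C π g u ^ p ^ k = 1 by rw [← map_pow, hk, map_one]))
    exact ⟨i, hi⟩
  let C₀ : Submonoid P :=
    { carrier := {y | y ∈ Subgroup.normalizer ((S : Subgroup P) : Set P) ∧ Mor E (S : Subgroup P) (cj y)}
      one_mem' := ⟨one_mem _, (Mor.id' le_rfl).congr fun y _ => by simp⟩
      mul_mem' := by
        rintro a b ⟨ha, ha'⟩ ⟨hb, hb'⟩
        exact ⟨mul_mem ha hb, (hb'.comp ha' fun y hy => (cj_mem_iff hb y).mpr hy).congr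
          fun y _ => (cj_mul a b y).symm⟩ }
  let K : Subgroup (gu C n) :=
    { toSubmonoid := C₀.comap (proj C π g)
      inv_mem' := fun {y} hy => by
        show proj C π g y⁻¹ ∈ C₀
        rw [map_inv]
        obtain ⟨m, hm⟩ : ∃ m : ℕ, (proj C π g y)⁻¹ = (proj C π g y) ^ m :=
          ⟨orderOf (proj C π g y) - 1, by
            rw [inv_eq_iff_mul_eq_one, ← pow_succ', Nat.sub_add_cancel (orderOf_pos _), pow_orderOf_eq_one]⟩
        rw [hm]; exact pow_mem hy m }
  -- conjugation by `U` and by torus elements preserves the Sylow subgroup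
  have hUn : ∀ h : gu C n, (h : G) ∈ upperTriangularGL n F →
      proj C π g h ∈ Subgroup.normalizer ((S : Subgroup P) : Set P) := by
    intro h hh
    refine Subgroup.mem_normalizer_fintype fun y hy => ?_
    obtain ⟨u, hu, rfl⟩ := Subgroup.mem_map.mp (hS ▸ hy : y ∈ (uniU C n).map (proj C π g))
    rw [SetLike.mem_coe, hS]
    exact ⟨h * u * h⁻¹, unip_normal hh hu, by rw [map_mul, map_mul, map_inv]⟩
  -- the source of elements of `K`
  have src : ∀ (φ : Fin n → ℕ) (hφ : Monotone φ),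
      (∀ u ∈ uu C n, (∀ r ∈ radU C φ hφ, u * r = r * u) → u ∈ radU C φ hφ) →
      ∀ A : Set (gu C n), (∀ a ∈ A, (a : G).1.BlockTriangular φ ∧ ∃ k : ℕ, orderOf (proj C π g a) = p ^ k) →
      ∀ h : gu C n, h ∈ Subgroup.closure A → (h : G) ∈ upperTriangularGL n F → h ∈ K := by
    intro φ hφ hcent A hA h hh hup
    set R : Subgroup (gu C n) := (radU C φ hφ).subgroupOf (gu C n)
    have hR : R ≤ uniU C n := fun r hr => hr.1.1
    have hmem : proj C π g h ∈ Subgroup.closure (proj C π g '' A) := by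
      rw [← MonoidHom.map_closure]; exact Subgroup.mem_map_of_mem _ hh
    obtain ⟨h1, h2⟩ := mor_closure hE (hS ▸ Subgroup.map_mono hR : R.map (proj C π g) ≤ (S : Subgroup P))
      (A := proj C π g '' A) (by
      rintro _ ⟨a, ha, rfl⟩
      refine ⟨Subgroup.mem_normalizer_fintype fun y hy => ?_, (hA a ha).2⟩
      obtain ⟨r, hr, rfl⟩ := Subgroup.mem_map.mp hy
      exact ⟨a * r * a⁻¹, radU_conj C hφ a.2 (hA a ha).1 hr, by rw [map_mul, map_mul, map_inv]⟩) hmem
    refine ⟨hUn h hup, weaklyNormal_extend hTp (groupFusion_saturated S) hI hE (hUn h hup)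
      (centric_map C hn hc hker hS hR ?_ ?_) h1 h2⟩
    · exact fun u hu r hr => radU_conj C hφ u.2 (bt_of_unip hφ hu) hr
    · intro u hu hcomm
      exact hcent u ((uniU_val C).1 hu) fun r hr =>
        congrArg Subtype.val (hcomm ⟨r, (radU_le C φ hφ hr).2⟩ hr)
  have hUK : ∀ u ∈ uniU C n, u ∈ K := by
    intro u hu
    obtain ⟨k, hk⟩ := uniU_pGroup C p ⟨u, hu⟩
    obtain ⟨i, hi⟩ := pord u k (congrArg Subtype.val hk)
    exact src phiHalf phiHalf_mono (fun _ h1 h2 => half_centric C hc h1 h2) {u}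
      (by rintro a rfl; exact ⟨bt_of_unip phiHalf_mono hu, i, hi⟩) u (Subgroup.subset_closure rfl) hu.1
  -- short coroots
  have hshort : ∀ (a b : Fin n) (hab : a ≠ b) (ha : a < a.rev) (hb : b < b.rev) (t : Fˣ),
      (⟨dg (hVec C a b t), hShort_mem C hab ha hb t⟩ : gu C n) ∈ K := by
    intro a b hab ha hb t
    have hm1 : ∀ y, pr C a b hab y ∈ gu C n := fun y => pr_mem C hab (half_ne hb ha) ha.ne hb.ne y
    have hm2 : ∀ y, pr C b a hab.symm y ∈ gu C n := fun y => pr_mem C hab.symm (half_ne ha hb) hb.ne ha.ne y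
    refine src phiHalf phiHalf_mono (fun _ h1 h2 => half_centric C hc h1 h2)
      (Set.range (fun y => (⟨_, hm1 y⟩ : gu C n)) ∪ Set.range (fun y => (⟨_, hm2 y⟩ : gu C n))) ?_ _ ?_ ?_
    · have har : ∀ c : Fin n, c < c.rev → phiHalf c.rev = 2 := fun c hc => by
        simp [phiHalf, hc.ne', not_lt.mpr hc.le, Fin.rev_rev]
      have ha0 : ∀ c : Fin n, c < c.rev → phiHalf c = 0 := fun c hc => by simp [phiHalf, hc]
      have key : ∀ (a b : Fin n) (hab : a ≠ b), a < a.rev → b < b.rev → ∀ y : F,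
          (pr C a b hab y).1.BlockTriangular phiHalf ∧ pr C a b hab y ^ p = 1 := by
        intro a b hab ha hb y
        refine ⟨?_, ?_⟩
        · rw [pr, Units.val_mul]
          exact (el_bt hab (by rw [ha0 a ha, ha0 b hb]) y).mul
            (el_bt _ (by rw [har a ha, har b hb]) _)
        · have hmul : ∀ m : ℕ, pr C a b hab y ^ m = pr C a b hab (m * y) := by
            intro m
            induction m with
            | zero => rw [pow_zero, Nat.cast_zero, zero_mul, pr_zero C hab hb.ne]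
            | succ m ih => rw [pow_succ, ih, pr_add C hab ha.ne hb.ne, Nat.cast_succ, add_mul, one_mul]
          rw [hmul, CharP.cast_eq_zero, zero_mul, pr_zero C hab hb.ne]
      rintro _ (⟨y, rfl⟩ | ⟨y, rfl⟩)
      · exact ⟨(key a b hab ha hb y).1, pord _ 1 (Subtype.ext (by rw [pow_one]; exact (key a b hab ha hb y).2))⟩
      · exact ⟨(key b a hab.symm hb ha y).1,
          pord _ 1 (Subtype.ext (by rw [pow_one]; exact (key b a hab.symm hb ha y).2))⟩
    · have e : (⟨dg (hVec C a b t), hShort_mem C hab ha hb t⟩ : gu C n) =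
          ⟨_, hm1 (t : F)⟩ * ⟨_, hm2 (-(t : F)⁻¹)⟩ * ⟨_, hm1 (t : F)⟩ * ⟨_, hm1 (-1)⟩ * ⟨_, hm2 1⟩ * ⟨_, hm1 (-1)⟩ :=
        Subtype.ext (hShort_eq C hab ha hb t)
      rw [e]
      refine mul_mem (mul_mem (mul_mem (mul_mem (mul_mem ?_ ?_) ?_) ?_) ?_) ?_ <;>
        first
        | exact Subgroup.subset_closure (Or.inl ⟨_, rfl⟩)
        | exact Subgroup.subset_closure (Or.inr ⟨_, rfl⟩)
    · exact blockTriangular_diagonal _
  -- the last index below the middle
  set a : Fin n := ⟨(n - 2) / 2, by omega⟩ with hadef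
  have haa : a < a.rev := by rw [Fin.lt_def, Fin.val_rev]; simp [a]; omega
  have hapos : 0 < (a : ℕ) := by simp [a]; omega
  have hmid : ∀ i, a ≤ i → i ≤ a.rev → i = a ∨ i = a.rev ∨ i.rev = i := by
    intro i h1 h2
    simp only [Fin.le_def, Fin.val_rev, Fin.ext_iff, a] at *
    omega
  have hlast : ∀ (d : Fin n → Fˣ) (hd : dg d ∈ gu C n), (∀ i, i < a → d i = 1) → (⟨dg d, hd⟩ : gu C n) ∈ K := by
    intro d hd hone
    have hdf := ((mem_gu C).1 hd).1
    have hrev : ∀ i, (d i.rev : F) = (C.c (d i : F))⁻¹ := torus_rev C hdf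
    have hone' : ∀ i, i ≠ a → i ≠ a.rev → i.rev ≠ i → d i = 1 := by
      intro i h1 h2 h3
      rcases lt_or_ge i a with h | h
      · exact hone i h
      rcases le_or_gt i a.rev with h' | h'
      · rcases hmid i h h' with e | e | e
        · exact absurd e h1
        · exact absurd e h2
        · exact absurd e h3
      · have h4 : i.rev < a := by have := lt_rev_lt h'; rwa [Fin.rev_rev] at this
        apply Units.ext
        have := hrev i.rev
        rw [Fin.rev_rev, hone _ h4] at this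
        simpa using this
    have hdet : ∏ i, (d i : F) = 1 := by
      have := ((mem_gu C).1 hd).2
      rwa [dg_val, Matrix.det_diagonal] at this
    have hphi : ∀ i, a ≤ i → i ≤ a.rev → phiMid a i = (a : ℕ) := fun i h1 h2 => by simp [phiMid, h1, h2]
    have hcm : ∀ u ∈ uu C n, (∀ r ∈ radU C (phiMid a) (phiMid_mono a), u * r = r * u) →
        u ∈ radU C (phiMid a) (phiMid_mono a) := fun u h1 h2 => mid_centric C haa hapos hmid h1 h2
    by_cases hodd : ∃ o : Fin n, o.rev = o
    · obtain ⟨o, ho⟩ := hodd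
      have hou : ∀ i : Fin n, i.rev = i → i = o := fun i hi => by
        have h1 := congrArg Fin.val hi
        have h2 := congrArg Fin.val ho
        simp only [Fin.val_rev] at h1 h2
        exact Fin.ext (by omega)
      have hao : a < o := by
        have h2 := congrArg Fin.val ho
        simp only [Fin.val_rev] at h2
        simp [Fin.lt_def, a]; omega
      have hoar : o ≤ a.rev := by have := lt_rev_lt hao; rw [ho] at this; exact this.le
      obtain ⟨s₀, hs₀⟩ := exists_md_param C 1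
      have hs₀0 : s₀ ≠ 0 := fun e => by simp [e] at hs₀
      set s := (d a : F) * s₀ with hsdef
      have hs0 : s ≠ 0 := mul_ne_zero (d a).ne_zero hs₀0
      obtain ⟨c, hc'⟩ := hnorm (-(s + C.c s)) (by rw [map_neg, map_add, C.invol, add_comm])
      have hs : s + C.c s + c * C.c c = 0 := by rw [hc']; ring
      obtain ⟨m1, m2, m3⟩ := nMid_mem C hao.ne haa.ne ho hs0 hs
      obtain ⟨l1, l2, l3⟩ := nMid_mem C hao.ne haa.ne ho hs₀0 hs₀
      obtain ⟨μ, hμ⟩ := nMid_ratio C hao.ne haa.ne ho hou hs0 hs₀0 hs hs₀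
      have hn1 : nMid C hao.ne haa.ne ho c s ∈ gu C n := mul_mem (mul_mem m1 m2) m3
      have hn0 : nMid C hao.ne haa.ne ho 1 s₀ ∈ gu C n := mul_mem (mul_mem l1 l2) l3
      let A : Set (gu C n) := {x | (x : G).1.BlockTriangular (phiMid a) ∧ x ^ p ^ n = 1}
      have hA1 : ∀ (b e : Fin n) (hbe : b ≠ e), a ≤ b → b ≤ a.rev → a ≤ e → e ≤ a.rev → ∀ y : F,
          (el b e hbe y : G).1.BlockTriangular (phiMid a) :=
        fun b e hbe h1 h2 h3 h4 y => el_bt hbe (by rw [hphi b h1 h2, hphi e h3 h4]) y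
      have hmdA : ∀ (b : Fin n) (hb : b ≠ o) (hb' : b ≠ b.rev) (h1 : a ≤ b) (h2 : b ≤ a.rev)
          (h3 : a ≤ b.rev) (h4 : b.rev ≤ a.rev) (c s : F),
          (md C b o hb hb' ho c s).1.BlockTriangular (phiMid a) := by
        intro b hb hb' h1 h2 h3 h4 c s
        rw [md, Units.val_mul, Units.val_mul]
        exact ((hA1 _ _ _ h1 h2 hao.le hoar c).mul (hA1 _ _ _ hao.le hoar h3 h4 _)).mul
          (hA1 _ _ _ h1 h2 h3 h4 _)
      have hcl : ∀ (b : Fin n) (hb : b ≠ o) (hb' : b ≠ b.rev), a ≤ b → b ≤ a.rev → a ≤ b.rev → b.rev ≤ a.rev →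
          ∀ (c s : F) (hm : md C b o hb hb' ho c s ∈ gu C n),
          (⟨_, hm⟩ : gu C n) ∈ Subgroup.closure
            {x : gu C n | (x : G).1.BlockTriangular (phiMid a) ∧ ∃ k : ℕ, orderOf (proj C π g x) = p ^ k} := by
        intro b hb hb' h1 h2 h3 h4 c s hm
        refine Subgroup.subset_closure ⟨hmdA b hb hb' h1 h2 h3 h4 c s, pord _ n (Subtype.ext ?_)⟩
        show md C b o hb hb' ho c s ^ p ^ n = 1
        refine Units.ext ?_
        rw [Units.val_pow_eq_pow_val, Units.val_one, md_val]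
        set X : Matrix (Fin n) (Fin n) F :=
          Matrix.single b o c + Matrix.single o b.rev (-C.c c) + Matrix.single b b.rev s with hX
        have hX3 : X ^ 3 = 0 := by
          have e1 : b.rev ≠ o := fun e => hb (Fin.rev_inj.mp (e.trans ho.symm))
          rw [pow_succ, pow_two, hX]
          simp only [Matrix.add_mul, Matrix.mul_add, Matrix.single_mul_single_same,
            Matrix.single_mul_single_of_ne _ _ _ _ hb.symm, Matrix.single_mul_single_of_ne _ _ _ _ hb'.symm,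
            Matrix.single_mul_single_of_ne _ _ _ _ e1, add_zero, zero_add, Matrix.zero_mul]
        have hpn : 3 ≤ p ^ n := le_trans (by omega : 3 ≤ n) ((Nat.lt_pow_self (Fact.out : p.Prime).one_lt).le)
        rw [add_assoc, add_assoc, ← add_assoc (Matrix.single b o c), ← hX]
        haveI : CharP (Matrix (Fin n) (Fin n) F) p := by
          haveI : Nonempty (Fin n) := ⟨a⟩
          exact inferInstance
        rw [add_pow_char_pow_of_commute (p := p) (h := Commute.one_left X), one_pow,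
          show X ^ p ^ n = 0 from by
            rw [show p ^ n = 3 + (p ^ n - 3) by omega, pow_add, hX3, zero_mul], add_zero]
      have hcases : a ≤ a.rev := haa.le
      have hrr : a.rev ≠ a.rev.rev := by rw [Fin.rev_rev]; exact haa.ne'
      have hn1' : (⟨_, hn1⟩ : gu C n) ∈ Subgroup.closure
          {x : gu C n | (x : G).1.BlockTriangular (phiMid a) ∧ ∃ k : ℕ, orderOf (proj C π g x) = p ^ k} := by
        rw [show (⟨_, hn1⟩ : gu C n) = ⟨_, m1⟩ * ⟨_, m2⟩ * ⟨_, m3⟩ from rfl]
        refine mul_mem (mul_mem (hcl a hao.ne haa.ne le_rfl hcases hcases le_rfl _ _ m1)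
          (hcl a.rev _ hrr hcases le_rfl (by rw [Fin.rev_rev]) (by rw [Fin.rev_rev]; exact hcases) _ _ m2))
          (hcl a hao.ne haa.ne le_rfl hcases hcases le_rfl _ _ m3)
      have hn0' : (⟨_, hn0⟩ : gu C n) ∈ Subgroup.closure
          {x : gu C n | (x : G).1.BlockTriangular (phiMid a) ∧ ∃ k : ℕ, orderOf (proj C π g x) = p ^ k} := by
        rw [show (⟨_, hn0⟩ : gu C n) = ⟨_, l1⟩ * ⟨_, l2⟩ * ⟨_, l3⟩ from rfl]
        refine mul_mem (mul_mem (hcl a hao.ne haa.ne le_rfl hcases hcases le_rfl _ _ l1)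
          (hcl a.rev _ hrr hcases le_rfl (by rw [Fin.rev_rev]) (by rw [Fin.rev_rev]; exact hcases) _ _ l2))
          (hcl a hao.ne haa.ne le_rfl hcases hcases le_rfl _ _ l3)
      set h := lVec C a (Units.mk0 (s / s₀) (div_ne_zero hs0 hs₀0)) μ with hh
      have hhg : dg h ∈ gu C n := by
        have := mul_mem hn1 (inv_mem hn0)
        rwa [hμ, mul_inv_cancel_right] at this
      have heq : d = h := by
        have hoff : ∀ i, i.rev ≠ i → d i = h i := by
          intro i hi
          by_cases h1 : i = a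
          · subst h1
            apply Units.ext
            simp [h, lVec, hsdef, hs₀0]
          by_cases h2 : i = a.rev
          · subst h2
            apply Units.ext
            simp [h, lVec, hsdef, hs₀0, h1, hrev]
          rw [hone' i h1 h2 hi]
          simp [h, lVec, h1, h2, hi]
        have hdet' : ∏ i, (h i : F) = 1 := by
          have := ((mem_gu C).1 hhg).2
          rwa [dg_val, Matrix.det_diagonal] at this
        funext i
        by_cases hi : i.rev = i
        · apply Units.ext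
          rw [← Finset.mul_prod_erase _ _ (Finset.mem_univ i)] at hdet hdet'
          rw [Finset.prod_congr rfl (fun j hj => by
            rw [hoff j fun e => Finset.ne_of_mem_erase hj ((hou j e).trans (hou i hi).symm)])] at hdet
          have hne : ∏ j ∈ Finset.univ.erase i, (h j : F) ≠ 0 :=
            Finset.prod_ne_zero_iff.mpr fun j _ => (h j).ne_zero
          exact mul_right_cancel₀ hne (hdet.trans hdet'.symm)
        · exact hoff i hi
      rw [show (⟨dg d, hd⟩ : gu C n) = ⟨dg h, hhg⟩ from Subtype.ext (congrArg dg heq)]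
      refine src (phiMid a) (phiMid_mono a) hcm
        {x : gu C n | (x : G).1.BlockTriangular (phiMid a) ∧ ∃ k : ℕ, orderOf (proj C π g x) = p ^ k}
        (fun x hx => hx) _ ?_ (blockTriangular_diagonal _)
      have := mul_mem hn1' (inv_mem hn0')
      convert this using 1
      refine Subtype.ext ?_
      show dg h = nMid C hao.ne haa.ne ho c s * (nMid C hao.ne haa.ne ho 1 s₀)⁻¹
      rw [hμ, mul_inv_cancel_right]
    · push Not at hodd
      have hfix : C.c (d a : F) = d a := by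
        rw [← Finset.prod_subset (Finset.subset_univ {a, a.rev}) (fun i _ hi => by
          simp only [Finset.mem_insert, Finset.mem_singleton, not_or] at hi
          rw [hone' i hi.1 hi.2 (hodd i), Units.val_one]), Finset.prod_pair haa.ne, hrev] at hdet
        have hne : C.c (d a : F) ≠ 0 := fun e => (d a).ne_zero (by rw [← C.invol (d a : F), e, map_zero])
        exact ((mul_inv_eq_one₀ hne).mp hdet).symm
      obtain ⟨s₀, hs₀0, hs₀⟩ := exists_skew C hc
      set s := (d a : F) * s₀ with hsdef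
      have hs0 : s ≠ 0 := mul_ne_zero (d a).ne_zero hs₀0
      have hs : s + C.c s = 0 := by rw [hsdef, map_mul, hfix]; linear_combination (d a : F) * hs₀
      have hrr : a.rev ≠ a.rev.rev := by rw [Fin.rev_rev]; exact haa.ne'
      have hneg : ∀ {s : F}, s + C.c s = 0 → -s⁻¹ + C.c (-s⁻¹) = 0 := by
        intro s hs
        rw [map_neg, map_inv₀, eq_neg_of_add_eq_zero_right hs, inv_neg, neg_neg, neg_add_cancel]
      have hcl : ∀ (b : Fin n) (hb' : b ≠ b.rev), a ≤ b → b ≤ a.rev → a ≤ b.rev → b.rev ≤ a.rev →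
          ∀ (s : F) (hm : lg b hb' s ∈ gu C n),
          (⟨_, hm⟩ : gu C n) ∈ Subgroup.closure
            {x : gu C n | (x : G).1.BlockTriangular (phiMid a) ∧ ∃ k : ℕ, orderOf (proj C π g x) = p ^ k} := by
        intro b hb' h1 h2 h3 h4 s hm
        refine Subgroup.subset_closure ⟨el_bt hb' (by rw [hphi b h1 h2, hphi b.rev h3 h4]) s,
          pord _ 1 (Subtype.ext ?_)⟩
        show lg b hb' s ^ p ^ 1 = 1
        have hmul : ∀ m : ℕ, (lg b hb' s : G) ^ m = lg b hb' (m * s) := by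
          intro m
          induction m with
          | zero => rw [pow_zero, Nat.cast_zero, zero_mul, lg_zero]
          | succ m ih => rw [pow_succ, ih, lg_add, Nat.cast_succ, add_mul, one_mul]
        rw [hmul, pow_one, CharP.cast_eq_zero, zero_mul, lg_zero]
      have e := lgWeyl_ratio C haa.ne hodd hs0 hs₀0 hs hs₀
      have heq : d = lVec C a (Units.mk0 (s / s₀) (div_ne_zero hs0 hs₀0)) 1 := by
        funext i
        by_cases h1 : i = a
        · subst h1
          apply Units.ext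
          simp [lVec, hsdef, hs₀0]
        by_cases h2 : i = a.rev
        · subst h2
          apply Units.ext
          simp [lVec, hsdef, hs₀0, h1, hrev]
        rw [hone' i h1 h2 (hodd i)]
        simp [lVec, h1, h2, hodd i]
      refine src (phiMid a) (phiMid_mono a) hcm
        {x : gu C n | (x : G).1.BlockTriangular (phiMid a) ∧ ∃ k : ℕ, orderOf (proj C π g x) = p ^ k}
        (fun x hx => hx) _ ?_ (blockTriangular_diagonal _)
      have hw : ∀ (s : F) (hs : s + C.c s = 0),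
          (⟨_, lg_mem C a haa.ne hs⟩ * ⟨_, lg_mem C a.rev hrr (hneg hs)⟩ * ⟨_, lg_mem C a haa.ne hs⟩ : gu C n) ∈
            Subgroup.closure
              {x : gu C n | (x : G).1.BlockTriangular (phiMid a) ∧ ∃ k : ℕ, orderOf (proj C π g x) = p ^ k} :=
        fun s hs => mul_mem (mul_mem (hcl a haa.ne le_rfl haa.le haa.le le_rfl _ _)
          (hcl a.rev hrr haa.le le_rfl (by rw [Fin.rev_rev]) (by rw [Fin.rev_rev]; exact haa.le) _ _))
          (hcl a haa.ne le_rfl haa.le haa.le le_rfl _ _)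
      convert mul_mem (hw s hs) (inv_mem (hw s₀ hs₀)) using 1
      refine Subtype.ext ?_
      show dg d = lg a haa.ne s * lg a.rev hrr (-s⁻¹) * lg a haa.ne s *
        (lg a haa.ne s₀ * lg a.rev hrr (-s₀⁻¹) * lg a haa.ne s₀)⁻¹
      rw [e, mul_inv_cancel_right, heq]
  -- every torus element
  have htor : ∀ (d : Fin n → Fˣ) (hd : dg d ∈ gu C n), (⟨dg d, hd⟩ : gu C n) ∈ K := by
    suffices H : ∀ k : ℕ, k ≤ (a : ℕ) → ∀ (d : Fin n → Fˣ) (hd : dg d ∈ gu C n),
        (∀ i : Fin n, (i : ℕ) < (a : ℕ) - k → d i = 1) → (⟨dg d, hd⟩ : gu C n) ∈ K from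
      fun d hd => H a le_rfl d hd fun i hi => absurd hi (by omega)
    intro k
    induction k with
    | zero => intro _ d hd h; exact hlast d hd fun i hi => h i (by have : (i : ℕ) < a := hi; omega)
    | succ k ih =>
      intro hk d hd h
      set b : Fin n := ⟨(a : ℕ) - (k + 1), by omega⟩ with hb
      set b' : Fin n := ⟨(a : ℕ) - k, by omega⟩ with hb'
      have hba : b ≤ a := by simp [Fin.le_def, b]
      have hb'a : b' ≤ a := by simp [Fin.le_def, b']
      have hbb' : b ≠ b' := by simp [Fin.ext_iff, b, b']; omega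
      have hbh : b < b.rev := hba.trans_lt (haa.trans_le (Fin.rev_le_rev.mpr hba))
      have hb'h : b' < b'.rev := hb'a.trans_lt (haa.trans_le (Fin.rev_le_rev.mpr hb'a))
      have hd' : dg (d * hVec C b b' (d b)⁻¹) ∈ gu C n := by
        rw [map_mul]; exact mul_mem hd (hShort_mem C hbb' hbh hb'h _)
      have h1 := ih (by omega) _ hd' fun i hi => by
        have hia : i < a := by rw [Fin.lt_def]; omega
        by_cases hib : i = b
        · subst hib; simp [hVec]
        · have h2 : i ≠ b' := fun e => by rw [e] at hi; simp [b'] at hi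
          have h3 : i ≠ b'.rev := half_ne (hia.trans (haa.trans (lt_rev_lt hia))) hb'h
          have h4 : i ≠ b.rev := half_ne (hia.trans (haa.trans (lt_rev_lt hia))) hbh
          rw [Pi.mul_apply, h i (by have : (i : ℕ) ≠ a - (k + 1) := fun e => hib (Fin.ext e); omega), one_mul]
          simp [hVec, hib, h2, h3, h4]
      have e : (⟨dg d, hd⟩ : gu C n) =
          ⟨dg (d * hVec C b b' (d b)⁻¹), hd'⟩ * (⟨_, hShort_mem C hbb' hbh hb'h (d b)⁻¹⟩ : gu C n)⁻¹ := by
        rw [eq_mul_inv_iff_mul_eq]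
        exact Subtype.ext ((map_mul dg _ _).symm)
      rw [e]
      exact mul_mem h1 (inv_mem (hshort b b' hbb' hbh hb'h _))
  obtain ⟨s, rfl⟩ := proj_surjective C hπ g x
  obtain ⟨d, hd, v, hv, rfl, -, -⟩ := exists_diag_factor C (p := p) hn hc hker g (hS ▸ hx)
  exact (mul_mem (htor d hd) (hUK v hv)).2

/-- The `p`-fusion system of the central quotient of `SU_n`, `n ≥ 4`, is simple. -/
theorem isSimple (hn : 4 ≤ n) (hc : ∃ x, C.c x ≠ x) (hnorm : ∀ r, C.c r = r → ∃ x, x * C.c x = r)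
    (hπ : Function.Surjective π) (hker : ∀ x, π x = 1 ↔ x ∈ Subgroup.center (gu C n)) (S : Sylow p P) :
    (groupFusionSystem (S : Subgroup P)).IsSimple p := by
  obtain ⟨g, hS⟩ := exists_proj_sylow C hn hc hπ hker S
  refine group_isSimple_of_extend S ?_ (fun T hT => closed_trivial C hn hc hnorm hS hT)
    (automizer C hn hc hnorm hπ hker hS)
  intro h
  set a0 : Fin n := ⟨0, by omega⟩
  have h00 : a0 < a0.rev := by rw [Fin.lt_def, Fin.val_rev]; simp [a0]; omega
  obtain ⟨s, hs0, hs⟩ := exists_skew C hc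
  set u : gu C n := ⟨lg a0 h00.ne s, lg_mem C a0 h00.ne hs⟩
  have hu : u ∈ uniU C n := lg_uni h00 s
  have h1 : proj C π g u ∈ (S : Subgroup P) := hS ▸ Subgroup.mem_map_of_mem _ hu
  rw [h, Subgroup.mem_bot] at h1
  obtain ⟨z, hz, he⟩ := (proj_eq_iff C hker g u 1).mp (by rw [h1, map_one])
  obtain ⟨k, hk⟩ := uniU_pGroup C p ⟨_, inv_mem hu⟩
  have hz' : z = u⁻¹ := eq_inv_of_mul_eq_one_right he.symm
  rw [center_pElement C p hn hc hz (k := k) (hz' ▸ congrArg Subtype.val hk), mul_one] at he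
  have h2 := congrFun (congrFun (congrArg (fun x : gu C n => (x : G).1) he) a0) a0.rev
  simp [u, lg_val, h00.ne, hs0.symm] at h2

end Cfsg.Agent.Fusion.PSU
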