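/-
`PSU_n` as the central quotient of the special unitary group of the anti-diagonal form, and the simplicity of its
fusion system in the characteristic.
-/
import Cfsg.Agent.Fusion.SUSimple
import Cfsg.Agent.KnownA.Pronormal.UnitaryMain
import Cfsg.Agent.KnownA.UnitaryElems
set_option autoImplicit false
set_option linter.unusedSectionVars false

namespace Cfsg.Agent.Fusion.PSU

open Matrix Cfsg Cfsg.Agent.Forms Cfsg.Agent.KnownA.PronormalCharTwo Cfsg.Agent.KnownA.PronormalUnitary

variable {F : Type*} [Field F] [Fintype F] {q n : ℕ}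

theorem exists_form_change (hF : Fintype.card F = q ^ 2) (C : Conj F) (hC : C.c = frobQ hF)
    (hnorm : ∀ r, C.c r = r → ∃ x, x * C.c x = r) :
    ∃ P : GL (Fin n) F, ∀ g : GL (Fin n) F, g ∈ unit (frobQ hF) (Fin n) ↔ P⁻¹ * g * P ∈ fixed C := by
  obtain ⟨α, hα⟩ := hnorm (-1) (by rw [map_neg, map_one])
  set t := C.s with htdef
  have ht : t + C.c t = 1 := C.trace_s
  have htt : C.c t = 1 - t := eq_sub_of_add_eq' ht
  have hα' : C.c α * α = -1 := by rw [mul_comm, hα]
  -- an isotropic basis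
  let Pm : Matrix (Fin n) (Fin n) F := Matrix.of fun i j =>
    if j.rev = j then (if i = j then 1 else 0)
    else if j < j.rev then (if i = j then 1 else 0) + (if i = j.rev then α else 0)
    else (if i = j.rev then 1 - t else 0) + (if i = j then -(t * α) else 0)
  set J : Matrix (Fin n) (Fin n) F := Linear.Unipotent.permMat F Fin.revPerm with hJ
  have hJJ : J * J = 1 := by
    rw [hJ, Linear.Unipotent.permMat_mul, show (Fin.revPerm : Equiv.Perm (Fin n)) * Fin.revPerm = 1 by ext i; simp,
      Linear.Unipotent.permMat_one]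
  have hPJ : (Pm.map C.c)ᵀ * Pm = J := by
    ext i j
    rw [Matrix.mul_apply]
    have hsupp : ∀ k, k ≠ j → k ≠ j.rev → Pm k j = 0 := fun k h1 h2 => by simp [Pm, h1, h2]
    simp only [hJ, Linear.Unipotent.permMat, Matrix.transpose_apply, Matrix.map_apply, Fin.revPerm_apply]
    by_cases hj : j.rev = j
    · rw [Finset.sum_eq_single j (fun k _ hk => by rw [hsupp k hk (hj.symm ▸ hk), mul_zero])
        (fun h => absurd (Finset.mem_univ j) h)]
      by_cases hij : i = j
      · subst hij; simp [Pm, hj]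
      · have h1 : i.rev ≠ j := fun e => hij (by rw [← Fin.rev_rev i, e, hj])
        by_cases hi : i.rev = i
        · simp [Pm, hj, hij, hi, Ne.symm hij, h1]
        · simp [Pm, hj, hij, hi, Ne.symm hij, h1, Ne.symm h1]
    have hne : j ≠ j.rev := Ne.symm hj
    rw [Fintype.sum_eq_add j j.rev hne fun k hk => by rw [hsupp k hk.1 hk.2, mul_zero]]
    by_cases hij : i = j
    · subst hij
      by_cases hlt : i < i.rev
      · simp [Pm, hlt, hne, hne.symm, hj]
        linear_combination hα'
      · simp [Pm, hlt, hne, hne.symm, hj, htt]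
        linear_combination (1 - t) * t * hα'
    by_cases hij' : i = j.rev
    · subst hij'
      by_cases hlt : j < j.rev
      · have hlt' : ¬ j.rev < j := lt_asymm hlt
        simp [Pm, hlt, hlt', hne, hne.symm, hj, htt, Fin.rev_rev]
        linear_combination (t - 1) * hα'
      · have hlt' : j.rev < j := lt_of_le_of_ne (not_lt.1 hlt) hne.symm
        simp [Pm, hlt, hlt', hne, hne.symm, hj, htt, Fin.rev_rev]
        linear_combination (-t) * hα'
    have h1 : j ≠ i.rev := fun e => hij' (by rw [e, Fin.rev_rev])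
    by_cases hi : i.rev = i
    · simp [Pm, hij, Ne.symm hij, hij', Ne.symm hij', h1, Ne.symm h1, hi]
    · simp [Pm, hij, Ne.symm hij, hij', Ne.symm hij', h1, Ne.symm h1, hi, Fin.rev_inj]
  have hPdet : Pm.det ≠ 0 := fun e => by
    have h := congrArg Matrix.det hPJ
    rw [Matrix.det_mul, e, mul_zero] at h
    have h' := congrArg Matrix.det hJJ
    rw [Matrix.det_mul, ← h, mul_zero, Matrix.det_one] at h'
    exact zero_ne_one h'
  let P : GL (Fin n) F := GeneralLinearGroup.mkOfDetNeZero Pm hPdet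
  have hPv : P.1 = Pm := rfl
  have key : ∀ g : GL (Fin n) F, g ∈ unit (frobQ hF) (Fin n) ↔ P⁻¹ * g * P ∈ fixed C := by
    intro g
    have hPi : ((P⁻¹).1.map C.c)ᵀ * J * (P⁻¹).1 = 1 := by
      rw [← hPJ, ← hPv, show ((P⁻¹).1.map C.c)ᵀ * ((P.1.map C.c)ᵀ * P.1) * (P⁻¹).1 =
        ((P.1 * (P⁻¹).1).map C.c)ᵀ * (P.1 * (P⁻¹).1) by
          rw [Matrix.map_mul, Matrix.transpose_mul]; simp only [Matrix.mul_assoc], P.mul_inv]
      simp
    have e : ((P⁻¹ * g * P).1.map C.c)ᵀ * J * (P⁻¹ * g * P).1 =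
        (Pm.map C.c)ᵀ * ((g.1.map C.c)ᵀ * g.1) * Pm := by
      rw [Units.val_mul, Units.val_mul, Matrix.map_mul, Matrix.map_mul, Matrix.transpose_mul, Matrix.transpose_mul,
        hPv, show (Pm.map C.c)ᵀ * ((g.1.map C.c)ᵀ * ((P⁻¹).1.map C.c)ᵀ) * J * ((P⁻¹).1 * g.1 * Pm) =
          (Pm.map C.c)ᵀ * ((g.1.map C.c)ᵀ * (((P⁻¹).1.map C.c)ᵀ * J * (P⁻¹).1) * g.1) * Pm by
          simp only [Matrix.mul_assoc], hPi, Matrix.mul_one]
    have hswap : ∀ A : Matrix (Fin n) (Fin n) F, Aᵀ * A.map C.c = 1 ↔ (A.map C.c)ᵀ * A = 1 := fun A => by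
      constructor <;> intro h <;> have h2 := congrArg (fun M : Matrix (Fin n) (Fin n) F => Mᵀ) h <;>
        simpa [Matrix.transpose_mul] using h2
    rw [mem_unit, ← hC, hswap, mem_fixed_iff, adj_eq, ← hJ]
    constructor
    · intro h
      rw [h, Matrix.mul_one, hPJ] at e
      rw [Matrix.mul_assoc J, Matrix.mul_assoc J, e, hJJ]
    · intro h
      have h2 : ((P⁻¹ * g * P).1.map C.c)ᵀ * J * (P⁻¹ * g * P).1 = J := by
        have := congrArg (fun M => J * M) h
        simp only [← Matrix.mul_assoc, hJJ, Matrix.one_mul, Matrix.mul_one] at this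
        exact this
      rw [e] at h2
      have hPJ' := hPJ
      rw [← Matrix.mul_one (Pm.map C.c)ᵀ] at hPJ'
      have hu : IsUnit Pm := P.isUnit
      have hu' : IsUnit (Pm.map C.c)ᵀ := by
        rw [Matrix.isUnit_iff_isUnit_det, Matrix.det_transpose, show (Pm.map C.c).det = C.c Pm.det from
          (RingHom.map_det C.c Pm).symm]
        exact (isUnit_iff_ne_zero.2 (fun e => hPdet ((map_eq_zero _).1 e)))
      exact hu'.mul_left_cancel (hu.mul_right_cancel (h2.trans hPJ'.symm))
  exact ⟨P, key⟩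

/-- The `p`-fusion system of `PSU_n(q)`, `n ≥ 4`, in the characteristic is simple. -/
theorem isSimple_PSU (hF : Fintype.card F = q ^ 2) (p : ℕ) [Fact p.Prime] [CharP F p] (hn : 4 ≤ n)
    (S : Sylow p (Cfsg.PSU n F q)) :
    (Cfsg.groupFusionSystem (S : Subgroup (Cfsg.PSU n F q))).IsSimple p := by
  obtain ⟨C, hC⟩ := exists_conj hF
  have hnorm : ∀ r, C.c r = r → ∃ x, x * C.c x = r := fun r hr => by
    rw [hC] at hr ⊢; exact KnownA.exists_norm hF r hr
  have hc : ∃ x, C.c x ≠ x := by
    by_contra h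
    push Not at h
    refine frobQ_ne_id hF ?_
    rw [← hC]
    ext x
    exact h x
  obtain ⟨P, key⟩ := exists_form_change (n := n) hF C hC hnorm
  let f : Cfsg.SU n F q →* GL (Fin n) F := (MulAut.conj P⁻¹).toMonoidHom.comp (suGL n F q)
  have hfv : ∀ x, f x = P⁻¹ * suGL n F q x * P := fun x => by simp [f]
  have hf : ∀ x, f x ∈ gu C n := fun x => by
    refine (mem_gu C).2 ⟨by rw [hfv]; exact (key _).1 (suGL_mem hF x).1, ?_⟩
    have h1 : GeneralLinearGroup.det (f x) = 1 := by
      rw [hfv, map_mul, map_mul, map_inv, (suGL_mem hF x).2]; group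
    exact congrArg Units.val h1
  have hfb : Function.Bijective (f.codRestrict (gu C n) hf) := by
    refine ⟨fun a b h => suGL_injective ((MulAut.conj P⁻¹).injective (congrArg Subtype.val h)), fun g => ?_⟩
    obtain ⟨hg, hd⟩ := (mem_gu C).1 g.2
    have h1 : P * (g : GL (Fin n) F) * P⁻¹ ∈ unit (frobQ hF) (Fin n) := (key _).2 (by
      rwa [show P⁻¹ * (P * (g : GL (Fin n) F) * P⁻¹) * P = g by group])
    obtain ⟨x, hx⟩ := suGL_surj hF h1 (by
      have : GeneralLinearGroup.det (g : GL (Fin n) F) = 1 := Units.ext hd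
      simp [this])
    exact ⟨x, Subtype.ext (by show f x = _; rw [hfv, hx]; group)⟩
  let φ : Cfsg.SU n F q ≃* gu C n := MulEquiv.ofBijective _ hfb
  refine isSimple C hn hc hnorm
    (π := (QuotientGroup.mk' (Subgroup.center (Cfsg.SU n F q))).comp φ.symm.toMonoidHom)
    ((QuotientGroup.mk'_surjective _).comp φ.symm.surjective) (fun x => ?_) S
  rw [MonoidHom.comp_apply, QuotientGroup.mk'_apply, QuotientGroup.eq_one_iff, MulEquiv.coe_toMonoidHom,
    Subgroup.mem_center_iff, Subgroup.mem_center_iff]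
  constructor
  · intro h y
    have := congrArg φ (h (φ.symm y))
    simpa using this
  · intro h y
    have := congrArg φ.symm (h (φ y))
    simpa using this

end Cfsg.Agent.Fusion.PSU
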