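/-
The unipotent radical of a Borel subgroup of `Sp_{2m}`, the Levi and radical embeddings of the Siegel parabolic,
and the reflection at the long fundamental root.
-/
import Cfsg.Agent.Forms.SiegelParabolic
import Cfsg.Agent.KnownB.Proj.Symp.Lang
import Cfsg.Agent.KnownB.AutPSL.Transv
set_option autoImplicit false

namespace Cfsg.Agent.Fusion.PSp

open Matrix Cfsg.Agent.KnownB Cfsg.Agent.KnownB.AutPSL Cfsg.Agent.Forms

variable {m : ℕ} {F : Type*} [Field F]

local notation "Spm" => Matrix.symplecticGroup (Fin m) F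
local notation "Mat" => Matrix (Fin m) (Fin m) F
local notation "SLm" => Matrix.SpecialLinearGroup (Fin m) F
local notation "Mm" => Matrix (Fin m ⊕ Fin m) (Fin m ⊕ Fin m) F

/-- The symmetric matrices. -/
def symM (m : ℕ) (F : Type*) [Field F] : AddSubgroup (Matrix (Fin m) (Fin m) F) where
  carrier := {S | S.IsSymm}
  zero_mem' := isSymm_zero
  add_mem' := IsSymm.add
  neg_mem' := IsSymm.neg

theorem congr_isSymm (a : Mat) {S : Mat} (hS : S.IsSymm) : (a * S * aᵀ).IsSymm := by
  rw [IsSymm, transpose_mul, transpose_mul, transpose_transpose, hS.eq, Matrix.mul_assoc]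

/-- The unipotent radical of the Siegel parabolic. -/
def nil : Multiplicative (symM m F) →* Spm where
  toFun S := ⟨fromBlocks 1 S.toAdd.1 0 1, fromBlocks_mem_symplectic.2
    ⟨by rw [transpose_one, Matrix.one_mul], by rw [transpose_one, Matrix.one_mul]; exact S.toAdd.2⟩⟩
  map_one' := Subtype.ext fromBlocks_one
  map_mul' S T := Subtype.ext (by
    show fromBlocks 1 (S.toAdd.1 + T.toAdd.1) 0 1 = fromBlocks 1 S.toAdd.1 0 1 * fromBlocks 1 T.toAdd.1 0 1
    rw [fromBlocks_multiply]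
    simp [add_comm])

/-- The Levi subgroup of the Siegel parabolic. -/
def lev : GL (Fin m) F →* Spm where
  toFun a := ⟨fromBlocks (a : Mat) 0 0 ((↑a⁻¹ : Mat))ᵀ, fromBlocks_mem_symplectic.2
    ⟨by rw [← transpose_mul, Units.inv_mul, transpose_one], by rw [Matrix.mul_zero]; exact isSymm_zero⟩⟩
  map_one' := Subtype.ext (by simp [fromBlocks_one])
  map_mul' a b := Subtype.ext (by
    show _ = fromBlocks (a : Mat) 0 0 ((↑a⁻¹ : Mat))ᵀ * fromBlocks (b : Mat) 0 0 ((↑b⁻¹ : Mat))ᵀ
    rw [fromBlocks_multiply]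
    simp [transpose_mul])

/-- The radical element of a symmetric matrix. -/
def nilS (S : Mat) (hS : S.IsSymm) : Spm := nil (Multiplicative.ofAdd ⟨S, hS⟩)

theorem nilS_val (S : Mat) (hS : S.IsSymm) : (nilS S hS).1 = fromBlocks 1 S 0 1 := rfl

theorem nilS_congr {S T : Mat} (h : S = T) (hS : S.IsSymm) : nilS S hS = nilS T (h ▸ hS) := by
  subst h; rfl

theorem nilS_mul {S T : Mat} (hS : S.IsSymm) (hT : T.IsSymm) :
    nilS S hS * nilS T hT = nilS (S + T) (hS.add hT) := (map_mul _ _ _).symm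

theorem nilS_inv {S : Mat} (hS : S.IsSymm) : (nilS S hS)⁻¹ = nilS (-S) hS.neg := (map_inv _ _).symm

theorem nilS_injective {S T : Mat} {hS : S.IsSymm} {hT : T.IsSymm} (h : nilS S hS = nilS T hT) : S = T := by
  have := congrArg Subtype.val h
  simp only [nilS_val, fromBlocks_inj] at this
  exact this.2.1

theorem lev_val (a : GL (Fin m) F) : (lev a).1 = fromBlocks (a : Mat) 0 0 ((↑a⁻¹ : Mat))ᵀ := rfl

/-- Conjugation by the Levi subgroup. -/
theorem lev_conj (a : GL (Fin m) F) {S : Mat} (hS : S.IsSymm) :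
    lev a * nilS S hS * (lev a)⁻¹ = nilS ((a : Mat) * S * (a : Mat)ᵀ) (congr_isSymm _ hS) := by
  rw [mul_inv_eq_iff_eq_mul]
  refine Subtype.ext ?_
  show (lev a).1 * (nilS S hS).1 = (nilS _ (congr_isSymm _ hS)).1 * (lev a).1
  rw [lev_val, nilS_val, nilS_val, fromBlocks_multiply, fromBlocks_multiply]
  simp [Matrix.mul_assoc, ← transpose_mul]

theorem lev_mul_nilS_val (a : GL (Fin m) F) {S : Mat} (hS : S.IsSymm) :
    (lev a * nilS S hS).1 = fromBlocks (a : Mat) ((a : Mat) * S) 0 ((↑a⁻¹ : Mat))ᵀ := by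
  show (lev a).1 * (nilS S hS).1 = _
  rw [lev_val, nilS_val, fromBlocks_multiply]
  simp

/-- Every element stabilising the Lagrangian subspace splits. -/
theorem exists_lev_nilS {g : Spm} (h : g.1.toBlocks₂₁ = 0) :
    ∃ (a : GL (Fin m) F) (S : Mat) (hS : S.IsSymm), g = lev a * nilS S hS := by
  obtain ⟨⟨a, S, hS⟩, rfl⟩ := exists_siegelElt h
  exact ⟨a, S, hS, Subtype.ext (lev_mul_nilS_val a hS).symm⟩

/-- The unipotent radical of the Borel subgroup. -/
def uniSp (m : ℕ) (F : Type*) [Field F] : Subgroup (Matrix.symplecticGroup (Fin m) F) where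
  carrier := {g | ∃ a ∈ upperUni m F, ∃ (S : Matrix (Fin m) (Fin m) F) (hS : S.IsSymm),
    g = lev (SpecialLinearGroup.toGL a) * nilS S hS}
  one_mem' := ⟨1, one_mem _, 0, isSymm_zero, by
    rw [map_one, map_one, one_mul]; exact (map_one (nil (m := m) (F := F))).symm⟩
  mul_mem' := by
    rintro _ _ ⟨a, ha, S, hS, rfl⟩ ⟨b, hb, T, hT, rfl⟩
    set b' := SpecialLinearGroup.toGL b with hb'
    refine ⟨a * b, mul_mem ha hb, _, (congr_isSymm (↑b'⁻¹) hS).add hT, ?_⟩
    rw [map_mul, map_mul, ← nilS_mul (congr_isSymm _ hS) hT, ← lev_conj b'⁻¹ hS, map_inv, ← hb']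
    group
  inv_mem' := by
    rintro _ ⟨a, ha, S, hS, rfl⟩
    set a' := SpecialLinearGroup.toGL a with ha'
    refine ⟨a⁻¹, inv_mem ha, _, (congr_isSymm (↑a' : Matrix (Fin m) (Fin m) F) hS).neg, ?_⟩
    rw [map_inv, map_inv, ← nilS_inv (congr_isSymm _ hS), ← lev_conj a' hS, ← ha']
    group

theorem nilS_mem {S : Mat} (hS : S.IsSymm) : nilS S hS ∈ uniSp m F :=
  ⟨1, one_mem _, S, hS, by rw [map_one, map_one, one_mul]⟩

theorem lev_mem {a : SLm} (ha : a ∈ upperUni m F) : lev (SpecialLinearGroup.toGL a) ∈ uniSp m F :=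
  ⟨a, ha, 0, isSymm_zero, by
    rw [show nilS (0 : Mat) isSymm_zero = 1 from map_one (nil (m := m) (F := F)), mul_one]⟩

theorem blocks_of_mem {g : Spm} (hg : g ∈ uniSp m F) :
    g.1.toBlocks₂₁ = 0 ∧ ∀ i j : Fin m, j ≤ i → g.1.toBlocks₁₁ i j = if i = j then 1 else 0 := by
  obtain ⟨a, ha, S, hS, rfl⟩ := hg
  rw [lev_mul_nilS_val, toBlocks_fromBlocks₂₁, toBlocks_fromBlocks₁₁]
  exact ⟨rfl, ha⟩

theorem mem_of_blocks {g : Spm} (h : g.1.toBlocks₂₁ = 0)
    (h' : ∀ i j : Fin m, j ≤ i → g.1.toBlocks₁₁ i j = if i = j then 1 else 0) : g ∈ uniSp m F := by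
  obtain ⟨a, S, hS, rfl⟩ := exists_lev_nilS h
  rw [lev_mul_nilS_val, toBlocks_fromBlocks₁₁] at h'
  have hdet : (a : Mat).det = 1 := by
    rw [Matrix.det_of_upperTriangular (fun i j (hji : j < i) => by rw [h' i j hji.le, if_neg hji.ne'])]
    exact Finset.prod_eq_one fun i _ => by rw [h' i i le_rfl, if_pos rfl]
  exact ⟨⟨(a : Mat), hdet⟩, h', S, hS, by
    rw [show SpecialLinearGroup.toGL (⟨(a : Mat), hdet⟩ : SLm) = a from Units.ext rfl]⟩

/-- The last row of a unitriangular matrix. -/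
theorem last_row {a : SLm} (ha : a ∈ upperUni m F) {b : Fin m} (hb : ∀ i, i ≤ b) (j : Fin m) :
    a.1 b j = if b = j then 1 else 0 := ha b j (hb j)

theorem pow_eq_one_of_mem [Fintype F] (p : ℕ) [Fact p.Prime] [CharP F p] :
    IsPGroup p (uniSp m F) := by
  rintro ⟨_, a, ha, S, hS, rfl⟩
  obtain ⟨k, hk⟩ := isPGroup_upperUni p (n := m) (F := F) ⟨a, ha⟩
  have hk' : (SpecialLinearGroup.toGL a) ^ p ^ k = 1 := by
    rw [← map_pow, show a ^ p ^ k = 1 from congrArg Subtype.val hk, map_one]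
  set a' := SpecialLinearGroup.toGL a
  have hpow : ∀ n : ℕ, ∃ (T : Mat) (hT : T.IsSymm), (lev a' * nilS S hS) ^ n = lev (a' ^ n) * nilS T hT := by
    intro n
    induction n with
    | zero =>
      exact ⟨0, isSymm_zero, by
        rw [pow_zero, pow_zero, map_one, one_mul]; exact (map_one (nil (m := m) (F := F))).symm⟩
    | succ n ih =>
      obtain ⟨T, hT, e⟩ := ih
      refine ⟨_, (congr_isSymm (↑(a'⁻¹)) hT).add hS, ?_⟩
      rw [pow_succ, e, ← nilS_mul (congr_isSymm _ hT) hS, ← lev_conj a'⁻¹ hT, map_inv, pow_succ, map_mul]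
      group
  obtain ⟨T, hT, e⟩ := hpow (p ^ k)
  refine ⟨k + 1, Subtype.ext ?_⟩
  rw [SubmonoidClass.coe_pow, pow_succ, pow_mul, e, hk', map_one, one_mul, nilS, ← map_pow, ← ofAdd_nsmul,
    show p • (⟨T, hT⟩ : symM m F) = 0 from Subtype.ext (by
      show p • T = 0
      rw [← Nat.cast_smul_eq_nsmul F, CharP.cast_eq_zero, zero_smul]),
    ofAdd_zero, map_one]
  rfl

/-- Only scalar elements centralise; central elements square to one. -/
theorem center_val (hm : 1 ≤ m) {z : Spm} (hz : z ∈ Subgroup.center Spm) :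
    ∃ k : F, k * k = 1 ∧ z.1 = k • (1 : Mm) := by
  obtain ⟨k, -, hv⟩ := KnownB.Proj.Symp.center_scalar hm hz
  have e : z.1 = k • (1 : Mm) :=
    Matrix.ext_of_mulVec_single fun i => by rw [hv, Matrix.smul_mulVec, Matrix.one_mulVec]
  refine ⟨k, ?_, e⟩
  have h := congrArg Subtype.val (KnownB.Proj.Symp.center_sq hz)
  rw [Submonoid.coe_mul, e] at h
  have h0 := congrFun (congrFun h (.inl ⟨0, hm⟩)) (.inl ⟨0, hm⟩)
  simpa using h0

/-- A central element of `p`-power order is trivial. -/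
theorem center_pElement (p : ℕ) [Fact p.Prime] [CharP F p] (hm : 1 ≤ m) {z : Spm}
    (hz : z ∈ Subgroup.center Spm) {k : ℕ} (hk : z ^ p ^ k = 1) : z = 1 := by
  obtain ⟨c, hc, e⟩ := center_val hm hz
  have h1 : c ^ p ^ k = 1 := by
    have h := congrArg Subtype.val hk
    rw [SubmonoidClass.coe_pow, e, smul_pow, one_pow, Submonoid.coe_one] at h
    have h0 := congrFun (congrFun h (.inl ⟨0, hm⟩)) (.inl ⟨0, hm⟩)
    simpa using h0
  have hc1 : c = 1 := iterateFrobenius_inj F p k (by simp [iterateFrobenius_def, h1])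
  exact Subtype.ext (by rw [e, hc1, one_smul]; rfl)

/-- The symmetric elementary matrix. -/
def pairM (i j : Fin m) (t : F) : Mat := Matrix.single i j t + Matrix.single j i t

theorem pairM_isSymm (i j : Fin m) (t : F) : (pairM i j t).IsSymm := by
  rw [IsSymm, pairM, transpose_add, transpose_single, transpose_single, add_comm]

theorem single_isSymm (i : Fin m) (t : F) : (Matrix.single i i t).IsSymm := by
  rw [IsSymm, transpose_single]

/-- An element normalising `uniSp` is block upper triangular with triangular diagonal blocks. -/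
theorem upper_of_normalizes (hm : 2 ≤ m) {g : Spm} (h : ∀ u ∈ uniSp m F, g⁻¹ * u * g ∈ uniSp m F) :
    g.1.toBlocks₂₁ = 0 ∧ ∀ i j : Fin m, j < i → g.1.toBlocks₁₁ i j = 0 := by
  have key : ∀ j : Fin m, (∀ i, g.1 (.inr i) (.inl j) = 0) ∧ ∀ i, j < i → g.1 (.inl i) (.inl j) = 0 := by
    intro j
    induction hn : (j : ℕ) using Nat.strong_induction_on generalizing j with
    | _ n IH => ?_
    have ih : ∀ c, c < j → (∀ i, g.1 (.inr i) (.inl c) = 0) ∧ ∀ i, c < i → g.1 (.inl i) (.inl c) = 0 :=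
      fun c hc => IH c (hn ▸ hc) c rfl
    subst hn
    have hdiff : ∀ u ∈ uniSp m F,
        (∀ i, (u.1 * g.1) (.inr i) (.inl j) = g.1 (.inr i) (.inl j)) ∧
        ∀ i, j ≤ i → (u.1 * g.1) (.inl i) (.inl j) = g.1 (.inl i) (.inl j) := by
      intro u hu
      obtain ⟨h21, h11⟩ := blocks_of_mem (h u hu)
      set u' := g⁻¹ * u * g with hu'
      have e : u.1 * g.1 = g.1 * u'.1 := by
        rw [← Submonoid.coe_mul, ← Submonoid.coe_mul, hu', ← mul_assoc, mul_inv_cancel_left]
      have hsum : ∀ r : Fin m ⊕ Fin m,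
          (∀ c < j, g.1 r (.inl c) = 0) → (g.1 * u'.1) r (.inl j) = g.1 r (.inl j) := by
        intro r hr
        rw [Matrix.mul_apply, Fintype.sum_sum_type, Finset.sum_eq_single j, Finset.sum_eq_zero, add_zero]
        · rw [show u'.1 (.inl j) (.inl j) = 1 by simpa [toBlocks₁₁] using h11 j j le_rfl, mul_one]
        · intro c _
          rw [show u'.1 (.inr c) (.inl j) = 0 from congrFun (congrFun h21 c) j, mul_zero]
        · intro c _ hc
          rcases lt_or_gt_of_ne hc with hlt | hgt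
          · rw [hr c hlt, zero_mul]
          · rw [show u'.1 (.inl c) (.inl j) = 0 by simpa [toBlocks₁₁, hgt.ne'] using h11 c j hgt.le, mul_zero]
        · simp
      refine ⟨fun i => ?_, fun i hi => ?_⟩
      · rw [e]; exact hsum _ fun c hc => (ih c hc).1 i
      · rw [e]; exact hsum _ fun c hc => (ih c hc).2 i (hc.trans_le hi)
    have hN : ∀ (S : Mat) (hS : S.IsSymm) (i : Fin m), j ≤ i →
        ∑ c, S i c * g.1 (.inr c) (.inl j) = 0 := by
      intro S hS i hi
      have h1 := (hdiff _ (nilS_mem hS)).2 i hi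
      rw [nilS_val, Matrix.mul_apply, Fintype.sum_sum_type] at h1
      simpa [Matrix.one_apply] using h1
    have hinr : ∀ c, g.1 (.inr c) (.inl j) = 0 := by
      intro c
      rcases eq_or_ne c j with rfl | hc
      · have h1 := hN _ (single_isSymm c 1) c le_rfl
        simpa [Matrix.single_apply, ite_mul] using h1
      · have h1 := hN _ (pairM_isSymm j c 1) j le_rfl
        simpa [pairM, Matrix.single_apply, ite_mul, hc, hc.symm, add_mul, Finset.sum_add_distrib] using h1
    refine ⟨hinr, fun i hi => ?_⟩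
    have ht : SpecialLinearGroup.transvection hi.ne (1 : F) ∈ upperUni m F := by
      intro a b hba
      show Matrix.transvection j i (1 : F) a b = _
      rw [Matrix.transvection, Matrix.add_apply, Matrix.one_apply, Matrix.single_apply, if_neg
        (fun e : j = a ∧ i = b => absurd (e.1 ▸ e.2 ▸ hi) (not_lt.mpr hba)), add_zero]
    have h1 := (hdiff _ (lev_mem ht)).2 j le_rfl
    rw [lev_val, Matrix.mul_apply, Fintype.sum_sum_type, show ((SpecialLinearGroup.toGL
      (SpecialLinearGroup.transvection hi.ne (1 : F)) : GL (Fin m) F) : Mat) = Matrix.transvection j i 1 from rfl] at h1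
    have h2 : (Matrix.transvection j i (1 : F) * g.1.toBlocks₁₁) j j = g.1.toBlocks₁₁ j j := by
      rw [Matrix.mul_apply]
      simpa [toBlocks₁₁] using h1
    rw [Matrix.transvection_mul_apply_same, one_mul, add_eq_left] at h2
    exact h2
  exact ⟨Matrix.ext fun i j => (key j).1 i, fun i j hji => (key j).2 i hji⟩

end Cfsg.Agent.Fusion.PSp
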