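/-
The monomial element exchanging `e_b` and `f_b` in `Sp_{2m}`, the unipotent radical it normalises for the
last index, and the coroot elements of the long root.
-/
import Cfsg.Agent.Fusion.SpUni
set_option autoImplicit false

namespace Cfsg.Agent.Fusion.PSp

open Matrix Cfsg.Agent.KnownB Cfsg.Agent.KnownB.AutPSL Cfsg.Agent.Forms

variable {m : ℕ} {F : Type*} [Field F]

local notation "Spm" => Matrix.symplecticGroup (Fin m) F
local notation "Mat" => Matrix (Fin m) (Fin m) F
local notation "Mm" => Matrix (Fin m ⊕ Fin m) (Fin m ⊕ Fin m) F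

/-- Exchange of the two copies of `b`. -/
def wIdx (b : Fin m) : Fin m ⊕ Fin m → Fin m ⊕ Fin m
  | .inl i => if i = b then .inr i else .inl i
  | .inr i => if i = b then .inl i else .inr i

/-- Signs. -/
def wSgn (b : Fin m) : Fin m ⊕ Fin m → F
  | .inl i => if i = b then -1 else 1
  | .inr _ => 1

theorem wIdx_wIdx (b : Fin m) (x : Fin m ⊕ Fin m) : wIdx b (wIdx b x) = x := by
  rcases x with i | i <;> by_cases h : i = b <;> simp [wIdx, h]

theorem wSgn_sq (b : Fin m) (x : Fin m ⊕ Fin m) : wSgn (F := F) b x * wSgn b x = 1 := by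
  rcases x with i | i <;> by_cases h : i = b <;> simp [wSgn, h]

/-- The monomial matrix. -/
def wMat (b : Fin m) : Mm := Matrix.of fun x z => if z = wIdx b x then wSgn b x else 0

theorem wMat_conj (b : Fin m) (M : Mm) (x y : Fin m ⊕ Fin m) :
    (wMat b * M * (wMat b)ᵀ : Mm) x y = wSgn b x * wSgn b y * M (wIdx b x) (wIdx b y) := by
  rw [Matrix.mul_apply, Finset.sum_eq_single (wIdx b y)]
  · rw [Matrix.mul_apply, Finset.sum_eq_single (wIdx b x)]
    · simp [wMat]; ring
    · intro z _ hz; simp [wMat, hz]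
    · simp
  · intro z _ hz; simp [wMat, hz]
  · simp

theorem wMat_mul_transpose (b : Fin m) : wMat b * (wMat b)ᵀ = (1 : Mm) := by
  ext x y
  have h := wMat_conj b (1 : Mm) x y
  rw [Matrix.mul_one] at h
  rw [h]
  by_cases hxy : x = y
  · subst hxy; rw [Matrix.one_apply_eq, Matrix.one_apply_eq, mul_one, wSgn_sq]
  · have : wIdx b x ≠ wIdx b y := fun e => hxy (by rw [← wIdx_wIdx b x, e, wIdx_wIdx])
    simp [hxy, this]

theorem wMat_mem (b : Fin m) : wMat b ∈ Spm := by
  rw [SymplecticGroup.mem_iff]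
  ext x y
  rw [wMat_conj]
  rcases x with i | i <;> rcases y with k | k <;> by_cases hi : i = b <;> by_cases hk : k = b <;>
    by_cases hik : i = k <;> simp_all [Matrix.J, wIdx, wSgn, Matrix.one_apply]

/-- The reflection. -/
def wEl (b : Fin m) : Spm := ⟨wMat b, wMat_mem b⟩

theorem wEl_conj_apply (b : Fin m) (g : Spm) (x y : Fin m ⊕ Fin m) :
    (wEl b * g * (wEl b)⁻¹).1 x y = wSgn b x * wSgn b y * g.1 (wIdx b x) (wIdx b y) := by
  rw [← wMat_conj, Submonoid.coe_mul, Submonoid.coe_mul, SymplecticGroup.coe_inv']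
  show (wMat b * g.1 * (wMat b)⁻¹ : Mm) x y = _
  rw [Matrix.inv_eq_right_inv (wMat_mul_transpose b)]

/-- A short root element of the radical becomes a Levi root element. -/
theorem wEl_conj_pair {a b : Fin m} (hab : a ≠ b) (c : F) :
    wEl b * nilS (pairM a b c) (pairM_isSymm a b c) * (wEl b)⁻¹ =
      lev (SpecialLinearGroup.toGL (SpecialLinearGroup.transvection hab (-c))) := by
  refine Subtype.ext (Matrix.ext fun x y => ?_)
  have hinv : ((SpecialLinearGroup.toGL (SpecialLinearGroup.transvection hab (-c)))⁻¹ : GL (Fin m) F).val =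
      Matrix.transvection a b c := by
    refine left_inv_eq_right_inv (Units.inv_mul _) ?_
    show Matrix.transvection a b (-c) * Matrix.transvection a b c = 1
    rw [Matrix.transvection_mul_transvection_same a b hab, neg_add_cancel, Matrix.transvection_zero]
  rw [wEl_conj_apply, lev_val, nilS_val, hinv,
    show ((SpecialLinearGroup.toGL (SpecialLinearGroup.transvection hab (-c)) : GL (Fin m) F) : Mat) =
      Matrix.transvection a b (-c) from rfl]
  clear hinv
  have hba : b ≠ a := hab.symm
  rcases x with i | i <;> rcases y with k | k <;> by_cases hi : i = b <;> by_cases hk : k = b <;>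
    simp_all [wIdx, wSgn, pairM, Matrix.transvection, Matrix.one_apply, Matrix.single_apply, eq_comm] <;>
    split_ifs <;> simp_all

/-- The kernel of the long fundamental root. -/
def radSp (b : Fin m) : Set (Matrix.symplecticGroup (Fin m) F) :=
  {g | g ∈ uniSp m F ∧ g.1 (.inl b) (.inr b) = 0}

/-- The long root entry is additive on `uniSp`. -/
theorem long_entry {b : Fin m} (hb : ∀ i, i ≤ b) {g h : Spm} (hg : g ∈ uniSp m F) (hh : h ∈ uniSp m F) :
    (g * h).1 (.inl b) (.inr b) = g.1 (.inl b) (.inr b) + h.1 (.inl b) (.inr b) := by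
  obtain ⟨a, ha, S, hS, rfl⟩ := hg
  obtain ⟨a', ha', T, hT, rfl⟩ := hh
  rw [Submonoid.coe_mul, lev_mul_nilS_val, lev_mul_nilS_val, fromBlocks_multiply, Matrix.mul_zero,
    add_zero]
  simp only [fromBlocks_apply₁₂, Matrix.add_apply]
  have e1 : ∀ a₀ ∈ upperUni m F, ∀ (X : Mat) (j : Fin m),
      ((SpecialLinearGroup.toGL a₀ : GL (Fin m) F).val * X) b j = X b j := by
    intro a₀ ha₀ X j
    rw [Matrix.mul_apply, Finset.sum_eq_single b]
    · rw [show (SpecialLinearGroup.toGL a₀ : GL (Fin m) F).val b b = a₀.1 b b from rfl, last_row ha₀ hb,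
        if_pos rfl, one_mul]
    · intro c _ hc
      rw [show (SpecialLinearGroup.toGL a₀ : GL (Fin m) F).val b c = a₀.1 b c from rfl, last_row ha₀ hb,
        if_neg hc.symm, zero_mul]
    · simp
  have e2 : ∀ X : Mat, (X * ((↑(SpecialLinearGroup.toGL a')⁻¹ : Mat))ᵀ) b b = X b b := by
    intro X
    have hr : ∀ j, (↑(SpecialLinearGroup.toGL a')⁻¹ : Mat) b j = if b = j then 1 else 0 := fun j => by
      rw [← map_inv]; exact last_row (inv_mem ha') hb j
    rw [Matrix.mul_apply, Finset.sum_eq_single b]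
    · rw [transpose_apply, hr, if_pos rfl, mul_one]
    · intro c _ hc; rw [transpose_apply, hr, if_neg hc.symm, mul_zero]
    · simp
  simp only [e1 a ha, e1 a' ha', e2, add_comm]

theorem radSp_conj_uni {b : Fin m} (hb : ∀ i, i ≤ b) {g h : Spm} (hg : g ∈ uniSp m F) (hh : h ∈ radSp b) :
    g * h * g⁻¹ ∈ radSp (F := F) b := by
  refine ⟨mul_mem (mul_mem hg hh.1) (inv_mem hg), ?_⟩
  have h1 := long_entry hb hg (inv_mem hg)
  rw [mul_inv_cancel, Submonoid.coe_one, Matrix.one_apply_ne Sum.inl_ne_inr] at h1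
  rw [long_entry hb (mul_mem hg hh.1) (inv_mem hg), long_entry hb hg hh.1, hh.2, add_zero, ← h1]

theorem radSp_conj_wEl {b : Fin m} (hb : ∀ i, i ≤ b) {g : Spm} (hg : g ∈ radSp b) :
    wEl b * g * (wEl b)⁻¹ ∈ radSp (F := F) b := by
  obtain ⟨hgU, hg0⟩ := hg
  obtain ⟨h21, h11⟩ := blocks_of_mem hgU
  have hD : ∀ i, g.1 (.inr i) (.inr b) = if i = b then 1 else 0 := by
    intro i
    obtain ⟨a, ha, S, hS, rfl⟩ := hgU
    rw [lev_mul_nilS_val, fromBlocks_apply₂₂, transpose_apply, ← map_inv]
    exact (last_row (inv_mem ha) hb i).trans (by simp [eq_comm])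
  have hE : ∀ i j, g.1 (.inr i) (.inl j) = 0 := fun i j => congrFun (congrFun h21 i) j
  have hA : ∀ i j, j ≤ i → g.1 (.inl i) (.inl j) = if i = j then 1 else 0 := h11
  refine ⟨mem_of_blocks (Matrix.ext fun i j => ?_) fun i j hji => ?_, ?_⟩
  · show (wEl b * g * (wEl b)⁻¹).1 (.inr i) (.inl j) = 0
    rw [wEl_conj_apply]
    rcases eq_or_ne i b with rfl | hi <;> rcases eq_or_ne j i with rfl | hj
    · simp [wIdx, hg0]
    · simp [wIdx, hj, hA i j (hb j), hj.symm]
    · simp [wIdx, hi, hE]
    · rcases eq_or_ne j b with rfl | hjb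
      · simp [wIdx, hi, hD i]
      · simp [wIdx, hi, hjb, hE]
  · show (wEl b * g * (wEl b)⁻¹).1 (.inl i) (.inl j) = _
    rw [wEl_conj_apply]
    rcases eq_or_ne i b with rfl | hi
    · rcases eq_or_ne j i with rfl | hj
      · simp [wIdx, wSgn, hD]
      · simp [wIdx, wSgn, hj, hj.symm, hE]
    · have hj : j ≠ b := fun e => hi (le_antisymm (hb i) (e ▸ hji))
      simp [wIdx, wSgn, hi, hj, hA i j hji]
  · rw [wEl_conj_apply]
    simp [wIdx, wSgn, hE]

/-- The positive long root element. -/
def xPos (b : Fin m) (c : F) : Spm := nilS (Matrix.single b b c) (single_isSymm b c)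

/-- The negative long root element. -/
def xNeg (b : Fin m) (c : F) : Spm := wEl b * xPos b (-c) * (wEl b)⁻¹

theorem xPos_val (b : Fin m) (c : F) : (xPos b c).1 = Matrix.transvection (.inl b) (.inr b) c := by
  ext x y
  rw [xPos, nilS_val]
  rcases x with i | i <;> rcases y with k | k <;> simp [Matrix.transvection, Matrix.single_apply, Matrix.one_apply]

theorem xNeg_val (b : Fin m) (c : F) : (xNeg b c).1 = Matrix.transvection (.inr b) (.inl b) c := by
  ext x y
  rw [xNeg, wEl_conj_apply, xPos_val]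
  rcases x with i | i <;> rcases y with k | k <;> by_cases hi : i = b <;> by_cases hk : k = b <;>
    simp_all [wIdx, wSgn, Matrix.transvection, Matrix.single_apply, Matrix.one_apply, eq_comm]

/-- The diagonal element at a single index. -/
def hLong (b : Fin m) (t : Fˣ) : Spm :=
  lev ⟨Matrix.diagonal (Function.update 1 b (t : F)), Matrix.diagonal (Function.update 1 b ((t⁻¹ : Fˣ) : F)),
    by rw [Matrix.diagonal_mul_diagonal, ← Matrix.diagonal_one]
       exact congrArg Matrix.diagonal (funext fun i => by by_cases h : i = b <;> simp [h]),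
    by rw [Matrix.diagonal_mul_diagonal, ← Matrix.diagonal_one]
       exact congrArg Matrix.diagonal (funext fun i => by by_cases h : i = b <;> simp [h])⟩

theorem hLong_eq (b : Fin m) (t : Fˣ) :
    hLong b t = xPos b (t : F) * xNeg b (-(t : F)⁻¹) * xPos b (t : F) * xPos b (-1) * xNeg b 1 * xPos b (-1) := by
  refine Subtype.ext ?_
  simp only [Submonoid.coe_mul, xPos_val, xNeg_val]
  have ht : (t : F) ≠ 0 := t.ne_zero
  have key : ∀ M : Mm, (hLong b t).1 * M =
      Matrix.transvection (.inl b) (.inr b) (t : F) * (Matrix.transvection (.inr b) (.inl b) (-(t : F)⁻¹) *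
        (Matrix.transvection (.inl b) (.inr b) (t : F) * (Matrix.transvection (.inl b) (.inr b) (-1) *
          (Matrix.transvection (.inr b) (.inl b) 1 * (Matrix.transvection (.inl b) (.inr b) (-1) * M))))) := by
    intro M
    rw [hLong, lev_val]
    show fromBlocks (Matrix.diagonal (Function.update 1 b (t : F))) 0 0
      (Matrix.diagonal (Function.update 1 b ((t⁻¹ : Fˣ) : F)))ᵀ * M = _
    rw [diagonal_transpose, fromBlocks_diagonal]
    ext x y
    rw [Matrix.diagonal_mul]
    rcases x with i | i <;> by_cases hi : i = b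
    · subst hi
      simp
      field_simp
      ring
    · simp [hi]
    · subst hi
      simp
      field_simp
      ring
    · simp [hi]
  have h := key 1
  simpa [Matrix.mul_assoc] using h

end Cfsg.Agent.Fusion.PSp
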