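/-
A nontrivial subgroup of `uniSp` closed under conjugation into `uniSp` is the whole group.
-/
import Cfsg.Agent.Fusion.SpWeyl
import Cfsg.Agent.Forms.SympBridge
set_option autoImplicit false

namespace Cfsg.Agent.Fusion.PSp

open Matrix Cfsg.Agent.KnownB Cfsg.Agent.KnownB.AutPSL Cfsg.Agent.Forms

variable {m : ℕ} {F : Type*} [Field F]

local notation "Spm" => Matrix.symplecticGroup (Fin m) F
local notation "Mat" => Matrix (Fin m) (Fin m) F
local notation "SLm" => Matrix.SpecialLinearGroup (Fin m) F

theorem pairM_apply (i j : Fin m) (t : F) (x y : Fin m) :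
    pairM i j t x y = (if i = x ∧ j = y then t else 0) + if j = x ∧ i = y then t else 0 := by
  simp [pairM, Matrix.single_apply]

theorem pairM_comm (i j : Fin m) (t : F) : pairM i j t = pairM j i t := by rw [pairM, pairM, add_comm]

/-- A set of symmetric matrices closed under addition and congruence. -/
structure CongrClosed (M : AddSubgroup (Matrix (Fin m) (Fin m) F)) : Prop where
  symm : ∀ S ∈ M, S.IsSymm
  congr : ∀ a : GL (Fin m) F, ∀ S ∈ M, (a : Matrix (Fin m) (Fin m) F) * S * (a : Matrix (Fin m) (Fin m) F)ᵀ ∈ M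

variable {M : AddSubgroup (Matrix (Fin m) (Fin m) F)}

/-- The effect of an elementary congruence. -/
theorem op_mem (hM : CongrClosed M) {i j : Fin m} (hij : i ≠ j) (c : F) {S : Mat} (hS : S ∈ M) :
    (Matrix.of fun x y => (if x = i then c * S j y else 0) + (if y = i then c * S j x else 0) +
      if x = i ∧ y = i then c ^ 2 * S j j else 0) ∈ M := by
  have h := hM.congr (SpecialLinearGroup.toGL (SpecialLinearGroup.transvection hij c)) S hS
  rw [show ((SpecialLinearGroup.toGL (SpecialLinearGroup.transvection hij c) : GL (Fin m) F) : Mat) =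
    Matrix.transvection i j c from rfl] at h
  convert sub_mem h hS using 1
  ext x y
  have hsy : ∀ a b, S a b = S b a := fun a b => (hM.symm S hS).apply b a
  have e1 : ∀ x y, (Matrix.transvection i j c * S) x y = S x y + if x = i then c * S j y else 0 := by
    intro x y
    by_cases hx : x = i
    · subst hx; simp
    · simp [hx]
  have e2 : ∀ (X : Mat) x y, (X * (Matrix.transvection i j c)ᵀ) x y = X x y + if y = i then c * X x j else 0 := by
    intro X x y
    rw [show (Matrix.transvection i j c)ᵀ = Matrix.transvection j i c by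
      simp [Matrix.transvection, transpose_add, transpose_single]]
    by_cases hy : y = i
    · subst hy; simp
    · simp [hy]
  rw [Matrix.sub_apply, e2, e1, e1, Matrix.of_apply, hsy x j]
  by_cases hx : x = i <;> by_cases hy : y = i <;> simp [hx, hy] <;> ring

/-- Scaling one index. -/
theorem scale_mem (hM : CongrClosed M) (i : Fin m) {d : F} (hd : d ≠ 0) {S : Mat} (hS : S ∈ M) :
    (Matrix.of fun x y => (if x = i then d else 1) * S x y * if y = i then d else 1) ∈ M := by
  have h := hM.congr ⟨Matrix.diagonal (fun x => if x = i then d else 1),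
    Matrix.diagonal (fun x => if x = i then d⁻¹ else 1),
    by rw [Matrix.diagonal_mul_diagonal, ← Matrix.diagonal_one]
       exact congrArg Matrix.diagonal (funext fun x => by split_ifs <;> simp [hd]),
    by rw [Matrix.diagonal_mul_diagonal, ← Matrix.diagonal_one]
       exact congrArg Matrix.diagonal (funext fun x => by split_ifs <;> simp [hd])⟩ S hS
  convert h using 1
  ext x y
  simp only [diagonal_transpose, Matrix.of_apply]
  rw [Matrix.mul_diagonal, Matrix.diagonal_mul]

theorem pair_of_diag [Fintype F] (hM : CongrClosed M) (hm : 2 ≤ m) (hex : m = 2 → 3 ≤ Fintype.card F)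
    {S : Mat} (hS : S ∈ M) {j : Fin m} (hj : S j j ≠ 0) :
    ∃ (a b : Fin m) (t : F), a ≠ b ∧ t ≠ 0 ∧ pairM a b t ∈ M := by
  haveI : Nontrivial (Fin m) := Fin.nontrivial_iff_two_le.mpr hm
  obtain ⟨i, hij⟩ := exists_ne j
  have hD := op_mem hM hij 1 hS
  rcases hm.lt_or_eq with h3 | h2
  · obtain ⟨k, hki, hkj⟩ := (Fin.exists_ne_and_ne_of_two_lt i j h3)
    refine ⟨k, i, S j j, hki, hj, ?_⟩
    convert op_mem hM hkj 1 hD using 1
    ext x y
    simp only [pairM_apply, Matrix.of_apply]
    grind
  · obtain ⟨d, hd0, hd1⟩ := Cfsg.Agent.Forms.exists_ne_zero_one (hex h2.symm)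
    have huniv : ∀ x : Fin m, x = i ∨ x = j := by
      intro x
      by_contra hx
      push Not at hx
      have h := Finset.card_le_univ ({x, i, j} : Finset (Fin m))
      rw [Finset.card_insert_of_notMem (by simp [hx.1, hx.2]), Finset.card_pair hij, Fintype.card_fin] at h
      omega
    refine ⟨i, j, (d - 1) * S j j, hij, mul_ne_zero (sub_ne_zero.mpr hd1) hj, ?_⟩
    convert sub_mem (scale_mem hM j hd0 hD) hD using 1
    ext x y
    simp only [pairM_apply, Matrix.of_apply, Matrix.sub_apply]
    rcases huniv x with rfl | rfl <;> rcases huniv y with rfl | rfl <;> simp [hij, hij.symm] <;> ring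

theorem exists_pair [Fintype F] (hM : CongrClosed M) (hm : 2 ≤ m) (hex : m = 2 → 3 ≤ Fintype.card F)
    {S : Mat} (hS : S ∈ M) (hS0 : S ≠ 0) :
    ∃ (a b : Fin m) (t : F), a ≠ b ∧ t ≠ 0 ∧ pairM a b t ∈ M := by
  by_cases hall : ∃ T ∈ M, ∃ j, T j j ≠ 0
  · obtain ⟨T, hT, j, hj⟩ := hall
    exact pair_of_diag hM hm hex hT hj
  push Not at hall
  obtain ⟨j, k, hjk⟩ : ∃ j k, S j k ≠ 0 := by
    by_contra h
    push Not at h
    exact hS0 (Matrix.ext h)
  have hne : j ≠ k := fun e => hjk (e ▸ hall S hS j)
  have hkj : S k j = S j k := (hM.symm S hS).apply j k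
  rcases hm.lt_or_eq with h3 | h2
  · obtain ⟨i, hij, hik⟩ := Fin.exists_ne_and_ne_of_two_lt j k h3
    refine ⟨j, i, S j k, hij.symm, hjk, ?_⟩
    convert op_mem hM hne 1 (op_mem hM hij 1 hS) using 1
    ext x y
    simp only [pairM_apply, Matrix.of_apply]
    have h0 := hall S hS j
    by_cases hx : x = j <;> by_cases hy : y = j <;> by_cases hxi : x = i <;> by_cases hyi : y = i <;>
      simp_all [eq_comm]
  · refine ⟨j, k, S j k, hne, hjk, ?_⟩
    convert hS using 1
    ext x y
    have huniv : ∀ x : Fin m, x = j ∨ x = k := by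
      intro x
      by_contra hx
      push Not at hx
      have h := Finset.card_le_univ ({x, j, k} : Finset (Fin m))
      rw [Finset.card_insert_of_notMem (by simp [hx.1, hx.2]), Finset.card_pair hne, Fintype.card_fin] at h
      omega
    rw [pairM_apply]
    rcases huniv x with rfl | rfl <;> rcases huniv y with rfl | rfl <;> simp [hne, hne.symm, hkj, hall S hS]

theorem pair_all [Fintype F] (hM : CongrClosed M) (hm : 2 ≤ m) (hex : m = 2 → 3 ≤ Fintype.card F)
    {S : Mat} (hS : S ∈ M) (hS0 : S ≠ 0) : ∀ (c e : Fin m) (t : F), c ≠ e → pairM c e t ∈ M := by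
  obtain ⟨a, b, t₀, hab, ht₀, h0⟩ := exists_pair hM hm hex hS hS0
  have hscale : ∀ t : F, pairM a b t ∈ M := by
    intro t
    rcases eq_or_ne t 0 with rfl | ht
    · convert zero_mem M using 1
      simp [pairM]
    convert scale_mem hM a (div_ne_zero ht ht₀) h0 using 1
    ext x y
    simp only [pairM_apply, Matrix.of_apply]
    by_cases hx : x = a <;> by_cases hy : y = a <;> simp_all [eq_comm] <;> split_ifs <;> simp_all <;> field_simp
  have hstep : ∀ a b c : Fin m, (∀ t, pairM a b t ∈ M) → a ≠ b → c ≠ a → c ≠ b → ∀ t, pairM c b t ∈ M := by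
    intro a b c h hab hca hcb t
    convert op_mem hM hca 1 (h t) using 1
    ext x y
    simp only [pairM_apply, Matrix.of_apply]
    by_cases hx : x = c <;> by_cases hy : y = c <;> simp_all [eq_comm]
  have hsw : ∀ t, pairM b a t ∈ M := fun t => pairM_comm (F := F) b a t ▸ hscale t
  intro c e t hce
  have h1 : ∀ e, e ≠ a → ∀ t, pairM a e t ∈ M := by
    intro e he t
    rcases eq_or_ne e b with rfl | heb
    · exact hscale t
    · rw [pairM_comm]; exact hstep b a e hsw hab.symm heb he t
  rcases eq_or_ne c a with rfl | hca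
  · exact h1 e hce.symm t
  rcases eq_or_ne e a with rfl | hea
  · rw [pairM_comm]; exact h1 c hce t
  exact hstep a e c (h1 e hea) hea.symm hca hce t

/-- The symmetric matrices are spanned by the elementary ones. -/
theorem symm_mem_of_elementary (hpair : ∀ (c e : Fin m) (t : F), c ≠ e → pairM c e t ∈ M)
    (hdiag : ∀ (c : Fin m) (t : F), Matrix.single c c t ∈ M) {S : Mat} (hS : S.IsSymm) : S ∈ M := by
  let A : Mat := Matrix.of fun i j => if i < j then S i j else 0
  have hA : A + Aᵀ ∈ M := by
    have e : A + Aᵀ = ∑ i, ∑ j, (Matrix.single i j (A i j) + (Matrix.single i j (A i j))ᵀ) := by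
      conv_lhs => rw [Matrix.matrix_eq_sum_single A]
      simp only [transpose_sum, Finset.sum_add_distrib]
    rw [e]
    refine sum_mem fun i _ => sum_mem fun j _ => ?_
    rw [transpose_single]
    by_cases hij : i = j
    · subst hij; simp [A]
    · exact hpair i j _ hij
  have hd : Matrix.diagonal (fun i => S i i) ∈ M := by
    rw [show Matrix.diagonal (fun i => S i i) = ∑ i, Matrix.single i i (S i i) from by
      ext x y
      by_cases hxy : x = y
      · subst hxy; simp [Matrix.sum_apply, Matrix.single_apply]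
      · simp [Matrix.sum_apply, Matrix.single_apply, hxy]
        exact (Finset.sum_eq_zero fun i _ => if_neg (by rintro ⟨rfl, h⟩; exact hxy h)).symm]
    exact sum_mem fun i _ => hdiag i _
  convert add_mem hA hd using 1
  ext x y
  rcases lt_trichotomy x y with h | h | h
  · simp [A, h, h.not_gt, h.ne]
  · subst h; simp [A]
  · simp [A, h, h.not_gt, h.ne', hS.apply y x]

/-- The upper unitriangular group is generated by elementary transvections. -/
theorem upperUni_le_closure :
    upperUni m F ≤ Subgroup.closure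
      {t | ∃ (i j : Fin m) (h : i < j) (c : F), t = SpecialLinearGroup.transvection h.ne c} := by
  classical
  intro u hu
  suffices H : ∀ (n : ℕ) (u : SLm), u ∈ upperUni m F →
      (Finset.univ.filter fun q : Fin m × Fin m => q.1 < q.2 ∧ u.1 q.1 q.2 ≠ 0).card = n →
      u ∈ Subgroup.closure {t | ∃ (i j : Fin m) (h : i < j) (c : F), t = SpecialLinearGroup.transvection h.ne c} from
    H _ u hu rfl
  intro n
  induction n using Nat.strong_induction_on with
  | _ n ih => ?_
  intro u hu hn
  set D := Finset.univ.filter fun q : Fin m × Fin m => q.1 < q.2 ∧ u.1 q.1 q.2 ≠ 0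
  rcases D.eq_empty_or_nonempty with hD | hD
  · have : u = 1 := Subtype.ext (Matrix.ext fun i j => by
      rcases lt_or_ge i j with hij | hij
      · have : (i, j) ∉ D := hD ▸ Finset.notMem_empty _
        simp only [D, Finset.mem_filter, Finset.mem_univ, true_and, hij, not_not] at this
        simp [this, hij.ne]
      · rw [hu i j hij]; simp [Matrix.one_apply])
    rw [this]; exact one_mem _
  obtain ⟨⟨i, k⟩, hq, hmax⟩ := D.exists_max_image (fun q => q.2) hD
  simp only [D, Finset.mem_filter, Finset.mem_univ, true_and] at hq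
  obtain ⟨hik, hik0⟩ := hq
  have hrow : ∀ j, u.1 k j = if k = j then 1 else 0 := by
    intro j
    rcases lt_or_ge k j with hkj | hkj
    · rw [if_neg hkj.ne]
      by_contra hne
      exact absurd (hmax (k, j) (Finset.mem_filter.mpr ⟨Finset.mem_univ _, hkj, hne⟩)) (not_le.mpr hkj)
    · exact hu k j hkj
  set t := SpecialLinearGroup.transvection hik.ne (-(u.1 i k)) with ht
  have htU : t ∈ upperUni m F := by
    intro a b hba
    show Matrix.transvection i k _ a b = _
    rw [Matrix.transvection, Matrix.add_apply, Matrix.one_apply, Matrix.single_apply, if_neg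
      (fun e : i = a ∧ k = b => absurd (e.1 ▸ e.2 ▸ hik) (not_lt.mpr hba)), add_zero]
  have hval : ∀ a b, (t * u).1 a b = if a = i ∧ b = k then 0 else u.1 a b := by
    intro a b
    show (Matrix.transvection i k (-(u.1 i k)) * u.1 : Mat) a b = _
    by_cases ha : a = i
    · subst ha
      rw [Matrix.transvection_mul_apply_same, hrow]
      by_cases hb : b = k
      · subst hb; simp
      · simp [hb, fun e : k = b => hb e.symm, Ne.symm hb]
    · simp [ha]
  have hlt := ih _ (by
    rw [← hn]
    refine Finset.card_lt_card ⟨fun q hq => ?_, fun h => ?_⟩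
    · simp only [Finset.mem_filter, Finset.mem_univ, true_and, hval] at hq ⊢
      simp only [D, Finset.mem_filter, Finset.mem_univ, true_and]
      refine ⟨hq.1, ?_⟩
      have := hq.2
      split_ifs at this with h
      · exact absurd rfl this
      · exact this
    · have := h (show (i, k) ∈ D from Finset.mem_filter.mpr ⟨Finset.mem_univ _, hik, hik0⟩)
      simp [hval] at this) (t * u) (mul_mem htU hu) rfl
  have hmem : t ∈ Subgroup.closure
      {t | ∃ (i j : Fin m) (h : i < j) (c : F), t = SpecialLinearGroup.transvection h.ne c} :=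
    Subgroup.subset_closure ⟨i, k, hik, -(u.1 i k), ht⟩
  have := mul_mem (inv_mem hmem) hlt
  rwa [inv_mul_cancel_left] at this

/-- A nontrivial subgroup closed under conjugation into `uniSp` is everything. -/
theorem eq_uniSp [Fintype F] (hm : 2 ≤ m) (hex : m = 2 → 3 ≤ Fintype.card F) (p : ℕ) [Fact p.Prime]
    [CharP F p] {T : Subgroup Spm} (hT : T ≤ uniSp m F) (hT1 : T ≠ ⊥)
    (hcl : ∀ g x : Spm, x ∈ T → g * x * g⁻¹ ∈ uniSp m F → g * x * g⁻¹ ∈ T) : T = uniSp m F := by
  have hnorm : ∀ u ∈ uniSp m F, ∀ x ∈ T, u * x * u⁻¹ ∈ T := fun u hu x hx =>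
    hcl u x hx (mul_mem (mul_mem hu (hT hx)) (inv_mem hu))
  let M : AddSubgroup Mat :=
    { carrier := {S | ∃ hS : S.IsSymm, nilS S hS ∈ T}
      zero_mem' := ⟨isSymm_zero, by
        rw [show nilS (0 : Mat) isSymm_zero = 1 from map_one (nil (m := m) (F := F))]; exact one_mem _⟩
      add_mem' := by
        rintro S S' ⟨h, h1⟩ ⟨h', h1'⟩
        exact ⟨h.add h', nilS_mul h h' ▸ mul_mem h1 h1'⟩
      neg_mem' := by
        rintro S ⟨h, h1⟩
        exact ⟨h.neg, nilS_inv h ▸ inv_mem h1⟩ }
  have hM : CongrClosed M := ⟨fun S hS => hS.1, fun a S hS => ⟨congr_isSymm _ hS.1,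
    lev_conj a hS.1 ▸ hcl (lev a) _ hS.2 (lev_conj a hS.1 ▸ nilS_mem _)⟩⟩
  obtain ⟨S₀, hS₀, hS₀0⟩ : ∃ S ∈ M, S ≠ 0 := by
    obtain ⟨⟨x, hxT⟩, hx⟩ := Subgroup.ne_bot_iff_exists_ne_one.mp hT1
    have hx1 : x ≠ 1 := fun e => hx (Subtype.ext e)
    by_contra hno
    push Not at hno
    obtain ⟨a, ha, S, hS, rfl⟩ := hT hxT
    set a' := SpecialLinearGroup.toGL a with ha'
    have hfix : ∀ R : Mat, R.IsSymm → (a' : Mat) * R * (a' : Mat)ᵀ = R := by
      intro R hR
      have h1 := mul_mem hxT (inv_mem (hnorm _ (nilS_mem hR) _ hxT))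
      have e : lev a' * nilS S hS * (nilS R hR * (lev a' * nilS S hS) * (nilS R hR)⁻¹)⁻¹ =
          lev a' * nilS R hR * (lev a')⁻¹ * (nilS R hR)⁻¹ := by
        have : nilS S hS * nilS R hR = nilS R hR * nilS S hS := by
          rw [nilS_mul, nilS_mul]; exact nilS_congr (add_comm S R) _
        rw [_root_.mul_inv_rev, inv_inv, _root_.mul_inv_rev]
        calc _ = lev a' * (nilS S hS * nilS R hR) * (nilS S hS)⁻¹ * (lev a')⁻¹ * (nilS R hR)⁻¹ := by group
          _ = _ := by rw [this]; group
      rw [e, lev_conj, nilS_inv, nilS_mul] at h1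
      exact eq_of_sub_eq_zero ((sub_eq_add_neg _ R).trans (hno _ ⟨_, h1⟩))
    have ha1 : (a' : Mat) = 1 := by
      ext i j
      rcases lt_trichotomy i j with h | h | h
      · have h1 := congrFun (congrFun (hfix _ (single_isSymm j 1)) i) i
        rw [Matrix.mul_apply, Finset.sum_eq_single j] at h1
        · rw [transpose_apply, Matrix.mul_single_apply_same, Matrix.single_apply_of_row_ne h.ne'] at h1
          simp only [mul_one, mul_self_eq_zero] at h1
          rw [h1, Matrix.one_apply_ne h.ne]
        · intro c _ hc; rw [Matrix.mul_single_apply_of_ne (hbj := hc), zero_mul]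
        · simp
      · subst h; rw [Matrix.one_apply_eq]; exact (ha i i le_rfl).trans (if_pos rfl)
      · rw [Matrix.one_apply_ne h.ne']; exact (ha i j h.le).trans (if_neg h.ne')
    have hlev : lev a' = 1 := by rw [show a' = 1 from Units.ext ha1, map_one]
    refine hx1 ?_
    rw [hlev, one_mul] at hxT ⊢
    rw [nilS_congr (hno S ⟨hS, hxT⟩) hS]
    exact map_one (nil (m := m) (F := F))
  have hpair := pair_all hM hm hex hS₀ hS₀0
  have hlevT : ∀ (a b : Fin m) (hab : a < b) (c : F),
      lev (SpecialLinearGroup.toGL (SpecialLinearGroup.transvection hab.ne c)) ∈ T := by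
    intro a b hab c
    have h := hcl (wEl b) _ (hpair a b (-c) hab.ne).2
    have e := wEl_conj_pair hab.ne (-c)
    rw [neg_neg] at e
    rw [e] at h
    refine h (lev_mem ?_)
    intro x y hyx
    show Matrix.transvection a b c x y = _
    rw [Matrix.transvection, Matrix.add_apply, Matrix.one_apply, Matrix.single_apply, if_neg
      (fun e : a = x ∧ b = y => absurd (e.1 ▸ e.2 ▸ hab) (not_lt.mpr hyx)), add_zero]
  have hdsq : ∀ (a b : Fin m), a < b → ∀ c : F, Matrix.single a a (c ^ 2) ∈ M := by
    intro a b hab c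
    set a' := SpecialLinearGroup.toGL (SpecialLinearGroup.transvection hab.ne c)
    have hE : (Matrix.single b b (1 : F)).IsSymm := single_isSymm b 1
    have h1 := mul_mem (hlevT a b hab c) (hnorm _ (nilS_mem hE) _ (inv_mem (hlevT a b hab c)))
    rw [show lev a' * (nilS _ hE * (lev a')⁻¹ * (nilS _ hE)⁻¹) =
      lev a' * nilS _ hE * (lev a')⁻¹ * (nilS _ hE)⁻¹ by group, lev_conj, nilS_inv, nilS_mul] at h1
    have h2 : Matrix.single a a (c ^ 2) + pairM a b c ∈ M := by
      have h3 : (a' : Mat) * Matrix.single b b 1 * (a' : Mat)ᵀ + -Matrix.single b b 1 ∈ M := ⟨_, h1⟩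
      convert h3 using 1
      ext x y
      rw [show (a' : Mat) = Matrix.transvection a b c from rfl]
      simp [Matrix.transvection, Matrix.add_mul, Matrix.mul_add, pairM, transpose_add, transpose_single,
        Matrix.single_mul_single_same]
      ring
    simpa using sub_mem h2 (hpair a b c hab.ne)
  have hd1 : ∀ (a b : Fin m), a < b → ∀ t : F, Matrix.single a a t ∈ M := by
    intro a b hab t
    by_cases h2 : (2 : F) = 0
    · have hc : ringChar F = 2 := by
        rcases (ringChar.dvd (x := (2 : ℕ)) (by exact_mod_cast h2 : ((2 : ℕ) : F) = 0)) with h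
        exact ((Nat.prime_two.eq_one_or_self_of_dvd _ h).resolve_left (CharP.ringChar_ne_one))
      obtain ⟨r, rfl⟩ := FiniteField.isSquare_of_char_two hc t
      rw [← sq]; exact hdsq a b hab r
    · have := sub_mem (sub_mem (hdsq a b hab (t / 2 + 1)) (hdsq a b hab (t / 2))) (hdsq a b hab 1)
      convert this using 1
      ext x y
      simp only [Matrix.sub_apply, Matrix.single_apply]
      split_ifs
      · field_simp
        ring
      · simp
  have hdiag : ∀ (c : Fin m) (t : F), Matrix.single c c t ∈ M := by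
    intro c t
    by_cases hc : ∃ b, c < b
    · obtain ⟨b, hb⟩ := hc; exact hd1 c b hb t
    · push Not at hc
      haveI : Nontrivial (Fin m) := Fin.nontrivial_iff_two_le.mpr hm
      obtain ⟨a, hac⟩ := exists_ne c
      have hlt : a < c := lt_of_le_of_ne (hc a) hac
      have h := op_mem hM hac.symm 1 (hd1 a c hlt t)
      convert sub_mem h (hpair c a t hac.symm) using 1
      ext x y
      simp only [pairM_apply, Matrix.of_apply, Matrix.sub_apply, Matrix.single_apply]
      by_cases hx : x = c <;> by_cases hy : y = c <;> simp_all [eq_comm]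
  refine le_antisymm hT ?_
  rintro _ ⟨a, ha, S, hS, rfl⟩
  refine mul_mem ?_ (symm_mem_of_elementary hpair hdiag hS).2
  have hle : Subgroup.closure {t | ∃ (i j : Fin m) (h : i < j) (c : F), t = SpecialLinearGroup.transvection h.ne c}
      ≤ T.comap (lev.comp SpecialLinearGroup.toGL) := by
    rw [Subgroup.closure_le]
    rintro _ ⟨i, j, h, c, rfl⟩
    exact hlevT i j h c
  exact hle (upperUni_le_closure ha)

end Cfsg.Agent.Fusion.PSp
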