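/-
The `p`-fusion system of `PSp_{2m}` in characteristic `p` is simple.
-/
import Cfsg.Agent.Fusion.SpClosed
import Cfsg.Agent.Fusion.SimpleCriterion
import Cfsg.Agent.Fusion.GroupSimpleWeak
import Cfsg.Agent.Fusion.Alperin
import Cfsg.Agent.Fusion.PSLnTorus
set_option autoImplicit false

namespace Cfsg.Agent.Fusion.PSp

open Matrix Cfsg Cfsg.FusionSystem Cfsg.Agent.KnownB Cfsg.Agent.KnownB.AutPSL Cfsg.Agent.Forms

variable {m : ℕ} {F : Type*} [Field F] {p : ℕ} [Fact p.Prime] [CharP F p]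

local notation "Spm" => Matrix.symplecticGroup (Fin m) F
local notation "Mat" => Matrix (Fin m) (Fin m) F
local notation "SLm" => Matrix.SpecialLinearGroup (Fin m) F
local notation "PSpm" => Cfsg.PSp m F

/-- The projection followed by a conjugation. -/
def proj (g : Cfsg.PSp m F) : Matrix.symplecticGroup (Fin m) F →* Cfsg.PSp m F :=
  (MulAut.conj g).toMonoidHom.comp (QuotientGroup.mk' _)

theorem proj_surjective (g : PSpm) : Function.Surjective (proj g) :=
  (MulAut.conj g).surjective.comp (QuotientGroup.mk'_surjective _)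

theorem proj_eq_iff (g : PSpm) (s t : Spm) :
    proj g s = proj g t ↔ ∃ z ∈ Subgroup.center Spm, t = s * z :=
  (MulAut.conj g).injective.eq_iff.trans (Cfsg.Agent.KnownB.Proj.Symp.pspMk_eq_iff s t)

/-- A `p`-element in `uniSp` times the centre is in `uniSp`. -/
theorem mem_uni_of_proj [Fintype F] (hm : 1 ≤ m) (g : PSpm) {s : Spm} {k : ℕ} (hk : s ^ p ^ k = 1)
    (h : proj g s ∈ (uniSp m F).map (proj g)) : s ∈ uniSp m F := by
  obtain ⟨v, hv, hvs⟩ := Subgroup.mem_map.mp h
  obtain ⟨z, hz, rfl⟩ := (proj_eq_iff g v s).mp hvs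
  obtain ⟨l, hl⟩ := pow_eq_one_of_mem p ⟨v, hv⟩
  have hl' : v ^ p ^ l = 1 := congrArg Subtype.val hl
  have hcomm : Commute v z := Subgroup.mem_center_iff.mp hz v
  have hz1 : z ^ p ^ (k + l) = 1 := by
    have h1 : (v * z) ^ p ^ (k + l) = 1 := by rw [pow_add, pow_mul, hk, one_pow]
    rw [hcomm.mul_pow, show v ^ p ^ (k + l) = 1 by rw [add_comm, pow_add, pow_mul, hl', one_pow],
      one_mul] at h1
    exact h1
  rw [center_pElement p hm hz hz1, mul_one]; exact hv

include p in
theorem normalizes_of_mem_normalizer [Fintype F] (hm : 1 ≤ m) (g : PSpm) {s : Spm}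
    (h : proj g s ∈ Subgroup.normalizer (((uniSp m F).map (proj g) : Subgroup PSpm) : Set PSpm))
    {u : Spm} (hu : u ∈ uniSp m F) : s * u * s⁻¹ ∈ uniSp m F ∧ s⁻¹ * u * s ∈ uniSp m F := by
  obtain ⟨l, hl⟩ := pow_eq_one_of_mem p ⟨u, hu⟩
  have hl' : u ^ p ^ l = 1 := congrArg Subtype.val hl
  constructor
  · refine mem_uni_of_proj hm g (k := l) (by rw [conj_pow, hl']; simp) ?_
    rw [map_mul, map_mul, map_inv]
    exact (Subgroup.mem_normalizer_iff.mp h _).mp (Subgroup.mem_map_of_mem _ hu)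
  · refine mem_uni_of_proj hm g (k := l) (by
      have := (conj_pow (a := s⁻¹) (b := u) (i := p ^ l)); rw [inv_inv] at this
      rw [this, hl']; simp) ?_
    rw [map_mul, map_mul, map_inv]
    have := (Subgroup.mem_normalizer_iff.mp (inv_mem h) _).mp (Subgroup.mem_map_of_mem _ hu)
    rwa [inv_inv] at this

include p in
/-- An element normalising `uniSp` is a diagonal element times an element of `uniSp`. -/
theorem exists_diag_factor [Fintype F] (hm : 2 ≤ m) (g : PSpm) {s : Spm}
    (h : proj g s ∈ Subgroup.normalizer (((uniSp m F).map (proj g) : Subgroup PSpm) : Set PSpm)) :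
    ∃ (d : GL (Fin m) F) (v : Spm), v ∈ uniSp m F ∧ s = lev d * v ∧
      (∀ i j, (d : Mat) i j = if i = j then s.1 (.inl i) (.inl i) else 0) ∧
      s.1.toBlocks₂₁ = 0 ∧ (∀ i j : Fin m, j < i → s.1.toBlocks₁₁ i j = 0) := by
  obtain ⟨h21, h11⟩ := upper_of_normalizes hm fun u hu =>
    (normalizes_of_mem_normalizer (p := p) (by omega) g h hu).2
  obtain ⟨a, S, hS, rfl⟩ := exists_lev_nilS h21
  have h11' : ∀ i j : Fin m, j < i → (a : Mat) i j = 0 := fun i j hij => by
    have := h11 i j hij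
    rwa [lev_mul_nilS_val, toBlocks_fromBlocks₁₁] at this
  have hdet : (a : Mat).det ≠ 0 := ((Matrix.isUnit_iff_isUnit_det _).mp a.isUnit).ne_zero
  have hbt : (a : Mat).BlockTriangular id := fun i j hij => h11' i j hij
  have hne : ∀ i, (a : Mat) i i ≠ 0 := fun i => by
    rw [Matrix.det_of_isUpperTriangular hbt] at hdet
    exact (Finset.prod_ne_zero_iff.mp hdet) i (Finset.mem_univ _)
  let d : GL (Fin m) F := ⟨Matrix.diagonal (fun i => (a : Mat) i i), Matrix.diagonal (fun i => ((a : Mat) i i)⁻¹),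
    by rw [Matrix.diagonal_mul_diagonal, ← Matrix.diagonal_one]
       exact congrArg Matrix.diagonal (funext fun i => mul_inv_cancel₀ (hne i)),
    by rw [Matrix.diagonal_mul_diagonal, ← Matrix.diagonal_one]
       exact congrArg Matrix.diagonal (funext fun i => inv_mul_cancel₀ (hne i))⟩
  refine ⟨d, (lev d)⁻¹ * (lev a * nilS S hS), ?_, (mul_inv_cancel_left _ _).symm, fun i j => ?_, h21, h11⟩
  · rw [← map_inv, ← mul_assoc, ← map_mul]
    refine mem_of_blocks ?_ fun i j hji => ?_
    · rw [lev_mul_nilS_val, toBlocks_fromBlocks₂₁]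
    · rw [lev_mul_nilS_val, toBlocks_fromBlocks₁₁]
      show (Matrix.diagonal (fun i => ((a : Mat) i i)⁻¹) * (a : Mat) : Mat) i j = _
      rw [Matrix.diagonal_mul]
      rcases hji.lt_or_eq with hlt | heq
      · rw [h11' i j hlt, mul_zero, if_neg hlt.ne']
      · subst heq; rw [inv_mul_cancel₀ (hne j), if_pos rfl]
  · show Matrix.diagonal (fun i => (a : Mat) i i) i j = _
    rw [lev_mul_nilS_val, fromBlocks_apply₁₁, Matrix.diagonal_apply]

theorem block_diag_mul {A B : Matrix (Fin m ⊕ Fin m) (Fin m ⊕ Fin m) F} (hA : A.toBlocks₂₁ = 0)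
    (hA' : ∀ i j : Fin m, j < i → A.toBlocks₁₁ i j = 0) (hB : B.toBlocks₂₁ = 0)
    (hB' : ∀ i j : Fin m, j < i → B.toBlocks₁₁ i j = 0) :
    (A * B).toBlocks₂₁ = 0 ∧ (∀ i j : Fin m, j < i → (A * B).toBlocks₁₁ i j = 0) ∧
      ∀ i, (A * B) (.inl i) (.inl i) = A (.inl i) (.inl i) * B (.inl i) (.inl i) := by
  have e : A * B = fromBlocks (A.toBlocks₁₁ * B.toBlocks₁₁)
      (A.toBlocks₁₁ * B.toBlocks₁₂ + A.toBlocks₁₂ * B.toBlocks₂₂) 0 (A.toBlocks₂₂ * B.toBlocks₂₂) := by
    conv_lhs => rw [← fromBlocks_toBlocks A, ← fromBlocks_toBlocks B, hA, hB, fromBlocks_multiply]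
    simp
  have hbt : (A.toBlocks₁₁ * B.toBlocks₁₁).BlockTriangular id :=
    Matrix.BlockTriangular.mul (fun i j h => hA' i j h) (fun i j h => hB' i j h)
  refine ⟨by rw [e, toBlocks_fromBlocks₂₁], fun i j h => ?_, fun i => ?_⟩
  · rw [e, toBlocks_fromBlocks₁₁]; exact hbt h
  · rw [e, fromBlocks_apply₁₁]
    exact PSLn.upper_mul_diag (fun i j h => hA' i j h) (fun i j h => hB' i j h) i

theorem exists_proj_sylow [Fintype F] (hm : 2 ≤ m) (S : Sylow p PSpm) :
    ∃ g : PSpm, (S : Subgroup PSpm) = (uniSp m F).map (proj g) := by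
  have hproj : proj (1 : PSpm) = QuotientGroup.mk' _ := MonoidHom.ext fun t => by simp [proj]
  obtain ⟨P, hP⟩ := ((pow_eq_one_of_mem (m := m) (F := F) p).map (proj (1 : PSpm))).exists_le_sylow
  have hPeq : (P : Subgroup PSpm) = (uniSp m F).map (proj (1 : PSpm)) := by
    by_contra hne
    obtain ⟨x, ⟨hxP, hxN⟩, hxU⟩ := SetLike.exists_of_lt
      (lt_normalizerIn (S := (P : Subgroup PSpm)) P.isPGroup' (lt_of_le_of_ne hP (Ne.symm hne)))
    obtain ⟨s, rfl⟩ := proj_surjective (1 : PSpm) x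
    obtain ⟨k, hk⟩ := P.isPGroup' ⟨_, hxP⟩
    have hk' : proj (1 : PSpm) (s ^ p ^ k) = proj (1 : PSpm) 1 := by
      rw [map_pow, map_one]; exact congrArg Subtype.val hk
    obtain ⟨d, v, hv, hs, hd, h21, h11⟩ := exists_diag_factor (p := p) hm (1 : PSpm) hxN
    obtain ⟨z, hz, hzk⟩ := (proj_eq_iff _ _ _).mp hk'
    obtain ⟨c, hc, hzc⟩ := center_val (by omega) (inv_mem hz)
    have hsk : s ^ p ^ k = z⁻¹ := eq_inv_of_mul_eq_one_left hzk.symm
    have hpow : ∀ n : ℕ, (s.1 ^ n).toBlocks₂₁ = 0 ∧ (∀ i j : Fin m, j < i → (s.1 ^ n).toBlocks₁₁ i j = 0) ∧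
        ∀ i, (s.1 ^ n) (.inl i) (.inl i) = s.1 (.inl i) (.inl i) ^ n := by
      intro n
      induction n with
      | zero =>
        refine ⟨?_, fun i j h => ?_, fun i => ?_⟩
        · ext i j; simp [toBlocks₂₁]
        · simp [toBlocks₁₁, h.ne']
        · simp
      | succ n ih =>
        obtain ⟨h1, h2, h3⟩ := ih
        obtain ⟨g1, g2, g3⟩ := block_diag_mul h1 h2 h21 h11
        rw [pow_succ]
        exact ⟨g1, g2, fun i => by rw [g3, h3, ← pow_succ]⟩
    have hdiag : ∀ i, s.1 (.inl i) (.inl i) ^ p ^ k = c := fun i => by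
      rw [← (hpow _).2.2 i, ← SubmonoidClass.coe_pow, hsk, hzc]; simp
    let i0 : Fin m := ⟨0, by omega⟩
    have hsame : ∀ i, s.1 (.inl i) (.inl i) = s.1 (.inl i0) (.inl i0) := fun i =>
      iterateFrobenius_inj F p k (by simp [iterateFrobenius_def, hdiag])
    set e := s.1 (.inl i0) (.inl i0) with he
    have hee : e * e = 1 :=
      iterateFrobenius_inj F p k (by simp [iterateFrobenius_def, mul_pow, hdiag, e, hc])
    have hdz : lev d ∈ Subgroup.center Spm := by
      have hval : (lev d).1 = e • (1 : Matrix (Fin m ⊕ Fin m) (Fin m ⊕ Fin m) F) := by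
        have hd1 : (d : Mat) = e • (1 : Mat) := by
          ext i j; rw [hd, hsame]; simp [Matrix.one_apply]
        have hd2 : ((d⁻¹ : GL (Fin m) F) : Mat) = e • (1 : Mat) := by
          refine left_inv_eq_right_inv (Units.inv_mul _) ?_
          rw [hd1, smul_mul_smul_comm, hee, one_smul, Matrix.one_mul]
        rw [lev_val, hd1, hd2, transpose_smul, transpose_one, ← fromBlocks_one, fromBlocks_smul, smul_zero]
      refine Subgroup.mem_center_iff.mpr fun x => Subtype.ext ?_
      rw [Submonoid.coe_mul, Submonoid.coe_mul, hval, mul_smul_comm, smul_mul_assoc, mul_one, one_mul]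
    refine hxU ⟨v, hv, (proj_eq_iff _ _ _).mpr ⟨lev d, hdz, ?_⟩⟩
    rw [hs, Subgroup.mem_center_iff.mp hdz v]
  obtain ⟨g, rfl⟩ := MulAction.exists_smul_eq PSpm P S
  refine ⟨g, ?_⟩
  rw [Sylow.coe_subgroup_smul, hPeq, hproj]
  show Subgroup.map (MulAut.conj g).toMonoidHom ((uniSp m F).map (QuotientGroup.mk' _)) = _
  rw [Subgroup.map_map]
  rfl

variable {g : Cfsg.PSp m F} {S : Sylow p (Cfsg.PSp m F)}

theorem closed_trivial [Fintype F] (hm : 2 ≤ m) (hex : m = 2 → 3 ≤ Fintype.card F)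
    (hS : (S : Subgroup PSpm) = (uniSp m F).map (proj g)) {T : Subgroup PSpm}
    (hT : (groupFusionSystem (S : Subgroup PSpm)).StronglyClosed T) : T = ⊥ ∨ T = (S : Subgroup PSpm) := by
  let T' : Subgroup Spm := uniSp m F ⊓ T.comap (proj g)
  have hTeq : T = T'.map (proj g) := by
    refine le_antisymm (fun x hx => ?_) (Subgroup.map_le_iff_le_comap.mpr inf_le_right)
    obtain ⟨u, hu, rfl⟩ := Subgroup.mem_map.mp (hS ▸ hT.1 hx : x ∈ (uniSp m F).map (proj g))
    exact Subgroup.mem_map_of_mem _ ⟨hu, hx⟩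
  by_cases h1 : T' = ⊥
  · left; rw [hTeq, h1, Subgroup.map_bot]
  right
  have h2 : T' = uniSp m F := eq_uniSp hm hex p inf_le_left h1 fun s x hx hsx => by
    refine ⟨hsx, ?_⟩
    show proj g (s * x * s⁻¹) ∈ T
    rw [map_mul, map_mul, map_inv]
    refine stronglyClosed_conj_mem hT hx.2 ?_ (_root_.isConj_iff.mpr ⟨_, rfl⟩)
    rw [← map_inv, ← map_mul, ← map_mul, hS]
    exact Subgroup.mem_map_of_mem _ hsx
  rw [hTeq, h2, hS]

/-- A normal subgroup of the Sylow subgroup containing its centraliser is centric. -/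
theorem centric_map [Fintype F] (hm : 1 ≤ m) (hS : (S : Subgroup PSpm) = (uniSp m F).map (proj g))
    {R : Subgroup Spm} (hR : R ≤ uniSp m F) (hRn : ∀ u ∈ uniSp m F, ∀ r ∈ R, u * r * u⁻¹ ∈ R)
    (hC : ∀ u ∈ uniSp m F, (∀ r ∈ R, u * r = r * u) → u ∈ R) :
    (groupFusionSystem (S : Subgroup PSpm)).IsCentric (R.map (proj g)) := by
  set T : Subgroup PSpm := (S : Subgroup PSpm)
  have hTp : IsPGroup p T := S.isPGroup'
  have hRT : R.map (proj g) ≤ T := hS ▸ Subgroup.map_mono hR
  have hTR : T ≤ Subgroup.normalizer ((R.map (proj g) : Subgroup PSpm) : Set PSpm) := by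
    intro x hx
    obtain ⟨a, ha, rfl⟩ := Subgroup.mem_map.mp (hS ▸ hx : x ∈ (uniSp m F).map (proj g))
    refine Subgroup.mem_normalizer_fintype fun y hy => ?_
    obtain ⟨u, hu, rfl⟩ := Subgroup.mem_map.mp hy
    exact ⟨a * u * a⁻¹, hRn a ha u hu, by rw [map_mul, map_mul, map_inv]⟩
  have hfn : (groupFusionSystem T).IsFullyNormalized (R.map (proj g)) := by
    refine ⟨hRT, fun Q hQ => ?_⟩
    have e : normalizerIn T (R.map (proj g)) = T := le_antisymm normalizerIn_le fun x hx => ⟨hx, hTR hx⟩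
    rw [e]
    exact card_le_of_le normalizerIn_le
  refine isCentric_of_fullyCentralized hTp (groupFusion_saturated S)
    (IsSaturated_fullyNormalized hTp (groupFusion_saturated S) hfn).1 fun x hx => ?_
  obtain ⟨u, hu, rfl⟩ := Subgroup.mem_map.mp (hS ▸ hx.1 : x ∈ (uniSp m F).map (proj g))
  refine Subgroup.mem_map_of_mem _ (hC u hu fun r hr => ?_)
  have h1 := hx.2 _ (Subgroup.mem_map_of_mem (proj g) hr)
  rw [← map_mul, ← map_mul] at h1
  obtain ⟨z, hz, he⟩ := (proj_eq_iff g _ _).mp h1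
  obtain ⟨k, hk⟩ := pow_eq_one_of_mem p ⟨_, mul_mem (inv_mem (mul_mem (hR hr) hu)) (mul_mem hu (hR hr))⟩
  have hz' : (r * u)⁻¹ * (u * r) = z := by rw [he]; group
  rw [center_pElement p hm hz (k := k) (hz' ▸ congrArg Subtype.val hk), mul_one] at he
  exact he

/-- Conjugations in a weakly normal system on a fixed subgroup. -/
theorem mor_closure [Fintype F] {E : FusionSystem (S : Subgroup PSpm)}
    (hE : E.IsWeaklyNormalIn (groupFusionSystem (S : Subgroup PSpm)) p) {R : Subgroup PSpm}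
    (hR : R ≤ (S : Subgroup PSpm)) {A : Set PSpm}
    (hA : ∀ a ∈ A, a ∈ Subgroup.normalizer (R : Set PSpm) ∧ ∃ k : ℕ, orderOf a = p ^ k) {x : PSpm}
    (hx : x ∈ Submonoid.closure A) : x ∈ Subgroup.normalizer (R : Set PSpm) ∧ Mor E R (cj x) := by
  induction hx using Submonoid.closure_induction with
  | mem a ha =>
    obtain ⟨h1, k, hk⟩ := hA a ha
    exact ⟨h1, weaklyNormal_pElement S hE hR h1 hk⟩
  | one => exact ⟨one_mem _, (Mor.id' hR).congr fun y _ => by simp⟩
  | mul a b _ _ iha ihb =>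
    exact ⟨mul_mem iha.1 ihb.1, (ihb.2.comp iha.2 fun y hy => (cj_mem_iff ihb.1 y).mpr hy).congr
      fun y _ => (cj_mul a b y).symm⟩

theorem automizer [Fintype F] (hm : 2 ≤ m) (hS : (S : Subgroup PSpm) = (uniSp m F).map (proj g))
    (E : FusionSystem (S : Subgroup PSpm))
    (hE : E.IsWeaklyNormalIn (groupFusionSystem (S : Subgroup PSpm)) p)
    (x : PSpm) (hx : x ∈ Subgroup.normalizer ((S : Subgroup PSpm) : Set PSpm)) :
    Mor E (S : Subgroup PSpm) (cj x) := by
  have hTp : IsPGroup p (S : Subgroup PSpm) := S.isPGroup'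
  have hI := groupFusion_inducedBy (S : Subgroup PSpm)
  have porU : ∀ u ∈ uniSp m F, ∃ k : ℕ, orderOf (proj g u) = p ^ k := by
    intro u hu
    obtain ⟨k, hk⟩ := pow_eq_one_of_mem p ⟨u, hu⟩
    obtain ⟨i, -, hi⟩ := (Nat.dvd_prime_pow (Fact.out : p.Prime)).mp (orderOf_dvd_of_pow_eq_one
      (show proj g u ^ p ^ k = 1 by rw [← map_pow, show u ^ p ^ k = 1 from congrArg Subtype.val hk, map_one]))
    exact ⟨i, hi⟩
  have porC : ∀ (w u : Spm), u ∈ uniSp m F → ∃ k : ℕ, orderOf (proj g (w * u * w⁻¹)) = p ^ k := by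
    intro w u hu
    obtain ⟨k, hk⟩ := porU u hu
    exact ⟨k, by rw [map_mul, map_mul, map_inv, ← MulAut.conj_apply, MulEquiv.orderOf_eq, hk]⟩
  haveI : Finite PSpm := inferInstance
  let C₀ : Submonoid PSpm :=
    { carrier := {y | y ∈ Subgroup.normalizer ((S : Subgroup PSpm) : Set PSpm) ∧ Mor E (S : Subgroup PSpm) (cj y)}
      one_mem' := ⟨one_mem _, (Mor.id' le_rfl).congr fun y _ => by simp⟩
      mul_mem' := by
        rintro a b ⟨ha, ha'⟩ ⟨hb, hb'⟩
        exact ⟨mul_mem ha hb, (hb'.comp ha' fun y hy => (cj_mem_iff hb y).mpr hy).congr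
          fun y _ => (cj_mul a b y).symm⟩ }
  -- a general source of elements of `C₀`
  have src : ∀ (R : Subgroup Spm), R ≤ uniSp m F → (∀ u ∈ uniSp m F, ∀ r ∈ R, u * r * u⁻¹ ∈ R) →
      (∀ u ∈ uniSp m F, (∀ r ∈ R, u * r = r * u) → u ∈ R) → ∀ A : Set Spm,
      (∀ a ∈ A, (∀ r ∈ R, a * r * a⁻¹ ∈ R) ∧ ∃ k : ℕ, orderOf (proj g a) = p ^ k) → ∀ h : Spm,
      h ∈ Submonoid.closure A → (∀ u ∈ uniSp m F, h * u * h⁻¹ ∈ uniSp m F) → proj g h ∈ C₀ := by
    intro R hR hRn hC A hA h hh hhU
    have hhT : proj g h ∈ Subgroup.normalizer ((S : Subgroup PSpm) : Set PSpm) := by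
      refine Subgroup.mem_normalizer_fintype fun y hy => ?_
      obtain ⟨u, hu, rfl⟩ := Subgroup.mem_map.mp (hS ▸ hy : y ∈ (uniSp m F).map (proj g))
      rw [SetLike.mem_coe, hS]
      exact ⟨h * u * h⁻¹, hhU u hu, by rw [map_mul, map_mul, map_inv]⟩
    have hmem : proj g h ∈ Submonoid.closure (proj g '' A) := by
      rw [← MonoidHom.map_mclosure]; exact Submonoid.mem_map_of_mem _ hh
    obtain ⟨h1, h2⟩ := mor_closure hE (hS ▸ Subgroup.map_mono hR : R.map (proj g) ≤ (S : Subgroup PSpm)) (A := proj g '' A) (by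
      rintro _ ⟨a, ha, rfl⟩
      refine ⟨Subgroup.mem_normalizer_fintype fun y hy => ?_, (hA a ha).2⟩
      obtain ⟨r, hr, rfl⟩ := Subgroup.mem_map.mp hy
      exact ⟨a * r * a⁻¹, (hA a ha).1 r hr, by rw [map_mul, map_mul, map_inv]⟩) hmem
    exact ⟨hhT, weaklyNormal_extend hTp (groupFusion_saturated S) hI hE hhT
      (centric_map (by omega) hS hR hRn hC) h1 h2⟩
  let C : Subgroup Spm :=
    { toSubmonoid := C₀.comap (proj g)
      inv_mem' := fun {y} hy => by
        show proj g y⁻¹ ∈ C₀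
        rw [map_inv]
        obtain ⟨n, hn⟩ : ∃ n : ℕ, (proj g y)⁻¹ = (proj g y) ^ n :=
          ⟨orderOf (proj g y) - 1, by
            rw [inv_eq_iff_mul_eq_one, ← pow_succ', Nat.sub_add_cancel (orderOf_pos _), pow_orderOf_eq_one]⟩
        rw [hn]; exact pow_mem hy n }
  have hUC : ∀ u ∈ uniSp m F, u ∈ C := by
    intro u hu
    refine src (uniSp m F) le_rfl (fun u hu r hr => mul_mem (mul_mem hu hr) (inv_mem hu))
      (fun u hu _ => hu) {u} ?_ u (Submonoid.subset_closure rfl)
      (fun r hr => mul_mem (mul_mem hu hr) (inv_mem hu))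
    rintro a rfl
    exact ⟨fun r hr => mul_mem (mul_mem hu hr) (inv_mem hu), porU _ hu⟩
  haveI : Nontrivial (Fin m) := Fin.nontrivial_iff_two_le.mpr hm
  let b : Fin m := ⟨m - 1, by omega⟩
  have hb : ∀ i : Fin m, i ≤ b := fun i => by simp [Fin.le_def, b]; omega
  -- diagonal elements normalise `uniSp`
  have hdiagU : ∀ (d : GL (Fin m) F), (∀ i j, i ≠ j → (d : Mat) i j = 0) → ∀ u ∈ uniSp m F,
      lev d * u * (lev d)⁻¹ ∈ uniSp m F := by
    rintro d hd _ ⟨a, ha, R, hR, rfl⟩
    rw [show lev d * (lev (SpecialLinearGroup.toGL a) * nilS R hR) * (lev d)⁻¹ =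
      lev (d * SpecialLinearGroup.toGL a * d⁻¹) * (lev d * nilS R hR * (lev d)⁻¹) by
        rw [map_mul, map_mul, map_inv]; group, lev_conj]
    refine mul_mem (mem_of_blocks ?_ fun i j hji => ?_) (nilS_mem _)
    · rw [lev_val, toBlocks_fromBlocks₂₁]
    · rw [lev_val, toBlocks_fromBlocks₁₁]
      have hd1 : (d : Mat) = Matrix.diagonal fun i => (d : Mat) i i :=
        Matrix.ext fun i j => by
          by_cases h : i = j
          · subst h; simp
          · simp [h, hd i j h]
      have hu : (d : Mat).det ≠ 0 := ((Matrix.isUnit_iff_isUnit_det _).mp d.isUnit).ne_zero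
      rw [hd1, Matrix.det_diagonal, Finset.prod_ne_zero_iff] at hu
      have hd2 : ((d⁻¹ : GL (Fin m) F) : Mat) = Matrix.diagonal fun i => ((d : Mat) i i)⁻¹ := by
        refine left_inv_eq_right_inv (Units.inv_mul _) ?_
        conv_lhs => rw [hd1]
        rw [Matrix.diagonal_mul_diagonal, ← Matrix.diagonal_one]
        exact congrArg Matrix.diagonal (funext fun i => by simp [hu i (Finset.mem_univ _)])
      show ((d : Mat) * a.1 * ((d⁻¹ : GL (Fin m) F) : Mat)) i j = _
      rw [hd2]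
      conv_lhs => rw [hd1]
      rw [Matrix.mul_diagonal, Matrix.diagonal_mul]
      simp only [Matrix.diagonal_apply_eq]
      rw [ha i j hji]
      by_cases h : i = j
      · subst h; simp [hu i (Finset.mem_univ _)]
      · simp [h]
  -- the long coroot
  have hlong : ∀ t : Fˣ, hLong b t ∈ C := by
    intro t
    let R : Subgroup Spm :=
      { carrier := radSp b
        one_mem' := ⟨one_mem _, by simp⟩
        mul_mem' := fun h h' => ⟨mul_mem h.1 h'.1, by rw [long_entry hb h.1 h'.1, h.2, h'.2, add_zero]⟩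
        inv_mem' := fun {h} hh => ⟨inv_mem hh.1, by
          have h1 := long_entry hb hh.1 (inv_mem hh.1)
          rw [mul_inv_cancel, Submonoid.coe_one, Matrix.one_apply_ne Sum.inl_ne_inr, hh.2, zero_add] at h1
          exact h1.symm⟩ }
    refine src R (fun h hh => hh.1) (fun u hu r hr => radSp_conj_uni hb hu hr) ?_
      (Set.range (xPos b) ∪ Set.range (xNeg b)) ?_ (hLong b t) ?_ ?_
    · intro u hu hc
      refine ⟨hu, ?_⟩
      obtain ⟨a, ha, Su, hSu, rfl⟩ := hu
      obtain ⟨c, hcb⟩ := exists_ne b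
      have hlt : c < b := lt_of_le_of_ne (hb c) hcb
      have htU : SpecialLinearGroup.transvection hlt.ne (1 : F) ∈ upperUni m F := by
        intro x y hyx
        show Matrix.transvection c b (1 : F) x y = _
        rw [Matrix.transvection, Matrix.add_apply, Matrix.one_apply, Matrix.single_apply, if_neg
          (fun e : c = x ∧ b = y => absurd (e.1 ▸ e.2 ▸ hlt) (not_lt.mpr hyx)), add_zero]
      have hrR : lev (SpecialLinearGroup.toGL (SpecialLinearGroup.transvection hlt.ne (1 : F))) ∈ R :=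
        ⟨lev_mem htU, by rw [lev_val]; rfl⟩
      have h1 := congrArg Subtype.val (hc _ hrR)
      have h2 := congrFun (congrFun h1 (.inl c)) (.inr b)
      simp only [Submonoid.coe_mul, lev_val, nilS_val, fromBlocks_multiply, fromBlocks_apply₁₂,
        Matrix.mul_zero, zero_add, Matrix.zero_mul, add_zero, Matrix.mul_one] at h2
      rw [show ((SpecialLinearGroup.toGL (SpecialLinearGroup.transvection hlt.ne (1 : F)))⁻¹ : GL (Fin m) F).val =
          Matrix.transvection c b (-1) from left_inv_eq_right_inv (Units.inv_mul _) (by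
            show Matrix.transvection c b 1 * Matrix.transvection c b (-1) = 1
            rw [Matrix.transvection_mul_transvection_same c b hlt.ne, add_neg_cancel, Matrix.transvection_zero]),
        show ((SpecialLinearGroup.toGL (SpecialLinearGroup.transvection hlt.ne (1 : F)) : GL (Fin m) F) : Mat) =
          Matrix.transvection c b 1 from rfl,
        show (Matrix.transvection c b (-1 : F))ᵀ = Matrix.transvection b c (-1) by
          simp [Matrix.transvection, transpose_add, transpose_single],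
        Matrix.mul_transvection_apply_of_ne _ _ _ _ hlt.ne', Matrix.transvection_mul_apply_same, one_mul] at h2
      rw [lev_mul_nilS_val, fromBlocks_apply₁₂]
      exact (add_eq_left.mp h2.symm)
    · rintro a (⟨c, rfl⟩ | ⟨c, rfl⟩)
      · exact ⟨fun r hr => radSp_conj_uni hb (nilS_mem _) hr, porU _ (nilS_mem _)⟩
      · refine ⟨fun r hr0 => ?_, porC (wEl b) _ (nilS_mem _)⟩
        have hr : r ∈ radSp b := hr0
        have hinv : (wEl b)⁻¹ * r * wEl b ∈ radSp b := by
          have hsq : (wEl b * wEl b) * r * (wEl b * wEl b)⁻¹ ∈ radSp b := by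
            have := radSp_conj_wEl hb (radSp_conj_wEl hb hr)
            rwa [show wEl b * (wEl b * r * (wEl b)⁻¹) * (wEl b)⁻¹ = wEl b * wEl b * r * (wEl b * wEl b)⁻¹ by
              group] at this
          obtain ⟨n, hn⟩ : ∃ n : ℕ, (wEl (F := F) b)⁻¹ = wEl b ^ n :=
            ⟨orderOf (wEl (F := F) b) - 1, by
              rw [inv_eq_iff_mul_eq_one, ← pow_succ', Nat.sub_add_cancel (orderOf_pos _), pow_orderOf_eq_one]⟩
          have key : ∀ n : ℕ, wEl b ^ n * r * (wEl b ^ n)⁻¹ ∈ radSp b := by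
            intro n
            induction n with
            | zero => simpa using hr
            | succ n ih =>
              have := radSp_conj_wEl hb ih
              rwa [show wEl b * (wEl b ^ n * r * (wEl b ^ n)⁻¹) * (wEl b)⁻¹ =
                wEl b ^ (n + 1) * r * (wEl b ^ (n + 1))⁻¹ by rw [pow_succ']; group] at this
          have := key n
          rwa [← hn, inv_inv] at this
        have := radSp_conj_wEl hb (radSp_conj_uni hb (nilS_mem (single_isSymm b (-c))) hinv)
        rwa [show wEl b * (nilS _ (single_isSymm b (-c)) * ((wEl b)⁻¹ * r * wEl b) *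
          (nilS _ (single_isSymm b (-c)))⁻¹) * (wEl b)⁻¹ = xNeg b c * r * (xNeg b c)⁻¹ by
            simp only [xNeg, xPos]; group] at this
    · rw [hLong_eq]
      have hp : ∀ c : F, xPos b c ∈ Submonoid.closure (Set.range (xPos b) ∪ Set.range (xNeg b)) :=
        fun c => Submonoid.subset_closure (Or.inl ⟨c, rfl⟩)
      have hn : ∀ c : F, xNeg b c ∈ Submonoid.closure (Set.range (xPos b) ∪ Set.range (xNeg b)) :=
        fun c => Submonoid.subset_closure (Or.inr ⟨c, rfl⟩)
      exact mul_mem (mul_mem (mul_mem (mul_mem (mul_mem (hp _) (hn _)) (hp _)) (hp _)) (hn _)) (hp _)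
    · exact hdiagU _ fun i j hij => Matrix.diagonal_apply_ne _ hij
  -- the coroots of `SL_m`
  have hshort : ∀ (d : Fin m → F) (hd : ∏ i, d i = 1),
      lev (SpecialLinearGroup.toGL (PSLn.dg d hd)) ∈ C := by
    refine PSLn.dg_mem (C := C.comap (lev.comp SpecialLinearGroup.toGL)) fun k l hkl _ t ht => ?_
    show lev (SpecialLinearGroup.toGL (PSLn.dg _ _)) ∈ C
    refine src (nil (m := m) (F := F)).range ?_ ?_ ?_ (Set.range (fun q : F =>
        lev (SpecialLinearGroup.toGL (SpecialLinearGroup.transvection hkl q))) ∪ Set.range (fun q : F =>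
        lev (SpecialLinearGroup.toGL (SpecialLinearGroup.transvection hkl.symm q)))) ?_ _ ?_ ?_
    · rintro _ ⟨R, rfl⟩; exact nilS_mem R.toAdd.2
    · rintro _ ⟨a, ha, Su, hSu, rfl⟩ _ ⟨R, rfl⟩
      refine ⟨Multiplicative.ofAdd ⟨_, congr_isSymm ((SpecialLinearGroup.toGL a : GL (Fin m) F) : Mat) R.toAdd.2⟩, ?_⟩
      have hR0 : R.toAdd.1.IsSymm := R.toAdd.2
      have hcm : nilS Su hSu * nilS R.toAdd.1 hR0 = nilS R.toAdd.1 hR0 * nilS Su hSu := by
        rw [nilS_mul, nilS_mul]; exact nilS_congr (add_comm _ _) _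
      refine (lev_conj (SpecialLinearGroup.toGL a) R.toAdd.2).symm.trans ?_
      show _ = lev (SpecialLinearGroup.toGL a) * nilS Su hSu * nilS R.toAdd.1 hR0 *
        (lev (SpecialLinearGroup.toGL a) * nilS Su hSu)⁻¹
      rw [mul_assoc (lev (SpecialLinearGroup.toGL a)) (nilS Su hSu), hcm]
      group
    · rintro _ ⟨a, ha, Su, hSu, rfl⟩ hc
      have hfix : ∀ R : Mat, R.IsSymm → ((SpecialLinearGroup.toGL a : GL (Fin m) F) : Mat) * R *
          ((SpecialLinearGroup.toGL a : GL (Fin m) F) : Mat)ᵀ = R := by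
        intro R hR
        have h1 := hc (nilS R hR) ⟨_, rfl⟩
        refine nilS_injective (hS := congr_isSymm _ hR) (hT := hR) ?_
        rw [← lev_conj _ hR, mul_inv_eq_iff_eq_mul]
        refine mul_right_cancel (b := nilS Su hSu) ?_
        have hcm : nilS R hR * nilS Su hSu = nilS Su hSu * nilS R hR := by
          rw [nilS_mul, nilS_mul]; exact nilS_congr (add_comm _ _) _
        rw [mul_assoc _ (nilS R hR), hcm, ← mul_assoc, h1, mul_assoc]
      have ha1 : SpecialLinearGroup.toGL a = 1 := by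
        refine Units.ext (Matrix.ext fun i j => ?_)
        rw [Units.val_one]
        rcases lt_trichotomy i j with h | h | h
        · have h1 := congrFun (congrFun (hfix _ (single_isSymm j 1)) i) i
          rw [Matrix.mul_apply, Finset.sum_eq_single j] at h1
          · rw [transpose_apply, Matrix.mul_single_apply_same, Matrix.single_apply_of_row_ne h.ne'] at h1
            simp only [mul_one, mul_self_eq_zero] at h1
            rw [h1, Matrix.one_apply_ne h.ne]
          · intro c _ hc; rw [Matrix.mul_single_apply_of_ne (hbj := hc), zero_mul]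
          · simp
        · subst h; rw [Matrix.one_apply_eq]; exact (ha i i le_rfl).trans (if_pos rfl)
        · rw [Matrix.one_apply_ne h.ne']; exact (ha i j h.le).trans (if_neg h.ne')
      exact ⟨Multiplicative.ofAdd ⟨Su, hSu⟩, by rw [ha1, map_one, one_mul]; rfl⟩
    · have hn : ∀ (v : GL (Fin m) F), ∀ r ∈ (nil (m := m) (F := F)).range,
          lev v * r * (lev v)⁻¹ ∈ (nil (m := m) (F := F)).range := by
        rintro v _ ⟨R, rfl⟩
        exact ⟨Multiplicative.ofAdd ⟨_, congr_isSymm (v : Mat) R.toAdd.2⟩, (lev_conj v R.toAdd.2).symm⟩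
      have hpo : ∀ {k l : Fin m} (hkl : k ≠ l) (q : F), ∃ i : ℕ,
          orderOf (proj g (lev (SpecialLinearGroup.toGL (SpecialLinearGroup.transvection hkl q)))) = p ^ i := by
        intro k l hkl q
        obtain ⟨i, -, hi⟩ := (Nat.dvd_prime_pow (Fact.out : p.Prime)).mp
          (orderOf_dvd_of_pow_eq_one (n := p ^ 1) (x := proj g (lev (SpecialLinearGroup.toGL
            (SpecialLinearGroup.transvection hkl q)))) (by
              rw [pow_one, ← map_pow, ← map_pow, ← map_pow, PSLn.transvection_pow p, map_one, map_one, map_one]))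
        exact ⟨i, hi⟩
      rintro _ (⟨q, rfl⟩ | ⟨q, rfl⟩)
      · exact ⟨hn _, hpo _ q⟩
      · exact ⟨hn _, hpo _ q⟩
    · rw [PSLn.coroot_eq hkl ht]
      simp only [map_mul]
      refine mul_mem (mul_mem (mul_mem (mul_mem (mul_mem ?_ ?_) ?_) ?_) ?_) ?_ <;>
        first
        | exact Submonoid.subset_closure (Or.inl ⟨_, rfl⟩)
        | exact Submonoid.subset_closure (Or.inr ⟨_, rfl⟩)
    · exact hdiagU _ fun i j hij => Matrix.diagonal_apply_ne _ hij
  obtain ⟨s, rfl⟩ := proj_surjective g x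
  obtain ⟨d, v, hv, rfl, hd, -, -⟩ := exists_diag_factor (p := p) hm g (hS ▸ hx)
  have hdC : lev d ∈ C := by
    set e : Fin m → F := fun i => (lev d * v).1 (.inl i) (.inl i)
    have hd' : (d : Mat) = Matrix.diagonal e := Matrix.ext fun i j => by
      rw [hd, Matrix.diagonal_apply]
    have hne : ∀ i, e i ≠ 0 := by
      have h := ((Matrix.isUnit_iff_isUnit_det _).mp d.isUnit).ne_zero
      rw [hd', Matrix.det_diagonal, Finset.prod_ne_zero_iff] at h
      exact fun i => h i (Finset.mem_univ _)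
    have hP : ∏ i, e i ≠ 0 := Finset.prod_ne_zero_iff.mpr fun i _ => hne i
    set t : Fˣ := Units.mk0 _ hP
    have hd1 : ∏ i, Function.update e b (e b * (t : F)⁻¹) i = 1 := by
      rw [Finset.prod_update_of_mem (Finset.mem_univ b), mul_right_comm,
        ← Finset.prod_eq_mul_prod_sdiff_singleton_of_mem (Finset.mem_univ b)]
      exact mul_inv_cancel₀ hP
    have : d = SpecialLinearGroup.toGL (PSLn.dg _ hd1) *
        ⟨Matrix.diagonal (Function.update 1 b (t : F)), Matrix.diagonal (Function.update 1 b ((t⁻¹ : Fˣ) : F)),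
          by rw [Matrix.diagonal_mul_diagonal, ← Matrix.diagonal_one]
             exact congrArg Matrix.diagonal (funext fun i => by by_cases h : i = b <;> simp [h]),
          by rw [Matrix.diagonal_mul_diagonal, ← Matrix.diagonal_one]
             exact congrArg Matrix.diagonal (funext fun i => by by_cases h : i = b <;> simp [h])⟩ := by
      refine Units.ext ?_
      rw [hd', Units.val_mul]
      show _ = Matrix.diagonal _ * Matrix.diagonal _
      rw [Matrix.diagonal_mul_diagonal]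
      refine congrArg Matrix.diagonal (funext fun i => ?_)
      by_cases h : i = b
      · subst h; simp [mul_assoc]
      · simp [h]
    rw [this, map_mul]
    exact mul_mem (hshort _ hd1) (hlong t)
  exact (mul_mem hdC (hUC v hv)).2

/-- The `p`-fusion system of `PSp_{2m}` in characteristic `p` is simple. -/
theorem isSimple [Fintype F] (hm : 2 ≤ m) (hex : m = 2 → 3 ≤ Fintype.card F) (S : Sylow p PSpm) :
    (groupFusionSystem (S : Subgroup PSpm)).IsSimple p := by
  obtain ⟨g, hS⟩ := exists_proj_sylow hm S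
  refine group_isSimple_of_extend S ?_ (fun T hT => closed_trivial hm hex hS hT) (automizer hm hS)
  intro h
  let i0 : Fin m := ⟨0, by omega⟩
  set u := xPos i0 (1 : F)
  have hu : u ∈ uniSp m F := nilS_mem _
  have h1 : proj g u ∈ (S : Subgroup PSpm) := hS ▸ Subgroup.mem_map_of_mem _ hu
  rw [h, Subgroup.mem_bot] at h1
  obtain ⟨z, hz, he⟩ := (proj_eq_iff g u 1).mp (by rw [h1, map_one])
  obtain ⟨k, hk⟩ := pow_eq_one_of_mem p ⟨_, inv_mem hu⟩
  have hz' : z = u⁻¹ := eq_inv_of_mul_eq_one_right he.symm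
  rw [center_pElement p (by omega) hz (k := k) (hz' ▸ congrArg Subtype.val hk), mul_one] at he
  have := congrFun (congrFun (congrArg Subtype.val he) (.inl i0)) (.inr i0)
  rw [show u.1 = _ from xPos_val i0 1] at this
  simp [Matrix.transvection] at this

end Cfsg.Agent.Fusion.PSp
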